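import Cfsg.Agent.GeoMax.SubSp

/-! Transitivity of the transvection group on orthogonal independent pairs. -/

set_option autoImplicit false
set_option linter.unusedSectionVars false

namespace Cfsg.Agent.GeoMax

open Matrix
open scoped MatrixGroups
open Cfsg.Geo

namespace Symp

variable {ι : Type} [Fintype ι] [DecidableEq ι] {F : Type*} [Field F]
variable {f : (ι → F) → (ι → F) → F}

lemma exists_sep (hf : IsSymplecticForm f) {a b b' : ι → F} (hb : b ∉ Submodule.span F {a})
    (hb' : b' ∉ Submodule.span F {a}) : ∃ z, f a z = 0 ∧ f b z ≠ 0 ∧ f b' z ≠ 0 := by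
  obtain ⟨z1, h1, h1'⟩ := exists_perp_ne hf hb
  obtain ⟨z2, h2, h2'⟩ := exists_perp_ne hf hb'
  have ha1 := h1 a (Submodule.mem_span_singleton_self a)
  have ha2 := h2 a (Submodule.mem_span_singleton_self a)
  by_cases h3 : f b' z1 = 0
  · by_cases h4 : f b z2 = 0
    · refine ⟨z1 + z2, ?_, ?_, ?_⟩
      · rw [add_right hf, ha1, ha2, add_zero]
      · rw [add_right hf, h4, add_zero]; exact h1'
      · rw [add_right hf, h3, zero_add]; exact h2'
    · exact ⟨z2, ha2, h4, h2'⟩
  · exact ⟨z1, ha1, h1', h3⟩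

lemma exists_perp_notMem (hf : IsSymplecticForm f) (l l' : List (ι → F))
    (hl : l.length + l'.length < Fintype.card ι) :
    ∃ w : ι → F, w ∉ Submodule.span F {x | x ∈ l'} ∧ ∀ v ∈ l, f w v = 0 := by
  by_contra hcon
  push Not at hcon
  have h1 : perp hf (Submodule.span F {x | x ∈ l}) ≤ Submodule.span F {x | x ∈ l'} := by
    intro w hw
    by_contra hw'
    obtain ⟨v, hv, hne⟩ := hcon w hw'
    rw [mem_perp'] at hw
    exact hne (hw v (Submodule.subset_span hv))
  have h2 := Submodule.finrank_mono h1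
  rw [finrank_perp] at h2
  have h3 := finrank_span_list_le (K := F) l
  have h4 := finrank_span_list_le (K := F) l'
  omega

/-- orthogonal independent pairs form one orbit -/
theorem pair_induction (hf : IsSymplecticForm f) (hι : 4 < Fintype.card ι) {P : (ι → F) → (ι → F) → Prop}
    (hstep : ∀ a b z : ι → F, ∀ t : F, P a b →
      P ((tr hf z t : Matrix ι ι F) *ᵥ a) ((tr hf z t : Matrix ι ι F) *ᵥ b))
    {a b : ι → F} (ha0 : a ≠ 0) (hb : b ∉ Submodule.span F {a}) (hab : f a b = 0) (h : P a b)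
    {a' b' : ι → F} (ha'0 : a' ≠ 0) (hb' : b' ∉ Submodule.span F {a'}) (hab' : f a' b' = 0) : P a' b' := by
  -- changing the second vector
  have s1 : ∀ a b b' : ι → F, f a b = 0 → f a b' = 0 → f b b' ≠ 0 → P a b → P a b' := by
    intro a b b' h1 h2 h3 h
    have := hstep a b (b' - b) (f b b')⁻¹ h
    rw [tr_move hf h3, tr_mulVec, sub_right hf, h1, h2, sub_zero, mul_zero, zero_smul, add_zero] at this
    exact this
  have s2 : ∀ a b b' : ι → F, f a b = 0 → f a b' = 0 → b ∉ Submodule.span F {a} → b' ∉ Submodule.span F {a} →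
      P a b → P a b' := by
    intro a b b' h1 h2 h3 h4 h
    obtain ⟨z, hz, hbz, hbz'⟩ := exists_sep hf h3 h4
    refine s1 a z b' hz h2 ?_ (s1 a b z h1 hz hbz h)
    rw [skew hf]; exact neg_ne_zero.2 hbz'
  have t1 : ∀ b a a' : ι → F, f b a = 0 → f b a' = 0 → f a a' ≠ 0 → P a b → P a' b := by
    intro b a a' h1 h2 h3 h
    have := hstep a b (a' - a) (f a a')⁻¹ h
    rw [tr_move hf h3, tr_mulVec, sub_right hf, h1, h2, sub_zero, mul_zero, zero_smul, add_zero] at this
    exact this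
  have t2 : ∀ b a a' : ι → F, f b a = 0 → f b a' = 0 → a ∉ Submodule.span F {b} → a' ∉ Submodule.span F {b} →
      P a b → P a' b := by
    intro b a a' h1 h2 h3 h4 h
    obtain ⟨z, hz, hbz, hbz'⟩ := exists_sep hf h3 h4
    refine t1 b z a' hz h2 ?_ (t1 b a z h1 hz hbz h)
    rw [skew hf]; exact neg_ne_zero.2 hbz'
  obtain ⟨b₁, hb₁, hb₁p⟩ := exists_perp_notMem hf [a, a'] [a, a'] (by simpa using hι)
  have hspan : ∀ x y : ι → F, x ∈ ([a, a'] : List (ι → F)) → y ∈ Submodule.span F {x} →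
      y ∈ Submodule.span F {x | x ∈ ([a, a'] : List (ι → F))} := by
    intro x y hx hy
    refine Submodule.span_mono ?_ hy
    rintro _ rfl
    exact hx
  have n1 : b₁ ∉ Submodule.span F {a} := fun h => hb₁ (hspan a _ (by simp) h)
  have n2 : b₁ ∉ Submodule.span F {a'} := fun h => hb₁ (hspan a' _ (by simp) h)
  have n3 : ∀ x : ι → F, x ≠ 0 → b₁ ∉ Submodule.span F {x} → x ∉ Submodule.span F {b₁} := by
    intro x hx h1 h2
    obtain ⟨c, hc⟩ := Submodule.mem_span_singleton.1 h2
    have hc0 : c ≠ 0 := by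
      rintro rfl; rw [zero_smul] at hc; exact hx hc.symm
    apply h1
    rw [Submodule.mem_span_singleton]
    exact ⟨c⁻¹, by rw [← hc, smul_smul, inv_mul_cancel₀ hc0, one_smul]⟩
  have q1 : P a b₁ := s2 a b b₁ hab (f_symm' hf (hb₁p a (by simp))) hb n1 h
  have q2 : P a' b₁ := t2 b₁ a a' (hb₁p a (by simp)) (hb₁p a' (by simp)) (n3 a ha0 n1) (n3 a' ha'0 n2) q1
  exact s2 a' b₁ b' (f_symm' hf (hb₁p a' (by simp))) hab' n2 hb' q2
where
  f_symm' {f : (ι → F) → (ι → F) → F} (hf : IsSymplecticForm f) {u v : ι → F} (h : f u v = 0) : f v u = 0 := by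
    rw [skew hf, h, neg_zero]

end Symp

end Cfsg.Agent.GeoMax
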