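import Cfsg.Agent.GeoMax.Transv

/-! Transport of maximality along group isomorphisms. -/

set_option autoImplicit false

namespace Cfsg.Agent.GeoMax

open Cfsg.Geo

lemma isMaximalIn_map {G G' : Type*} [Group G] [Group G'] (e : G ≃* G') {K H : Subgroup G} (h : IsMaximalIn K H) :
    IsMaximalIn (K.map e.toMonoidHom) (H.map e.toMonoidHom) := by
  have hinj : Function.Injective e.toMonoidHom := e.injective
  obtain ⟨hlt, hmax⟩ := h
  constructor
  · refine lt_of_le_of_ne (Subgroup.map_mono hlt.le) ?_
    intro heq
    exact hlt.ne (Subgroup.map_injective hinj heq)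
  · intro M hHM hMK
    have h1 : (M.comap e.toMonoidHom).map e.toMonoidHom = M := by
      apply Subgroup.map_comap_eq_self_of_surjective e.surjective
    have h2 : H ≤ M.comap e.toMonoidHom := Subgroup.map_le_iff_le_comap.1 hHM
    have h3 : M.comap e.toMonoidHom ≤ K := by
      intro x hx
      have := hMK hx
      obtain ⟨y, hy, hyx⟩ := this
      rwa [← hinj hyx]
    rcases hmax _ h2 h3 with h | h
    · left; rw [← h1, h]
    · right; rw [← h1, h]

end Cfsg.Agent.GeoMax
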