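import Cfsg.Agent.GeoMax.OPar
import Cfsg.Agent.GeoMax.Transport
import Cfsg.Prelude.Def_GeometricClasses

/-! Transport of maximality statements between `OGrp Q` and `GL ι F`. -/

set_option autoImplicit false
set_option linter.unusedSectionVars false

namespace Cfsg.Agent.GeoMax.Ort

open QuadraticMap Module Cfsg.Agent.Orth
open Matrix
open scoped MatrixGroups

lemma isMaximalIn_map_inj {G G' : Type*} [Group G] [Group G'] (e : G →* G') (he : Function.Injective e)
    {K H : Subgroup G} (h : Cfsg.Geo.IsMaximalIn K H) :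
    Cfsg.Geo.IsMaximalIn (K.map e) (H.map e) := by
  obtain ⟨hlt, hmax⟩ := h
  constructor
  · refine lt_of_le_of_ne (Subgroup.map_mono hlt.le) ?_
    intro heq
    exact hlt.ne (Subgroup.map_injective he heq)
  · intro M hHM hMK
    have h1 : (M.comap e).map e = M := by
      apply Subgroup.map_comap_eq_self
      refine hMK.trans ?_
      rintro _ ⟨x, -, rfl⟩
      exact ⟨x, rfl⟩
    have h2 : H ≤ M.comap e := Subgroup.map_le_iff_le_comap.1 hHM
    have h3 : M.comap e ≤ K := by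
      intro x hx
      obtain ⟨y, hy, hyx⟩ := hMK hx
      rwa [← he hyx]
    rcases hmax _ h2 h3 with h | h
    · left; rw [← h1, h]
    · right; rw [← h1, h]

variable {ι : Type} [Fintype ι] [DecidableEq ι] {F : Type*} [Field F]

/-- the embedding of the abstract isometry group into `GL` -/
noncomputable def emGL (Q : QuadraticForm F (ι → F)) : OGrp Q →* GL ι F :=
  (Cfsg.isometryGroup F ⇑Q).subtype.comp (bridge Q).symm.toMonoidHom

lemma emGL_mulVec (Q : QuadraticForm F (ι → F)) (g : OGrp Q) (x : ι → F) :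
    (emGL Q g : Matrix ι ι F) *ᵥ x = (g : (ι → F) ≃ₗ[F] (ι → F)) x := bridge_symm_mulVec Q g x

lemma emGL_injective (Q : QuadraticForm F (ι → F)) : Function.Injective (emGL Q) :=
  (Subgroup.subtype_injective _).comp (bridge Q).symm.injective

lemma omegaGL_eq (Q : QuadraticForm F (ι → F)) :
    Cfsg.Geo.omegaGL ⇑Q = (commutator (OGrp Q)).map (emGL Q) := by
  unfold Cfsg.Geo.omegaGL emGL
  rw [← Subgroup.map_map]
  congr 1
  ext g
  rw [mem_Omega_iff]
  constructor
  · intro h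
    exact ⟨_, h, (bridge Q).symm_apply_apply g⟩
  · rintro ⟨h, hh, rfl⟩
    change bridge Q ((bridge Q).symm h) ∈ _
    rw [MulEquiv.apply_symm_apply]
    exact hh

/-- Subgroups of `Ω` described by the action on vectors. -/
lemma inf_omegaGL_eq (Q : QuadraticForm F (ι → F)) {H : Subgroup (GL ι F)} {H' : Subgroup (OGrp Q)}
    (h : ∀ g : OGrp Q, g ∈ H' ↔ emGL Q g ∈ H) :
    H ⊓ Cfsg.Geo.omegaGL ⇑Q = (H' ⊓ commutator (OGrp Q)).map (emGL Q) := by
  rw [omegaGL_eq]
  ext x
  constructor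
  · rintro ⟨hx, g, hg, rfl⟩
    exact ⟨g, ⟨(h g).2 hx, hg⟩, rfl⟩
  · rintro ⟨g, ⟨hg1, hg2⟩, rfl⟩
    exact ⟨(h g).1 hg1, g, hg2, rfl⟩

theorem isMaximalIn_omegaGL (Q : QuadraticForm F (ι → F)) {H : Subgroup (GL ι F)} {H' : Subgroup (OGrp Q)}
    (h : ∀ g : OGrp Q, g ∈ H' ↔ emGL Q g ∈ H)
    (hmax : Cfsg.Geo.IsMaximalIn (commutator (OGrp Q)) (H' ⊓ commutator (OGrp Q))) :
    Cfsg.Geo.IsMaximalIn (Cfsg.Geo.omegaGL ⇑Q) (H ⊓ Cfsg.Geo.omegaGL ⇑Q) := by
  rw [inf_omegaGL_eq Q h, omegaGL_eq]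
  exact isMaximalIn_map_inj _ (emGL_injective Q) hmax

lemma mem_stabO_iff_emGL (Q : QuadraticForm F (ι → F)) (W : Submodule F (ι → F)) (g : OGrp Q) :
    g ∈ stabO Q W ↔ emGL Q g ∈ Cfsg.Geo.subspaceStabilizer W := by
  rw [mem_stabO]
  change _ ↔ ∀ v, v ∈ W ↔ (emGL Q g : Matrix ι ι F) *ᵥ v ∈ W
  refine forall_congr' fun v => ?_
  rw [emGL_mulVec]

/-- The quadratic form of `Geo.IsNondegenerateQuadraticForm`. -/
noncomputable def toQF {Q : (ι → F) → F} (hQ : Cfsg.Geo.IsNondegenerateQuadraticForm Q) : QuadraticForm F (ι → F) :=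
  QuadraticMap.ofPolar Q (fun a x => by rw [hQ.smul, smul_eq_mul, pow_two])
    (fun x x' y => hQ.polar_bilinear.add_left x x' y)
    (fun a x y => by rw [smul_eq_mul]; exact hQ.polar_bilinear.smul_left a x y)

@[simp] lemma coe_toQF {Q : (ι → F) → F} (hQ : Cfsg.Geo.IsNondegenerateQuadraticForm Q) : ⇑(toQF hQ) = Q := rfl

lemma toQF_nondeg {Q : (ι → F) → F} (hQ : Cfsg.Geo.IsNondegenerateQuadraticForm Q) :
    (polarBilin (toQF hQ)).Nondegenerate := by
  have key : ∀ x, (∀ y, polar (toQF hQ) x y = 0) → x = 0 := by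
    intro x hx
    by_contra hne
    obtain ⟨-, y, hy⟩ := hQ.nondegenerate x hne
    exact hy (hx y)
  refine ⟨fun x hx => key x hx, fun x hx => key x fun y => ?_⟩
  rw [pc]; exact hx y

lemma two_ne_zero_of_odd {F : Type*} [Field F] [Fintype F] (h : Odd (Fintype.card F)) : (2 : F) ≠ 0 := by
  intro h2
  have hc2 : CharP F 2 := CharTwo.of_one_ne_zero_of_two_eq_zero one_ne_zero h2
  have h3 := FiniteField.even_card_iff_char_two.1 (ringChar.eq F 2 ▸ rfl : ringChar F = 2)
  rw [Nat.odd_iff] at h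
  omega

lemma two_eq_zero_of_not_odd {F : Type*} [Field F] [Fintype F] (h : ¬ Odd (Fintype.card F)) : (2 : F) = 0 := by
  rw [Nat.not_odd_iff_even, Nat.even_iff] at h
  have h3 := FiniteField.even_card_iff_char_two.2 h
  have : CharP F 2 := by rw [← h3]; exact ringChar.charP F
  exact CharTwo.two_eq_zero

end Cfsg.Agent.GeoMax.Ort
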