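import Cfsg.Agent.GeoMax.QuadEven

/-! Orthogonal decompositions for a symplectic form. -/

set_option autoImplicit false
set_option linter.unusedSectionVars false

namespace Cfsg.Agent.GeoMax

open Matrix
open scoped MatrixGroups
open Cfsg.Geo Symp

namespace SDec

variable {ι : Type} [Fintype ι] [DecidableEq ι] {F : Type*} [Field F]
variable {f : (ι → F) → (ι → F) → F}
variable {t k : ℕ} {D : Fin t → Submodule F (ι → F)}

/-- every vector is a sum of components -/
lemma exists_comp (hD : IsMDecomposition k D) (x : ι → F) : ∃ c : Fin t → (ι → F), (∀ i, c i ∈ D i) ∧ x = ∑ i, c i := by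
  have hx : x ∈ iSup D := by rw [hD.iSup_eq_top]; trivial
  rw [Submodule.mem_iSup_iff_exists_finsupp] at hx
  obtain ⟨c, hc, hx⟩ := hx
  refine ⟨c, hc, ?_⟩
  rw [← hx, Finsupp.sum_fintype]
  intro i; rfl

lemma card_le (hD : IsMDecomposition k D) : Fintype.card ι ≤ t * k := by
  have h1 : ∀ s : Finset (Fin t), Module.finrank F (⨆ i ∈ s, D i : Submodule F (ι → F)) ≤ s.card * k := by
    intro s
    induction s using Finset.induction_on with
    | empty => simp
    | insert a s ha ih =>
      rw [Finset.iSup_insert, Finset.card_insert_of_notMem ha]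
      have := Submodule.finrank_add_le_finrank_add_finrank (D a) (⨆ i ∈ s, D i)
      rw [hD.finrank_eq a] at this
      calc _ ≤ _ := this
        _ ≤ k + s.card * k := by omega
        _ = (s.card + 1) * k := by ring
  have h2 := h1 Finset.univ
  have h3 : (⨆ i ∈ (Finset.univ : Finset (Fin t)), D i) = (⊤ : Submodule F (ι → F)) := by
    rw [← hD.iSup_eq_top]
    exact iSup_congr fun i => by simp
  rw [h3, finrank_top, Module.finrank_fintype_fun_eq_card, Finset.card_univ, Fintype.card_fin] at h2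
  exact h2

variable (hf : IsSymplecticForm f) (hD : IsNondegenerateMDecomposition f k D)
include hf hD

lemma f_sum_left (s : Finset (Fin t)) (c : Fin t → (ι → F)) (y : ι → F) : f (∑ i ∈ s, c i) y = ∑ i ∈ s, f (c i) y := by
  exact map_sum ((toBilin hf).flip y) c s

lemma f_sum_right (s : Finset (Fin t)) (c : Fin t → (ι → F)) (y : ι → F) : f y (∑ i ∈ s, c i) = ∑ i ∈ s, f y (c i) := by
  exact map_sum ((toBilin hf) y) c s

/-- pairing with a vector of `D i` only sees the component -/
lemma f_comp_left {c : Fin t → (ι → F)} (hc : ∀ i, c i ∈ D i) {i : Fin t} {w : ι → F} (hw : w ∈ D i) :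
    f (∑ j, c j) w = f (c i) w := by
  rw [f_sum_left hf hD, Finset.sum_eq_single i]
  · intro j _ hj
    exact hD.orthogonal j i hj _ (hc j) _ hw
  · simp

lemma f_comp {c d : Fin t → (ι → F)} (hc : ∀ i, c i ∈ D i) (hd : ∀ i, d i ∈ D i) :
    f (∑ j, c j) (∑ j, d j) = ∑ j, f (c j) (d j) := by
  rw [f_sum_right hf hD]
  exact Finset.sum_congr rfl fun i _ => f_comp_left hf hD hc (hd i)

lemma comp_eq_zero_iff {c : Fin t → (ι → F)} (hc : ∀ i, c i ∈ D i) (i : Fin t) :
    (∀ w ∈ D i, f (∑ j, c j) w = 0) ↔ c i = 0 := by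
  constructor
  · intro h
    by_contra hne
    obtain ⟨-, w, hw, hcw⟩ := hD.nondegenerate i (c i) (hc i) hne
    rw [← f_comp_left hf hD hc hw] at hcw
    exact hcw (h w hw)
  · intro h w hw
    rw [f_comp_left hf hD hc hw, h, zero_left hf]

omit hf hD in
/-- elements of `H` move membership -/
lemma stab_mem {g : GL ι F} {σ : Equiv.Perm (Fin t)}
    (hσ : ∀ i, (D i).map (Matrix.toLin' (g : Matrix ι ι F)) = D (σ i)) {i : Fin t} {w : ι → F} :
    (g : Matrix ι ι F) *ᵥ w ∈ D (σ i) ↔ w ∈ D i := by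
  rw [← hσ i]
  constructor
  · rintro ⟨z, hz, hzw⟩
    have : z = w := gl_mulVec_injective g (by simpa using hzw)
    rwa [← this]
  · intro hw
    exact ⟨w, hw, by simp⟩

open Classical in
/-- the number of non-zero components, in `F` -/
noncomputable def wtQ (f : (ι → F) → (ι → F) → F) (D : Fin t → Submodule F (ι → F)) (x : ι → F) : F :=
  ∑ i, if (∀ w ∈ D i, f x w = 0) then 0 else 1

lemma wtQ_sum {c : Fin t → (ι → F)} (hc : ∀ i, c i ∈ D i) [∀ i, Decidable (c i = 0)] :
    wtQ f D (∑ i, c i) = ∑ i, if c i = 0 then 0 else 1 := by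
  unfold wtQ
  refine Finset.sum_congr rfl fun i _ => ?_
  have := comp_eq_zero_iff hf hD hc i
  split_ifs with h1 h2 h2
  · rfl
  · exact absurd (this.1 h1) h2
  · exact absurd (this.2 h2) h1
  · rfl

omit hD in
lemma wtQ_stab {g : GL ι F} (hg : g ∈ decompositionStabilizer D) (hgI : g ∈ isoGL f) (x : ι → F) :
    wtQ f D ((g : Matrix ι ι F) *ᵥ x) = wtQ f D x := by
  obtain ⟨σ, hσ⟩ := hg
  unfold wtQ
  rw [← Equiv.sum_comp σ]
  refine Finset.sum_congr rfl fun i _ => ?_
  have : (∀ w ∈ D (σ i), f ((g : Matrix ι ι F) *ᵥ x) w = 0) ↔ (∀ w ∈ D i, f x w = 0) := by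
    constructor
    · intro h w hw
      have := h _ ((stab_mem hσ).2 hw)
      rwa [mem_isoGL.1 hgI] at this
    · intro h w hw
      rw [← hσ i] at hw
      obtain ⟨z, hz, rfl⟩ := hw
      have h2 : Matrix.toLin' (g : Matrix ι ι F) z = (g : Matrix ι ι F) *ᵥ z := by simp
      rw [h2, mem_isoGL.1 hgI]
      exact h z hz
  by_cases h : ∀ w ∈ D i, f x w = 0
  · rw [if_pos h, if_pos (this.2 h)]
  · rw [if_neg h, if_neg (fun h' => h (this.1 h'))]

omit hD in
lemma wtQ_zero : wtQ f D 0 = 0 := by
  unfold wtQ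
  refine Finset.sum_eq_zero fun i _ => ?_
  rw [if_pos]
  intro w _; exact zero_left hf w

end SDec

section two
variable {F : Type*} [Field F] [Fintype F]

lemma eq_zero_or_one_of_card_two (hq : Fintype.card F = 2) (x : F) : x = 0 ∨ x = 1 := by
  by_contra hcon
  push Not at hcon
  classical
  have h1 : ({0, 1, x} : Finset F).card ≤ Fintype.card F := Finset.card_le_univ _
  rw [Finset.card_insert_of_notMem, Finset.card_insert_of_notMem, Finset.card_singleton] at h1
  · omega
  · simp [hcon.2.symm]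
  · simp [hcon.1.symm]

lemma two_eq_zero_of_card_two (hq : Fintype.card F = 2) : (2 : F) = 0 :=
  QEven.two_eq_zero (by rw [hq]; decide)

end two

end Cfsg.Agent.GeoMax
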