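import Cfsg.Agent.GeoMax.OPar
import Cfsg.Agent.GeoMax.SpStd

/-!
The stabiliser of a pair of complementary totally singular subspaces (type `GL_k(q).2`) in `Ω⁺_2k(q)`.
-/

set_option autoImplicit false
set_option linter.unusedSectionVars false

namespace Cfsg.Agent.GeoMax.Ort

open QuadraticMap Module Cfsg.Agent.Orth

variable {F V : Type*} [Field F] [AddCommGroup V] [Module F V]

theorem HasE.symm {Q : QuadraticForm F V} {M : Subgroup (OGrp Q)} {a b : V} (h : HasE M a b) (hb : Q b = 0) :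
    HasE M b a := by
  have h1 : HasE M b (-a) := by
    obtain ⟨ha, hab, h⟩ := h
    refine ⟨hb, by rw [polar_neg_right, pc, hab, neg_zero], ?_⟩
    convert h using 1
    refine OGrp_ext fun x => ?_
    rw [eich_apply, eich_apply, polar_neg_right, QuadraticMap.map_neg, ha, hb]
    module
  have h2 := h1.neg
  rwa [neg_neg] at h2

section
variable [Finite F] [FiniteDimensional F V] {Q : QuadraticForm F V}

theorem exists_notMem_notMem' {U A B : Submodule F V} (hA : ¬ U ≤ A) (hB : ¬ U ≤ B) :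
    ∃ x ∈ U, x ∉ A ∧ x ∉ B := by
  obtain ⟨x, hxU, hxA⟩ := SetLike.not_le_iff_exists.1 hA
  obtain ⟨y, hyU, hyB⟩ := SetLike.not_le_iff_exists.1 hB
  by_cases hxB : x ∈ B
  · by_cases hyA : y ∈ A
    · refine ⟨x + y, U.add_mem hxU hyU, fun h => hxA ?_, fun h => hyB ?_⟩
      · have := A.sub_mem h hyA; rwa [add_sub_cancel_right] at this
      · have := B.sub_mem h hxB; rwa [add_sub_cancel_left] at this
    · exact ⟨y, hyU, hyA, hyB⟩
  · exact ⟨x, hxU, hxA, hxB⟩

theorem exists_perp_list (hQ : (polarBilin Q).Nondegenerate) {Y : Submodule F V}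
    (l : List V) (hY : l.length + 1 ≤ finrank F Y) :
    ∃ v ∈ Y, v ≠ 0 ∧ ∀ w ∈ l, polar Q v w = 0 := by
  by_contra hcon
  push Not at hcon
  have h1 : Y ⊓ perp Q (Submodule.span F {x | x ∈ l}) = ⊥ := by
    rw [eq_bot_iff]
    rintro v ⟨hv, hvp⟩
    rw [Submodule.mem_bot]
    by_contra hne
    obtain ⟨w, hw, hvw⟩ := hcon v hv hne
    apply hvw
    rw [pc]
    exact hvp w (Submodule.subset_span hw)
  have h2 := Submodule.finrank_sup_add_finrank_inf_eq Y (perp Q (Submodule.span F {x | x ∈ l}))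
  have h3 := finrank_perp hQ (Submodule.span F {x | x ∈ l})
  rw [h1, finrank_bot] at h2
  have h4 := Submodule.finrank_le (Y ⊔ perp Q (Submodule.span F {x | x ∈ l}))
  have h5 := Symp.finrank_span_list_le (K := F) l
  omega

theorem finrank_inf_perp_one (hQ : (polarBilin Q).Nondegenerate) (W : Submodule F V) (z : V) :
    finrank F W ≤ finrank F (W ⊓ perp Q (Submodule.span F {z}) : Submodule F V) + 1 := by
  have h1 := Submodule.finrank_sup_add_finrank_inf_eq W (perp Q (Submodule.span F {z}))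
  have h3 := finrank_perp hQ (Submodule.span F {z})
  have h4 := finrank_span_le_card (R := F) ({z} : Set V)
  have h5 := Submodule.finrank_le (W ⊔ perp Q (Submodule.span F {z}))
  simp only [Set.toFinset_singleton, Finset.card_singleton] at h4
  omega

theorem mem_perp_one {x z : V} : x ∈ perp Q (Submodule.span F {z}) ↔ polar Q x z = 0 := by
  constructor
  · intro h
    rw [pc]; exact h z (Submodule.mem_span_singleton_self z)
  · intro h w hw
    obtain ⟨c, rfl⟩ := Submodule.mem_span_singleton.1 hw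
    rw [pbil, psl, pc, h, mul_zero]

/-- a pair of complementary totally singular subspaces whose root elements lie in `M` -/
structure GoodP (Q : QuadraticForm F V) (M : Subgroup (OGrp Q)) (X X' : Submodule F V) : Prop where
  ts : ∀ x ∈ X, Q x = 0
  ts' : ∀ x ∈ X', Q x = 0
  sup : X ⊔ X' = ⊤
  mem : ∀ x ∈ X, ∀ x' ∈ X', polar Q x x' = 0 → HasE M x x'

namespace GoodP
variable {M : Subgroup (OGrp Q)} {X X' Y Y' A B : Submodule F V}

theorem pol (h : GoodP Q M X X') {x y : V} (hx : x ∈ X) (hy : y ∈ X) : polar Q x y = 0 := TS.polar h.ts hx hy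

theorem symm (h : GoodP Q M X X') : GoodP Q M X' X :=
  ⟨h.ts', h.ts, by rw [sup_comm]; exact h.sup, fun x hx x' hx' h0 =>
    (h.mem x' hx' x hx (by rw [pc]; exact h0)).symm (h.ts' x hx)⟩

theorem map (h : GoodP Q M X X') {g : OGrp Q} (hg : g ∈ M) :
    GoodP Q M (X.map ((g : V ≃ₗ[F] V) : V →ₗ[F] V)) (X'.map ((g : V ≃ₗ[F] V) : V →ₗ[F] V)) := by
  refine ⟨?_, ?_, ?_, ?_⟩
  · rintro _ ⟨x, hx, rfl⟩
    exact (OGrp_q g x).trans (h.ts x hx)
  · rintro _ ⟨x, hx, rfl⟩
    exact (OGrp_q g x).trans (h.ts' x hx)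
  · rw [← Submodule.map_sup, h.sup, Submodule.map_top, LinearMap.range_eq_top]
    exact (g : V ≃ₗ[F] V).surjective
  · rintro _ ⟨x, hx, rfl⟩ _ ⟨x', hx', rfl⟩ h0
    exact (h.mem x hx x' hx' ((OGrp_polar g x x').symm.trans h0)).conj hg

theorem exists_add (h : GoodP Q M X X') (v : V) : ∃ a ∈ X, ∃ b ∈ X', v = a + b := by
  have hv : v ∈ X ⊔ X' := by rw [h.sup]; trivial
  obtain ⟨a, ha, b, hb, hab⟩ := Submodule.mem_sup.1 hv
  exact ⟨a, ha, b, hb, hab.symm⟩

theorem mem_of_perp (hQ : (polarBilin Q).Nondegenerate) (h : GoodP Q M X X') {v : V}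
    (hv : ∀ x ∈ X, polar Q v x = 0) : v ∈ X := by
  obtain ⟨a, ha, b, hb, rfl⟩ := h.exists_add v
  have hb0 : b = 0 := by
    refine hQ.1 b fun z => ?_
    rw [pbil]
    obtain ⟨x, hx, y, hy, rfl⟩ := h.exists_add z
    have := hv x hx
    rw [pal, h.pol ha hx, zero_add] at this
    rw [par, this, h.symm.pol hb hy, add_zero]
  rw [hb0, add_zero]; exact ha

/-- no element of `M` in the radical at `v` is outside the expected subspace -/
def NF (M : Subgroup (OGrp Q)) (X X' : Submodule F V) : Prop :=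
  ∀ v ∈ X, v ≠ 0 → ∀ w, HasE M v w → w ∈ X' ⊔ Submodule.span F {v}

theorem NF.polar (hX : GoodP Q M X X') (h : NF M X X') {v : V} (hv : v ∈ X) (hv0 : v ≠ 0) {w x' : V}
    (hw : HasE M v w) (hx' : x' ∈ X') (hvx : QuadraticMap.polar Q x' v = 0) : QuadraticMap.polar Q w x' = 0 := by
  obtain ⟨y, hy, z, hz, rfl⟩ := Submodule.mem_sup.1 (h v hv hv0 w hw)
  obtain ⟨c, rfl⟩ := Submodule.mem_span_singleton.1 hz
  rw [pal, psl, hX.symm.pol hy hx', pc Q v, hvx, mul_zero, add_zero]

theorem le_of_three (hQ : (polarBilin Q).Nondegenerate) (hX : GoodP Q M X X') (hY : GoodP Q M Y Y')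
    (hno : NF M X X')
    (h3 : 3 ≤ finrank F (X ⊓ Y : Submodule F V)) : Y' ≤ X' := by
  intro y' hy'
  apply hX.symm.mem_of_perp hQ
  intro x' hx'
  obtain ⟨v, ⟨hvX, hvY⟩, hv0, hv⟩ := exists_perp_list hQ [y', x'] h3
  exact hno.polar hX hvX hv0 (hY.mem v hvY y' hy' (hv y' (by simp))) hx' (by rw [pc]; exact hv x' (by simp))

theorem dich (hA : GoodP Q M A B) (hX : GoodP Q M X X')
    (hno : NF M X X') {v : V} (hvX : v ∈ X) (hv0 : v ≠ 0)
    {a b : V} (ha : a ∈ A) (hb : b ∈ B) (hab : polar Q a b = 0) (hav : polar Q a v = 0)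
    (hbv : polar Q b v = 0) {u u' : V} (hu : u ∈ X') (huv : polar Q u v = 0) (hu' : u' ∈ X') (hu'v : polar Q u' v = 0) :
    polar Q u a * polar Q b u' = polar Q u b * polar Q a u' := by
  have hr := hA.mem a ha b hb hab
  obtain ⟨ha0, hab0, hr'⟩ := hr
  have h1 := (hX.mem v hvX u hu (by rw [pc]; exact huv)).conj hr'
  have hrv : ((eich Q a b ha0 hab0 : OGrp Q) : V ≃ₗ[F] V) v = v := by
    rw [eich_apply, pc Q v b, hbv, pc Q v a, hav]; simp
  rw [hrv] at h1
  have h2 := hno.polar hX hvX hv0 h1 hu' hu'v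
  rw [eich_apply, pdl, pdl, pal, psl, psl, psl, hA.ts' b hb, hX.symm.pol hu hu'] at h2
  linear_combination -h2

/-- If `M` has no unexpected elements, every good pair is the standard one. -/
theorem eq_of_nf (hQ : (polarBilin Q).Nondegenerate) (hA : GoodP Q M A B)
    (hdA : 7 ≤ finrank F A) (hdB : 7 ≤ finrank F B)
    (hX : GoodP Q M X X')
    (hno : NF M X X') (hnoA : NF M A B) (hnoB : NF M B A) : X ≤ A ∨ X ≤ B := by
  by_contra hcon
  push Not at hcon
  obtain ⟨v, hvX, hvA, hvB⟩ := exists_notMem_notMem' hcon.1 hcon.2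
  have hv0 : v ≠ 0 := by rintro rfl; exact hvA A.zero_mem
  have hmem : ∀ a : V, polar Q a v = 0 →
      (∀ u ∈ X', polar Q u v = 0 → polar Q u a = 0) → ∃ c : F, a - c • v ∈ X' := by
    intro a hav ha
    obtain ⟨z, hz⟩ := exists_polar_ne hQ hv0
    obtain ⟨x, hx, y, hy, rfl⟩ := hX.exists_add z
    rw [pal, hX.pol hx hvX, zero_add] at hz
    refine ⟨polar Q y a / polar Q y v, ?_⟩
    apply hX.symm.mem_of_perp hQ
    intro u hu
    have h1 := ha (u - (polar Q u v / polar Q y v) • y) (X'.sub_mem hu (X'.smul_mem _ hy)) (by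
      rw [pdl, psl, div_mul_cancel₀ _ hz, sub_self])
    rw [pdl, psl] at h1
    rw [pdl, psl, pc Q a u, pc Q v u]
    field_simp at h1 ⊢
    linear_combination h1
  let Kv : Submodule F V := perp Q (Submodule.span F {v})
  have hKv : ∀ x, x ∈ Kv ↔ polar Q x v = 0 := fun x => mem_perp_one
  let P : Submodule F V := X' ⊔ Submodule.span F {v}
  have hP : ∀ a : V, polar Q a v = 0 →
      (∀ u ∈ X', polar Q u v = 0 → polar Q u a = 0) → a ∈ P := by
    intro a hav ha
    obtain ⟨c, hc⟩ := hmem a hav ha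
    have : a = (a - c • v) + c • v := by abel
    rw [this]
    exact Submodule.add_mem_sup hc (Submodule.smul_mem _ _ (Submodule.mem_span_singleton_self v))
  have hbig : ∀ W : Submodule F V, 4 ≤ finrank F W → W ≤ P →
      3 ≤ finrank F (W ⊓ X' : Submodule F V) := by
    intro W hW hWP
    have h1 := Submodule.finrank_sup_add_finrank_inf_eq W X'
    have h3 : finrank F (W ⊔ X' : Submodule F V) ≤ finrank F P :=
      Submodule.finrank_mono (sup_le hWP le_sup_left)
    have h4 : finrank F P ≤ finrank F X' + 1 := by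
      have := Submodule.finrank_add_le_finrank_add_finrank X' (Submodule.span F {v})
      rwa [finrank_span_singleton hv0] at this
    omega
  by_cases hBP : B ⊓ Kv ≤ P
  · have h3 := hbig (B ⊓ Kv) (by
      have := finrank_inf_perp_one hQ B v
      change _ ≤ finrank F (B ⊓ Kv : Submodule F V) + 1 at this
      omega) hBP
    have h4 : 3 ≤ finrank F (B ⊓ X' : Submodule F V) :=
      h3.trans (Submodule.finrank_mono (inf_le_inf_right _ inf_le_left))
    exact hvA (hA.symm.le_of_three hQ hX.symm hnoB h4 hvX)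
  · obtain ⟨b, ⟨hbB, hbv⟩, hbP⟩ := SetLike.not_le_iff_exists.1 hBP
    have hbv' : polar Q b v = 0 := (hKv b).1 hbv
    obtain ⟨u₀, hu₀, hu₀v, hu₀b⟩ : ∃ u ∈ X', polar Q u v = 0 ∧ polar Q u b ≠ 0 := by
      by_contra hc
      push Not at hc
      exact hbP (hP b hbv' hc)
    have hle : ((A ⊓ Kv) ⊓ perp Q (Submodule.span F {b})) ⊓ perp Q (Submodule.span F {u₀}) ≤ P := by
      rintro a ⟨⟨⟨haA, hav⟩, hab⟩, hau⟩
      have hav' : polar Q a v = 0 := (hKv a).1 hav
      have hab' : polar Q a b = 0 := mem_perp_one.1 hab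
      have hau' : polar Q a u₀ = 0 := mem_perp_one.1 hau
      refine hP a hav' fun u hu huv => ?_
      have h1 := hA.dich hX hno hvX hv0 haA hbB hab' hav' hbv' hu huv hu₀ hu₀v
      rw [hau', mul_zero] at h1
      exact (mul_eq_zero.1 h1).resolve_right (by rw [pc]; exact hu₀b)
    have h3 := hbig _ (by
      have e1 := finrank_inf_perp_one hQ A v
      have e2 := finrank_inf_perp_one hQ (A ⊓ Kv) b
      have e3 := finrank_inf_perp_one hQ ((A ⊓ Kv) ⊓ perp Q (Submodule.span F {b})) u₀
      change _ ≤ finrank F (A ⊓ Kv : Submodule F V) + 1 at e1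
      omega) hle
    have h4 : 3 ≤ finrank F (A ⊓ X' : Submodule F V) :=
      h3.trans (Submodule.finrank_mono (inf_le_inf_right _ (inf_le_left.trans (inf_le_left.trans inf_le_left))))
    exact hvB (hA.le_of_three hQ hX.symm hnoA h4 hvX)

/-- an unexpected element gives the full radical -/
theorem full_of_not (hQ : (polarBilin Q).Nondegenerate) (hA : GoodP Q M A B) (hdA : 3 ≤ finrank F A) {v : V}
    (hv : v ∈ A) (hv0 : v ≠ 0) {w : V} (hw : HasE M v w) (hwn : w ∉ B ⊔ Submodule.span F {v}) : FullR M v := by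
  have hvw := hw.ortho
  obtain ⟨a', ha', b', hb', rfl⟩ := hA.exists_add w
  rw [par, hA.pol hv ha', zero_add] at hvw
  have h1 := hw.sub (hA.mem v hv b' hb' hvw)
  rw [add_sub_cancel_right] at h1
  have ha'n : a' ∉ Submodule.span F {v} := by
    intro h
    apply hwn
    rw [add_comm]
    exact Submodule.add_mem_sup hb' h
  have key : ∀ a' ∈ A, HasE M v a' → ∀ x ∈ A, a' ∉ Submodule.span F {v, x} → HasE M v x := by
    intro a' ha' h1 x hx hn
    obtain ⟨z, hz, hza⟩ := exists_ortho_not hQ (Submodule.span F {v, x}) hn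
    obtain ⟨y, hy, b, hb, rfl⟩ := hA.exists_add z
    have hbv : polar Q b v = 0 := by
      have := hz v (Submodule.subset_span (by simp))
      rwa [pal, hA.pol hy hv, zero_add] at this
    have hbx : polar Q b x = 0 := by
      have := hz x (Submodule.subset_span (by simp))
      rwa [pal, hA.pol hy hx, zero_add] at this
    have hba : polar Q b a' = 1 := by rwa [pal, hA.pol hy ha', zero_add] at hza
    obtain ⟨e1, e2, hr⟩ := hA.mem x hx b hb (by rw [pc]; exact hbx)
    have h2 := h1.conj hr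
    rw [eich_apply, eich_apply, pc Q v b, hbv, hA.pol hv hx, pc Q a' b, hba, hA.pol ha' hx] at h2
    simp only [zero_smul, mul_zero, add_zero, sub_zero, one_smul] at h2
    have h3 := h2.sub h1
    rwa [add_sub_cancel_left] at h3
  have hfr2 : ∀ x y : V, finrank F (Submodule.span F {x, y}) ≤ 2 := by
    intro x y
    have h := Symp.finrank_span_list_le (K := F) [x, y]
    have e : ({z | z ∈ [x, y]} : Set V) = {x, y} := by ext z; simp
    rw [e] at h
    exact h
  have hfr : finrank F (Submodule.span F {v, a'}) = 2 := by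
    have hli : LinearIndependent F ![v, a'] := by
      rw [LinearIndependent.pair_iff]
      intro s t hst
      have ht : t = 0 := by
        by_contra ht
        apply ha'n
        rw [Submodule.mem_span_singleton]
        refine ⟨-(t⁻¹ * s), ?_⟩
        have : a' = t⁻¹ • (s • v + t • a') - (t⁻¹ * s) • v := by
          rw [smul_add, smul_smul, smul_smul, inv_mul_cancel₀ ht, one_smul]; abel
        rw [this, hst, smul_zero, zero_sub, neg_smul]
      rw [ht, zero_smul, add_zero] at hst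
      exact ⟨(smul_eq_zero.1 hst).resolve_right hv0, ht⟩
    have h1 := finrank_span_eq_card hli
    rw [Matrix.range_cons_cons_empty] at h1
    exact h1
  obtain ⟨x₂, hx₂, hx₂n⟩ : ∃ x₂ ∈ A, x₂ ∉ Submodule.span F {v, a'} := by
    by_contra hc
    push Not at hc
    have : A ≤ Submodule.span F {v, a'} := hc
    have := Submodule.finrank_mono this
    omega
  have heq : ∀ y, a' ∈ Submodule.span F {v, y} → Submodule.span F {v, a'} = Submodule.span F {v, y} := by
    intro y hy
    refine Submodule.eq_of_le_of_finrank_le ?_ (by rw [hfr]; exact hfr2 v y)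
    rw [Submodule.span_le]
    rintro z (rfl | rfl)
    · exact Submodule.subset_span (by simp)
    · exact hy
  have h2 : HasE M v x₂ := by
    refine key a' ha' h1 x₂ hx₂ fun h => hx₂n ?_
    rw [heq x₂ h]
    exact Submodule.subset_span (by simp)
  have hall : ∀ x ∈ A, HasE M v x := by
    intro x hx
    by_cases hc : a' ∈ Submodule.span F {v, x}
    · refine key x₂ hx₂ h2 x hx fun h => hx₂n ?_
      rw [heq x hc]; exact h
    · exact key a' ha' h1 x hx hc
  intro b hvb
  obtain ⟨x, hx, y, hy, rfl⟩ := hA.exists_add b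
  rw [par, hA.pol hv hx, zero_add] at hvb
  exact (hall x hx).add (hA.mem v hv y hy hvb)

/-- moving inside `A` -/
theorem exists_move (hQ : (polarBilin Q).Nondegenerate) (hA : GoodP Q M A B) {v v' : V} (hv : v ∈ A) (hv' : v' ∈ A)
    (hn : v ∉ Submodule.span F {v' - v}) : ∃ g ∈ M, (g : V ≃ₗ[F] V) v = v' := by
  obtain ⟨z, hz, hza⟩ := exists_ortho_not hQ (Submodule.span F {v' - v}) hn
  obtain ⟨y, hy, b, hb, rfl⟩ := hA.exists_add z
  have h1 : polar Q b (v' - v) = 0 := by
    have := hz _ (Submodule.mem_span_singleton_self _)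
    rwa [pal, hA.pol hy (A.sub_mem hv' hv), zero_add] at this
  have h2 : polar Q b v = 1 := by rwa [pal, hA.pol hy hv, zero_add] at hza
  obtain ⟨e1, e2, hr⟩ := hA.mem (v' - v) (A.sub_mem hv' hv) b hb (by rw [pc]; exact h1)
  refine ⟨_, hr, ?_⟩
  rw [eich_apply, pc Q v b, h2, hA.pol hv (A.sub_mem hv' hv), one_smul, zero_smul, mul_zero, zero_smul, sub_zero,
    sub_zero, add_sub_cancel]

end GoodP

end

end Cfsg.Agent.GeoMax.Ort
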