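import Cfsg.Agent.GeoMax.OGL
import Cfsg.Agent.GeoMax.OTransport

/-!
The swap of two complementary totally singular subspaces of even dimension in `Ω⁺`, and maximality of their stabiliser.
-/

set_option autoImplicit false
set_option linter.unusedSectionVars false

namespace Cfsg.Agent.GeoMax.Ort

open QuadraticMap Module Cfsg.Agent.Orth

variable {F V : Type*} [Field F] [AddCommGroup V] [Module F V]
variable [Finite F] [FiniteDimensional F V] {Q : QuadraticForm F V}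

/-- cutting down by two vectors dual to two vectors of the subspace -/
theorem finrank_cut_two {A : Submodule F V} {e1 e2 f1 f2 : V} (h1 : e1 ∈ A) (h2 : e2 ∈ A)
    (h11 : polar Q e1 f1 = 1) (h12 : polar Q e1 f2 = 0) (h21 : polar Q e2 f1 = 0) (h22 : polar Q e2 f2 = 1) :
    finrank F (A ⊓ perp Q (Submodule.span F {f1}) ⊓ perp Q (Submodule.span F {f2}) : Submodule F V) + 2 = finrank F A := by
  let φ : A →ₗ[F] (F × F) :=
    LinearMap.prod (((polarBilin Q).flip f1).comp A.subtype) (((polarBilin Q).flip f2).comp A.subtype)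
  have hφ : ∀ a : A, φ a = (polar Q (a : V) f1, polar Q (a : V) f2) := fun a => rfl
  have hsurj : LinearMap.range φ = ⊤ := by
    rw [LinearMap.range_eq_top]
    rintro ⟨x, y⟩
    refine ⟨x • ⟨e1, h1⟩ + y • ⟨e2, h2⟩, ?_⟩
    rw [map_add, map_smul, map_smul, hφ, hφ]
    ext
    · simp [h11, h21]
    · simp [h12, h22]
  have h3 := LinearMap.finrank_range_add_finrank_ker φ
  rw [hsurj, finrank_top, Module.finrank_prod, finrank_self] at h3
  have h4 : (LinearMap.ker φ).map A.subtype = A ⊓ perp Q (Submodule.span F {f1}) ⊓ perp Q (Submodule.span F {f2}) := by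
    ext x
    constructor
    · rintro ⟨⟨y, hy⟩, hk, rfl⟩
      have hk' := LinearMap.mem_ker.1 hk
      rw [hφ, Prod.mk_eq_zero] at hk'
      exact ⟨⟨hy, mem_perp_one.2 hk'.1⟩, mem_perp_one.2 hk'.2⟩
    · rintro ⟨⟨hx, hx1⟩, hx2⟩
      refine ⟨⟨x, hx⟩, ?_, rfl⟩
      rw [SetLike.mem_coe, LinearMap.mem_ker, hφ, Prod.mk_eq_zero]
      exact ⟨mem_perp_one.1 hx1, mem_perp_one.1 hx2⟩
  rw [← h4, Submodule.finrank_map_subtype_eq]
  omega

/-- An element of `Ω` exchanging two totally singular subspaces in duality, of even dimension. -/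
theorem exists_swap (hQ : (polarBilin Q).Nondegenerate) (hN : 7 ≤ finrank F V) : ∀ (j : ℕ) (A B : Submodule F V),
    finrank F A = 2 * j → finrank F B = 2 * j → (∀ x ∈ A, Q x = 0) → (∀ x ∈ B, Q x = 0) →
    (∀ a ∈ A, a ≠ 0 → ∃ b ∈ B, polar Q a b ≠ 0) → (∀ b ∈ B, b ≠ 0 → ∃ a ∈ A, polar Q b a ≠ 0) →
    ∃ s ∈ commutator (OGrp Q), (∀ a ∈ A, (s : V ≃ₗ[F] V) a ∈ B) ∧ (∀ b ∈ B, (s : V ≃ₗ[F] V) b ∈ A) ∧
      ∀ x, (∀ a ∈ A, polar Q x a = 0) → (∀ b ∈ B, polar Q x b = 0) → (s : V ≃ₗ[F] V) x = x := by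
  intro j
  induction j with
  | zero =>
    intro A B hA hB _ _ _ _
    have hA' : A = ⊥ := Submodule.finrank_eq_zero.1 (by omega)
    have hB' : B = ⊥ := Submodule.finrank_eq_zero.1 (by omega)
    refine ⟨1, Subgroup.one_mem _, ?_, ?_, fun x _ _ => rfl⟩
    · intro a ha
      rw [hA', Submodule.mem_bot] at ha
      rw [ha, map_zero]; exact B.zero_mem
    · intro a ha
      rw [hB', Submodule.mem_bot] at ha
      rw [ha, map_zero]; exact A.zero_mem
  | succ j ih =>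
    intro A B hdA hdB hA hB hAB hBA
    have pA : ∀ {x y : V}, x ∈ A → y ∈ A → polar Q x y = 0 := fun hx hy => TS.polar hA hx hy
    have pB : ∀ {x y : V}, x ∈ B → y ∈ B → polar Q x y = 0 := fun hx hy => TS.polar hB hx hy
    obtain ⟨e1, he1, he10⟩ := Submodule.exists_mem_ne_zero_of_ne_bot (p := A) (by
      intro h; rw [h, finrank_bot] at hdA; omega)
    obtain ⟨f, hf, hef⟩ := hAB e1 he1 he10
    obtain ⟨f1, hf1, h11⟩ : ∃ f1 ∈ B, polar Q e1 f1 = 1 :=
      ⟨(polar Q e1 f)⁻¹ • f, B.smul_mem _ hf, by rw [psr, inv_mul_cancel₀ hef]⟩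
    obtain ⟨e2, he2, he20, h21⟩ := exists_perp_list hQ (Y := A) [f1] (by simp; omega)
    replace h21 := h21 f1 (by simp)
    obtain ⟨f', hf', hef'⟩ := hAB e2 he2 he20
    obtain ⟨f2, hf2, h22, h12⟩ : ∃ f2 ∈ B, polar Q e2 f2 = 1 ∧ polar Q e1 f2 = 0 := by
      refine ⟨(polar Q e2 f')⁻¹ • f' - ((polar Q e2 f')⁻¹ * polar Q e1 f') • f1,
        B.sub_mem (B.smul_mem _ hf') (B.smul_mem _ hf1), ?_, ?_⟩
      · rw [pdr, psr, psr, h21, inv_mul_cancel₀ hef']; ring
      · rw [pdr, psr, psr, h11]; ring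
    have d1 := finrank_cut_two he1 he2 h11 h12 h21 h22
    have d2 := finrank_cut_two (Q := Q) (e1 := f1) (e2 := f2) (f1 := e1) (f2 := e2) hf1 hf2 (by rw [pc]; exact h11)
      (by rw [pc]; exact h21) (by rw [pc]; exact h12) (by rw [pc]; exact h22)
    set A' := A ⊓ perp Q (Submodule.span F {f1}) ⊓ perp Q (Submodule.span F {f2}) with hA'
    set B' := B ⊓ perp Q (Submodule.span F {e1}) ⊓ perp Q (Submodule.span F {e2}) with hB'
    have mA' : ∀ x, x ∈ A' ↔ x ∈ A ∧ polar Q x f1 = 0 ∧ polar Q x f2 = 0 := by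
      intro x
      rw [hA', Submodule.mem_inf, Submodule.mem_inf, mem_perp_one, mem_perp_one, and_assoc]
    have mB' : ∀ x, x ∈ B' ↔ x ∈ B ∧ polar Q x e1 = 0 ∧ polar Q x e2 = 0 := by
      intro x
      rw [hB', Submodule.mem_inf, Submodule.mem_inf, mem_perp_one, mem_perp_one, and_assoc]
    have projA : ∀ a ∈ A, a - polar Q a f1 • e1 - polar Q a f2 • e2 ∈ A' := by
      intro a ha
      rw [mA']
      refine ⟨A.sub_mem (A.sub_mem ha (A.smul_mem _ he1)) (A.smul_mem _ he2), ?_, ?_⟩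
      · rw [pdl, pdl, psl, psl, h11, h21]; ring
      · rw [pdl, pdl, psl, psl, h12, h22]; ring
    have projB : ∀ b ∈ B, b - polar Q b e1 • f1 - polar Q b e2 • f2 ∈ B' := by
      intro b hb
      rw [mB']
      refine ⟨B.sub_mem (B.sub_mem hb (B.smul_mem _ hf1)) (B.smul_mem _ hf2), ?_, ?_⟩
      · rw [pdl, pdl, psl, psl, pc Q f1 e1, pc Q f2 e1, h11, h12]; ring
      · rw [pdl, pdl, psl, psl, pc Q f1 e2, pc Q f2 e2, h22, h21]; ring
    obtain ⟨s', hs', hsA, hsB, hsf⟩ := ih A' B' (by omega) (by omega) (fun x hx => hA x ((mA' x).1 hx).1)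
      (fun x hx => hB x ((mB' x).1 hx).1)
      (by
        intro a ha ha0
        obtain ⟨haA, ha1, ha2⟩ := (mA' a).1 ha
        obtain ⟨b, hb, hab⟩ := hAB a haA ha0
        refine ⟨_, projB b hb, ?_⟩
        rw [pdr, pdr, psr, psr, ha1, ha2, mul_zero, mul_zero, sub_zero, sub_zero]
        exact hab)
      (by
        intro a ha ha0
        obtain ⟨haA, ha1, ha2⟩ := (mB' a).1 ha
        obtain ⟨b, hb, hab⟩ := hBA a haA ha0
        refine ⟨_, projA b hb, ?_⟩
        rw [pdr, pdr, psr, psr, ha1, ha2, mul_zero, mul_zero, sub_zero, sub_zero]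
        exact hab)
    have hE1 := eich_mem_commutator hQ hN (hB f2 hf2) (pB hf2 hf1)
    have hE2 := eich_mem_commutator hQ hN (hA e2 he2) (pA he2 he1)
    set E1 := eich Q f2 f1 (hB f2 hf2) (pB hf2 hf1) with hE1d
    set E2 := eich Q e2 e1 (hA e2 he2) (pA he2 he1) with hE2d
    have aE1 : ∀ x, (E1 : V ≃ₗ[F] V) x = x + polar Q x f1 • f2 - polar Q x f2 • f1 := by
      intro x
      rw [hE1d, eich_apply, hB f1 hf1, zero_mul, zero_smul, sub_zero]
    have aE2 : ∀ x, (E2 : V ≃ₗ[F] V) x = x + polar Q x e1 • e2 - polar Q x e2 • e1 := by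
      intro x
      rw [hE2d, eich_apply, hA e1 he1, zero_mul, zero_smul, sub_zero]
    -- the product
    have s1 : ∀ x, ((E1 * E2 * E1 : OGrp Q) : V ≃ₗ[F] V) x =
        x + polar Q x f1 • (f2 - e1) + polar Q x e1 • (e2 - f1) - polar Q x f2 • (f1 + e2) - polar Q x e2 • (e1 + f2) := by
      intro x
      rw [coe_mul_apply, coe_mul_apply, aE1 x, aE2, aE1]
      simp only [pal, pdl, psl, h11, h12, h21, h22, pc Q f1 e1, pc Q f1 e2, pc Q f2 e1, pc Q f2 e2,
        pB hf1 hf1, pB hf1 hf2, pB hf2 hf1, pB hf2 hf2, pA he1 he1, pA he1 he2, pA he2 he1, pA he2 he2]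
      module
    refine ⟨E1 * E2 * E1 * s', Subgroup.mul_mem _ (Subgroup.mul_mem _ (Subgroup.mul_mem _ hE1 hE2) hE1) hs', ?_, ?_, ?_⟩
    · intro a ha
      set a' := a - polar Q a f1 • e1 - polar Q a f2 • e2 with ha'
      have e : a = a' + polar Q a f1 • e1 + polar Q a f2 • e2 := by rw [ha']; abel
      have hfe1 : (s' : V ≃ₗ[F] V) e1 = e1 := hsf e1 (fun x hx => pA he1 ((mA' x).1 hx).1)
        (fun x hx => by rw [pc]; exact ((mB' x).1 hx).2.1)
      have hfe2 : (s' : V ≃ₗ[F] V) e2 = e2 := hsf e2 (fun x hx => pA he2 ((mA' x).1 hx).1)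
        (fun x hx => by rw [pc]; exact ((mB' x).1 hx).2.2)
      have hsa : (s' : V ≃ₗ[F] V) a = (s' : V ≃ₗ[F] V) a' + polar Q a f1 • e1 + polar Q a f2 • e2 := by
        conv_lhs => rw [e]
        rw [map_add, map_add, map_smul, map_smul, hfe1, hfe2]
      rw [coe_mul_apply, hsa]
      have hb' := hsA a' (projA a ha)
      set b' := (s' : V ≃ₗ[F] V) a' with hb'd
      obtain ⟨hb'B, hb'1, hb'2⟩ := (mB' b').1 hb'
      rw [s1]
      simp only [pal, psl, hb'1, hb'2, pB hb'B hf1, pB hb'B hf2, h11, h12, h21, h22,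
        pA he1 he1, pA he1 he2, pA he2 he1, pA he2 he2]
      have : b' + polar Q a f1 • e1 + polar Q a f2 • e2 + (0 + polar Q a f1 * 1 + polar Q a f2 * 0) • (f2 - e1) +
          (0 + polar Q a f1 * 0 + polar Q a f2 * 0) • (e2 - f1) -
          (0 + polar Q a f1 * 0 + polar Q a f2 * 1) • (f1 + e2) -
          (0 + polar Q a f1 * 0 + polar Q a f2 * 0) • (e1 + f2) = b' + polar Q a f1 • f2 - polar Q a f2 • f1 := by
        module
      rw [this]
      exact B.sub_mem (B.add_mem hb'B (B.smul_mem _ hf2)) (B.smul_mem _ hf1)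
    · intro a ha
      set a' := a - polar Q a e1 • f1 - polar Q a e2 • f2 with ha'
      have e : a = a' + polar Q a e1 • f1 + polar Q a e2 • f2 := by rw [ha']; abel
      have hfe1 : (s' : V ≃ₗ[F] V) f1 = f1 := hsf f1 (fun x hx => by rw [pc]; exact ((mA' x).1 hx).2.1)
        (fun x hx => pB hf1 ((mB' x).1 hx).1)
      have hfe2 : (s' : V ≃ₗ[F] V) f2 = f2 := hsf f2 (fun x hx => by rw [pc]; exact ((mA' x).1 hx).2.2)
        (fun x hx => pB hf2 ((mB' x).1 hx).1)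
      have hsa : (s' : V ≃ₗ[F] V) a = (s' : V ≃ₗ[F] V) a' + polar Q a e1 • f1 + polar Q a e2 • f2 := by
        conv_lhs => rw [e]
        rw [map_add, map_add, map_smul, map_smul, hfe1, hfe2]
      rw [coe_mul_apply, hsa]
      have hb' := hsB a' (projB a ha)
      set b' := (s' : V ≃ₗ[F] V) a' with hb'd
      obtain ⟨hb'B, hb'1, hb'2⟩ := (mA' b').1 hb'
      rw [s1]
      simp only [pal, psl, hb'1, hb'2, pA hb'B he1, pA hb'B he2, h11, h12, h21, h22,
        pc Q f1 e1, pc Q f1 e2, pc Q f2 e1, pc Q f2 e2, pB hf1 hf1, pB hf1 hf2, pB hf2 hf1, pB hf2 hf2]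
      have : b' + polar Q a e1 • f1 + polar Q a e2 • f2 + (0 + polar Q a e1 * 0 + polar Q a e2 * 0) • (f2 - e1) +
          (0 + polar Q a e1 * 1 + polar Q a e2 * 0) • (e2 - f1) -
          (0 + polar Q a e1 * 0 + polar Q a e2 * 0) • (f1 + e2) -
          (0 + polar Q a e1 * 0 + polar Q a e2 * 1) • (e1 + f2) = b' + polar Q a e1 • e2 - polar Q a e2 • e1 := by
        module
      rw [this]
      exact A.sub_mem (A.add_mem hb'B (A.smul_mem _ he2)) (A.smul_mem _ he1)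
    · intro x hxA hxB
      rw [coe_mul_apply, hsf x (fun a ha => hxA a ((mA' a).1 ha).1) (fun b hb => hxB b ((mB' b).1 hb).1), s1,
        hxA e1 he1, hxA e2 he2, hxB f1 hf1, hxB f2 hf2]
      simp

/-- Overgroups of the stabiliser of a pair. -/
theorem GoodP.dichotomy (hQ : (polarBilin Q).Nondegenerate) {M : Subgroup (OGrp Q)} {A B : Submodule F V}
    (hgood : GoodP Q M A B) (hc : IsCompl A B) (hdA : 7 ≤ finrank F A) (hdB : finrank F B = finrank F A)
    {s : OGrp Q} (hsM : s ∈ M) (hsA : ∀ a ∈ A, (s : V ≃ₗ[F] V) a ∈ B) (hsB : ∀ b ∈ B, (s : V ≃ₗ[F] V) b ∈ A) :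
    commutator (OGrp Q) ≤ M ∨ ∀ g ∈ M, ((∀ x ∈ A, (g : V ≃ₗ[F] V) x ∈ A) ∧ (∀ x ∈ B, (g : V ≃ₗ[F] V) x ∈ B)) ∨
      ((∀ x ∈ A, (g : V ≃ₗ[F] V) x ∈ B) ∧ (∀ x ∈ B, (g : V ≃ₗ[F] V) x ∈ A)) := by
  have hN : 7 ≤ finrank F V := hdA.trans (Submodule.finrank_le A)
  have hfull : (∃ v ∈ A, v ≠ 0 ∧ FullR M v) → commutator (OGrp Q) ≤ M := by
    rintro ⟨v, hv, hv0, hfv⟩
    have hfs := hfv.conj hsM
    have hsv := hsA v hv
    have hsv0 : (s : V ≃ₗ[F] V) v ≠ 0 := by
      intro h; exact hv0 ((s : V ≃ₗ[F] V).injective (h.trans (map_zero _).symm))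
    -- a vector of `A` not perpendicular to `s v`
    obtain ⟨z, hz⟩ := exists_polar_ne hQ hsv0
    obtain ⟨y, hy, b, hb, rfl⟩ := hgood.exists_add z
    rw [pal, hgood.symm.pol hb hsv, add_zero] at hz
    by_cases hvv : polar Q v ((s : V ≃ₗ[F] V) v) = 0
    · obtain ⟨g, hg, hgv⟩ := hgood.exists_move hQ hv (v' := v + y) (A.add_mem hv hy) (by
        rw [add_sub_cancel_left]
        intro h
        obtain ⟨c, hc⟩ := Submodule.mem_span_singleton.1 h
        have hvv' : c * polar Q y ((s : V ≃ₗ[F] V) v) = 0 := by rw [← psl, hc, hvv]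
        rcases mul_eq_zero.1 hvv' with h0 | h0
        · rw [h0, zero_smul] at hc; exact hv0 hc.symm
        · exact hz h0)
      have hfg := hfv.conj hg
      rw [hgv] at hfg
      exact commutator_le_of_FullR hQ hN hfs hfg (by rw [pal, hvv, zero_add]; exact hz)
    · exact commutator_le_of_FullR hQ hN hfs hfv hvv
  by_cases hcon : commutator (OGrp Q) ≤ M
  · exact Or.inl hcon
  right
  have hnfA : GoodP.NF M A B := by
    intro v hv hv0 w hw
    by_contra hwn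
    exact hcon (hfull ⟨v, hv, hv0, hgood.full_of_not hQ (by omega) hv hv0 hw hwn⟩)
  have hnfB : GoodP.NF M B A := by
    intro v hv hv0 w hw
    by_contra hwn
    refine hcon (hfull ⟨_, hsB v hv, ?_, (hgood.symm.full_of_not hQ (by omega) hv hv0 hw hwn).conj hsM⟩)
    intro h; exact hv0 ((s : V ≃ₗ[F] V).injective (h.trans (map_zero _).symm))
  have hmapNF : ∀ g ∈ M, ∀ X X' : Submodule F V, GoodP.NF M X X' →
      GoodP.NF M (X.map ((g : V ≃ₗ[F] V) : V →ₗ[F] V)) (X'.map ((g : V ≃ₗ[F] V) : V →ₗ[F] V)) := by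
    rintro g hg X X' h _ ⟨v, hv, rfl⟩ hv0 w hw
    have hgi := hw.conj (M.inv_mem hg)
    have e : ((g⁻¹ : OGrp Q) : V ≃ₗ[F] V) (((g : V ≃ₗ[F] V) : V →ₗ[F] V) v) = v := coe_inv_apply_self g v
    rw [e] at hgi
    have h1 := h v hv (by rintro rfl; exact hv0 (by simp)) _ hgi
    obtain ⟨y, hy, z, hz, hyz⟩ := Submodule.mem_sup.1 h1
    obtain ⟨c, rfl⟩ := Submodule.mem_span_singleton.1 hz
    have h2 : w = (g : V ≃ₗ[F] V) y + c • (g : V ≃ₗ[F] V) v := by
      rw [← map_smul, ← map_add, hyz, coe_apply_inv_self]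
    rw [h2]
    exact Submodule.add_mem_sup ⟨y, hy, rfl⟩ (Submodule.smul_mem _ _ (Submodule.mem_span_singleton_self _))
  intro g hg
  have hX := hgood.map hg
  have e0 := GoodP.eq_of_nf hQ hgood hdA (by omega) hX (hmapNF g hg _ _ hnfA) hnfA hnfB
  have e1 := GoodP.eq_of_nf hQ hgood hdA (by omega) hX.symm (hmapNF g hg _ _ hnfB) hnfA hnfB
  have hdm : ∀ W : Submodule F V, finrank F (W.map ((g : V ≃ₗ[F] V) : V →ₗ[F] V)) = finrank F W :=
    fun W => LinearEquiv.finrank_map_eq _ _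
  have hdisj : ∀ C : Submodule F V, finrank F C = finrank F A → ¬ (A.map ((g : V ≃ₗ[F] V) : V →ₗ[F] V) ≤ C ∧
      B.map ((g : V ≃ₗ[F] V) : V →ₗ[F] V) ≤ C) := by
    rintro C hC ⟨h3, h4⟩
    have h5 := Submodule.eq_of_le_of_finrank_eq h3 (by rw [hdm, hC])
    have h6 := Submodule.eq_of_le_of_finrank_eq h4 (by rw [hdm, hC, hdB])
    have h8 := Submodule.map_injective_of_injective (f := ((g : V ≃ₗ[F] V) : V →ₗ[F] V)) (g : V ≃ₗ[F] V).injective
      (h5.trans h6.symm)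
    have h9 := hc.inf_eq_bot
    rw [h8, inf_idem] at h9
    rw [h9, finrank_bot] at hdB
    omega
  have hto : ∀ X C : Submodule F V, X.map ((g : V ≃ₗ[F] V) : V →ₗ[F] V) ≤ C → ∀ x ∈ X, (g : V ≃ₗ[F] V) x ∈ C :=
    fun X C h x hx => h ⟨x, hx, rfl⟩
  rcases e0 with e0 | e0 <;> rcases e1 with e1 | e1
  · exact absurd ⟨e0, e1⟩ (hdisj A rfl)
  · exact Or.inl ⟨hto _ _ e0, hto _ _ e1⟩
  · exact Or.inr ⟨hto _ _ e0, hto _ _ e1⟩
  · exact absurd ⟨e0, e1⟩ (hdisj B hdB)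

end Cfsg.Agent.GeoMax.Ort
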