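import Cfsg.Agent.GeoMax.OPar

/-!
Stabilisers of non-degenerate subspaces in `Ω` are maximal.
-/

set_option autoImplicit false
set_option linter.unusedSectionVars false

namespace Cfsg.Agent.GeoMax.Ort

open QuadraticMap Module Cfsg.Agent.Orth

variable {F V : Type*} [Field F] [AddCommGroup V] [Module F V]

section
variable [FiniteDimensional F V] {Q : QuadraticForm F V}

theorem mem_perp' {U : Submodule F V} {x : V} : x ∈ perp Q U ↔ ∀ u ∈ U, polar Q x u = 0 := by
  rw [Orth.mem_perp]
  exact forall₂_congr fun u _ => by rw [pc]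

theorem exists_add (hQ : (polarBilin Q).Nondegenerate) {U : Submodule F V} (hU : U ⊓ perp Q U = ⊥) (v : V) :
    ∃ w ∈ perp Q U, ∃ y ∈ U, v = w + y := by
  have h1 := finrank_perp hQ U
  have h2 := Submodule.finrank_sup_add_finrank_inf_eq U (perp Q U)
  rw [hU, finrank_bot] at h2
  have h3 : U ⊔ perp Q U = ⊤ := Submodule.eq_top_of_finrank_eq (by omega)
  have h4 : v ∈ U ⊔ perp Q U := by rw [h3]; trivial
  obtain ⟨y, hy, w, hw, hyw⟩ := Submodule.mem_sup.1 h4
  exact ⟨w, hw, y, hy, by rw [← hyw, add_comm]⟩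

theorem perp_nd (hQ : (polarBilin Q).Nondegenerate) {U : Submodule F V} (hU : U ⊓ perp Q U = ⊥) :
    perp Q U ⊓ perp Q (perp Q U) = ⊥ := perp_inf_eq_bot hQ hU

theorem map_perp (hQ : (polarBilin Q).Nondegenerate) (g : OGrp Q) (U : Submodule F V) :
    perp Q (U.map ((g : V ≃ₗ[F] V) : V →ₗ[F] V)) = (perp Q U).map ((g : V ≃ₗ[F] V) : V →ₗ[F] V) := by
  ext x
  constructor
  · intro hx
    refine ⟨((g⁻¹ : OGrp Q) : V ≃ₗ[F] V) x, ?_, coe_apply_inv_self g x⟩
    intro u hu
    have h1 : polar Q ((g : V ≃ₗ[F] V) u) x = 0 := hx _ ⟨u, hu, rfl⟩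
    change polar Q u _ = 0
    rw [← OGrp_polar g, coe_apply_inv_self, h1]
  · rintro ⟨y, hy, rfl⟩ _ ⟨u, hu, rfl⟩
    exact (OGrp_polar g u y).trans (hy u hu)

theorem stabO_perp (hQ : (polarBilin Q).Nondegenerate) (U : Submodule F V) : stabO Q (perp Q U) = stabO Q U := by
  have key : ∀ U : Submodule F V, stabO Q U ≤ stabO Q (perp Q U) := by
    intro U g hg
    refine mem_stabO_of_le fun v hv => ?_
    intro u hu
    have h1 : ((g⁻¹ : OGrp Q) : V ≃ₗ[F] V) u ∈ U := by
      have := mem_stabO.1 ((stabO Q U).inv_mem hg) u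
      exact this.1 hu
    change polar Q u _ = 0
    have h2 := OGrp_polar g (((g⁻¹ : OGrp Q) : V ≃ₗ[F] V) u) v
    rw [coe_apply_inv_self] at h2
    rw [h2]
    exact hv _ h1
  refine le_antisymm ?_ (key U)
  have := key (perp Q U)
  rwa [perp_perp hQ] at this

theorem nd_map (hQ : (polarBilin Q).Nondegenerate) (g : OGrp Q) {U : Submodule F V} (hU : U ⊓ perp Q U = ⊥) :
    U.map ((g : V ≃ₗ[F] V) : V →ₗ[F] V) ⊓ perp Q (U.map ((g : V ≃ₗ[F] V) : V →ₗ[F] V)) = ⊥ := by
  rw [map_perp hQ, ← Submodule.map_inf _ (g : V ≃ₗ[F] V).injective, hU, Submodule.map_bot]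

theorem exists_polar_ne_U {U : Submodule F V} (hU : U ⊓ perp Q U = ⊥) {x : V} (hx : x ∈ U) (hx0 : x ≠ 0) :
    ∃ y ∈ U, polar Q y x ≠ 0 := by
  by_contra hcon
  push Not at hcon
  apply hx0
  have : x ∈ U ⊓ perp Q U := ⟨hx, hcon⟩
  rw [hU] at this
  exact (Submodule.mem_bot F).1 this

end

section
variable [Finite F] [FiniteDimensional F V] {Q : QuadraticForm F V}

/-- variant of `repU` for lists inside `U` and arbitrary `y` -/
theorem repU' (hQ : (polarBilin Q).Nondegenerate) {U : Submodule F V}
    (hU : U ⊓ perp Q U = ⊥) (l : List V) (hl : 2 * l.length + 3 ≤ finrank F U) (hlU : ∀ w ∈ l, w ∈ U) (y : V) (c : F) :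
    ∃ x ∈ U, Q x = c ∧ ∀ w ∈ l, polar Q x w = polar Q y w := by
  obtain ⟨w', hw', y', hy', rfl⟩ := exists_add hQ hU y
  obtain ⟨x, hx, hxc, hxw⟩ := repU hU l hl hy' c
  refine ⟨x, hx, hxc, fun w hw => ?_⟩
  rw [hxw w hw, pal, mem_perp'.1 hw' w (hlU w hw), zero_add]

theorem notMem_span_symm {v v' : V} (hv : v ≠ 0) (hv' : v' ∉ Submodule.span F {v}) : v ∉ Submodule.span F {v'} := by
  intro h
  obtain ⟨c, hc⟩ := Submodule.mem_span_singleton.1 h
  have hc0 : c ≠ 0 := by rintro rfl; rw [zero_smul] at hc; exact hv hc.symm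
  apply hv'
  rw [Submodule.mem_span_singleton]
  exact ⟨c⁻¹, by rw [← hc, smul_smul, inv_mul_cancel₀ hc0, one_smul]⟩

/-- transitivity on vectors of `U` of a given norm by elements fixing `U^⊥` pointwise -/
theorem exists_mem_moveU (hQ : (polarBilin Q).Nondegenerate) {U : Submodule F V}
    (hU : U ⊓ perp Q U = ⊥) (hN : 7 ≤ finrank F U) {M : Subgroup (OGrp Q)}
    (hM : ∀ a ∈ U, ∀ b ∈ U, Q a = 0 → polar Q a b = 0 → HasE M a b) {v v' : V} (hvU : v ∈ U) (hv'U : v' ∈ U)
    (hv : v ≠ 0) (hv' : v' ≠ 0) (hq : Q v = Q v') :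
    ∃ g ∈ M, (g : V ≃ₗ[F] V) v = v' ∧ ∀ w ∈ perp Q U, (g : V ≃ₗ[F] V) w = w := by
  have key : ∀ v ∈ U, ∀ v' ∈ U, v ≠ 0 → v' ∉ Submodule.span F {v} → Q v = Q v' →
      ∃ g ∈ M, (g : V ≃ₗ[F] V) v = v' ∧ ∀ w ∈ perp Q U, (g : V ≃ₗ[F] V) w = w := by
    intro v hvU v' hv'U hv hv' hq
    obtain ⟨y₁, hy₁, hy₁v'⟩ := exists_ortho_not hQ (Submodule.span F {v}) hv'
    obtain ⟨y₂, hy₂, hy₂v⟩ := exists_ortho_not hQ (Submodule.span F {v'}) (notMem_span_symm hv hv')
    obtain ⟨a, haU, haq, ha⟩ := repU' hQ hU [v, v'] (by simpa using hN) (by simp [hvU, hv'U]) (y₁ + y₂) 0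
    have h1 : polar Q v a = 1 := by
      rw [pc, ha v (by simp), pal, hy₁ v (Submodule.mem_span_singleton_self v), hy₂v, zero_add]
    have h2 : polar Q v' a = 1 := by
      rw [pc, ha v' (by simp), pal, hy₂ v' (Submodule.mem_span_singleton_self v'), hy₁v', add_zero]
    have h3 : polar Q v a = polar Q v' a := by rw [h1, h2]
    have hbU : (polar Q v a)⁻¹ • (v - v') ∈ U := U.smul_mem _ (U.sub_mem hvU hv'U)
    obtain ⟨h4, h5, h6⟩ := hM a haU ((polar Q v a)⁻¹ • (v - v')) hbU haq (polar_move h3 _)
    refine ⟨_, h6, eich_move h4 hq h3 (by rw [h1]; exact one_ne_zero) h5, fun w hw => ?_⟩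
    rw [eich_apply, mem_perp'.1 hw _ hbU, mem_perp'.1 hw a haU]
    simp
  by_cases h : v' ∈ Submodule.span F {v}
  · obtain ⟨p, hpU, hp0, hpv⟩ : ∃ p ∈ U, p ≠ 0 ∧ polar Q p v = 0 := by
      have h1 := finrank_inf_perp hQ U (Submodule.span F {v})
      rw [finrank_span_singleton hv] at h1
      have h2 : U ⊓ perp Q (Submodule.span F {v}) ≠ ⊥ := by
        intro h; rw [h, finrank_bot] at h1; omega
      obtain ⟨p, hp, hp0⟩ := Submodule.exists_mem_ne_zero_of_ne_bot h2
      exact ⟨p, hp.1, hp0, mem_perp'.1 hp.2 v (Submodule.mem_span_singleton_self v)⟩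
    obtain ⟨y, hyU, hy⟩ := exists_polar_ne_U hU hpU hp0
    obtain ⟨v'', hv''U, hv''q, hv''⟩ := repU' hQ hU [p] (by simp; omega) (by simp [hpU]) y (Q v)
    have h1 : polar Q v'' p ≠ 0 := by rw [hv'' p (by simp)]; exact hy
    have hpv' : ∀ w ∈ Submodule.span F {v}, polar Q w p = 0 := by
      intro w hw
      obtain ⟨c, rfl⟩ := Submodule.mem_span_singleton.1 hw
      rw [psl, pc, hpv, mul_zero]
    have h2 : v'' ∉ Submodule.span F {v} := fun h => h1 (hpv' _ h)
    obtain ⟨g, hg, hgv, hgw⟩ := key v hvU v'' hv''U hv h2 hv''q.symm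
    have h3 : v'' ≠ 0 := by rintro rfl; rw [polar_zero_left] at h1; exact h1 rfl
    have h4 : v' ∉ Submodule.span F {v''} := by
      intro h'
      obtain ⟨c, hc⟩ := Submodule.mem_span_singleton.1 h'
      have hc0 : c ≠ 0 := by rintro rfl; rw [zero_smul] at hc; exact hv' hc.symm
      have h5 := hpv' v' h
      rw [← hc, psl] at h5
      exact h1 ((mul_eq_zero.1 h5).resolve_left hc0)
    obtain ⟨g', hg', hgv', hgw'⟩ := key v'' hv''U v' hv'U h3 h4 (by rw [hv''q, hq])
    exact ⟨g' * g, M.mul_mem hg' hg, by rw [coe_mul_apply, hgv, hgv'],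
      fun w hw => by rw [coe_mul_apply, hgw w hw, hgw' w hw]⟩
  · exact key v hvU v' hv'U hv h hq

/-- A subspace closed under the Eichler elements of a non-degenerate subspace `Y` contains `Y` or is orthogonal to it. -/
theorem le_of_eich_closed (hQ : (polarBilin Q).Nondegenerate) {Y S : Submodule F V}
    (hY : Y ⊓ perp Q Y = ⊥) (hN : 7 ≤ finrank F Y)
    (hS : ∀ (a b : V) (ha : Q a = 0) (hab : polar Q a b = 0), a ∈ Y → b ∈ Y → ∀ x ∈ S,
      (eich Q a b ha hab : V ≃ₗ[F] V) x ∈ S)
    (hne : ∃ x ∈ S, ∃ y ∈ Y, polar Q x y ≠ 0) : Y ≤ S := by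
  have L1 : ∀ x ∈ S, ∀ a ∈ Y, Q a = 0 → polar Q x a ≠ 0 → a ∈ S ∧ ∀ b ∈ Y, polar Q a b = 0 → b ∈ S := by
    intro x hx a haY ha hxa
    have ha0 : a ≠ 0 := by rintro rfl; rw [polar_zero_right] at hxa; exact hxa rfl
    have hE : ∀ b ∈ Y, polar Q a b = 0 → polar Q x b • a - polar Q x a • b - (Q b * polar Q x a) • a ∈ S := by
      intro b hb hab
      have h1 := S.sub_mem (hS a b ha hab haY hb x hx) hx
      rw [eich_apply] at h1
      convert h1 using 1
      module
    -- two vectors with non-zero polar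
    obtain ⟨b, hbY, hbq, hb⟩ := repU' hQ hY [a] (by simp; omega) (by simp [haY]) 0 1
    have hab : polar Q a b = 0 := by rw [pc, hb a (by simp), polar_zero_left]
    have hba : b ∉ Submodule.span F {a} := by
      intro h
      obtain ⟨c, rfl⟩ := Submodule.mem_span_singleton.1 h
      rw [qsmul, ha, mul_zero] at hbq
      exact zero_ne_one hbq
    obtain ⟨y₁, hy₁, hy₁b⟩ := exists_ortho_not hQ (Submodule.span F {a}) hba
    obtain ⟨b', hb'Y, -, hb'⟩ := repU' hQ hY [a, b] (by simpa using hN) (by simp [haY, hbY]) y₁ 0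
    have hab' : polar Q a b' = 0 := by
      rw [pc, hb' a (by simp), hy₁ a (Submodule.mem_span_singleton_self a)]
    have hbb' : polar Q b b' = 1 := by rw [pc, hb' b (by simp), hy₁b]
    have haS : a ∈ S := by
      have h1 := hE b hbY hab
      have h2 := hE b' hb'Y hab'
      have h3 := hE (b + b') (Y.add_mem hbY hb'Y) (by rw [par, hab, hab', add_zero])
      have h4 := S.sub_mem (S.sub_mem h3 h1) h2
      have e : polar Q x (b + b') • a - polar Q x a • (b + b') - (Q (b + b') * polar Q x a) • a -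
          (polar Q x b • a - polar Q x a • b - (Q b * polar Q x a) • a) -
          (polar Q x b' • a - polar Q x a • b' - (Q b' * polar Q x a) • a) = (-(polar Q x a)) • a := by
        rw [par, qadd, hbb']; module
      rw [e] at h4
      have h5 := S.smul_mem (-(polar Q x a))⁻¹ h4
      rwa [smul_smul, inv_mul_cancel₀ (neg_ne_zero.2 hxa), one_smul] at h5
    refine ⟨haS, fun b hb hab => ?_⟩
    have h1 := hE b hb hab
    have h2 := S.sub_mem (S.smul_mem (polar Q x b - Q b * polar Q x a) haS) h1
    have e : (polar Q x b - Q b * polar Q x a) • a -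
        (polar Q x b • a - polar Q x a • b - (Q b * polar Q x a) • a) = polar Q x a • b := by module
    rw [e] at h2
    have h5 := S.smul_mem (polar Q x a)⁻¹ h2
    rwa [smul_smul, inv_mul_cancel₀ hxa, one_smul] at h5
  obtain ⟨x, hx, y, hy, hxy⟩ := hne
  obtain ⟨a, haY, haq, ha⟩ := repU hY [x] (by simp; omega) hy 0
  have hxa : polar Q x a ≠ 0 := by rw [pc, ha x (by simp), pc]; exact hxy
  obtain ⟨haS, h1⟩ := L1 x hx a haY haq hxa
  have ha0 : a ≠ 0 := by rintro rfl; rw [polar_zero_right] at hxa; exact hxa rfl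
  obtain ⟨y', hy'Y, hy'a⟩ := exists_polar_ne_U hY haY ha0
  obtain ⟨a', ha'Y, ha'q, ha'⟩ := repU hY [a] (by simp; omega) hy'Y 0
  have haa' : polar Q a a' ≠ 0 := by rw [pc, ha' a (by simp)]; exact hy'a
  obtain ⟨ha'S, -⟩ := L1 a haS a' ha'Y ha'q haa'
  intro z hz
  have h2 : z - (polar Q a z / polar Q a a') • a' ∈ S := by
    apply h1 _ (Y.sub_mem hz (Y.smul_mem _ ha'Y))
    rw [pdr, psr]; field_simp; ring
  have h3 := S.add_mem h2 (S.smul_mem (polar Q a z / polar Q a a') ha'S)
  rwa [sub_add_cancel] at h3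

/-- irreducibility of the orthogonal group of `W` -/
theorem irr (hQ : (polarBilin Q).Nondegenerate) {W B : Submodule F V}
    (hW : W ⊓ perp Q W = ⊥) (hBW : B ≤ W) (hB0 : B ≠ ⊥)
    (hE : ∀ (a b : V) (ha : Q a = 0) (hab : polar Q a b = 0), a ∈ W → b ∈ W → ∀ x ∈ B,
      (eich Q a b ha hab : V ≃ₗ[F] V) x ∈ B)
    (hR : ∀ (z : V) (hz : Q z ≠ 0), z ∈ W → ∀ x ∈ B, (refl Q z hz : V ≃ₗ[F] V) x ∈ B)
    (hex : finrank F W = 2 → (∃ s ∈ W, s ≠ 0 ∧ Q s = 0) → 4 ≤ Nat.card F) : W ≤ B := by
  obtain ⟨w, hwB, hw0⟩ := Submodule.exists_mem_ne_zero_of_ne_bot hB0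
  have hwW := hBW hwB
  have hBfin : 1 ≤ finrank F B := by
    have : Nontrivial B := Submodule.nontrivial_iff_ne_bot.2 hB0
    exact finrank_pos
  have hfin_eq : finrank F W ≤ finrank F B → W ≤ B := by
    intro h
    exact (Submodule.eq_of_le_of_finrank_le hBW h).ge
  have hWfin : 1 ≤ finrank F W := hBfin.trans (Submodule.finrank_mono hBW)
  -- singular perp elements
  rcases Nat.lt_or_ge (finrank F W) 2 with h | h
  · exact hfin_eq (by omega)
  rcases Nat.lt_or_ge (finrank F W) 3 with h3 | h3
  · -- dimension two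
    have h2 : finrank F W = 2 := by omega
    by_contra hWB
    have hfB : finrank F B = 1 := by
      by_contra hne
      exact hWB (hfin_eq (by omega))
    have hBspan : ∀ z ∈ B, z ∈ Submodule.span F {w} := by
      intro z hz
      have h4 : Submodule.span F {w} ≤ B := by
        rw [Submodule.span_singleton_le_iff_mem]; exact hwB
      have h5 := Submodule.eq_of_le_of_finrank_le h4 (by rw [hfB, finrank_span_singleton hw0])
      rw [h5]; exact hz
    have hz : ∀ z ∈ W, Q z ≠ 0 → polar Q w z ≠ 0 → z ∈ Submodule.span F {w} := by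
      intro z hzW hzq hwz
      apply hBspan
      have h4 := B.sub_mem (hR z hzq hzW w hwB) hwB
      rw [refl_apply] at h4
      have h5 : ((Q z)⁻¹ * polar Q w z) ≠ 0 := mul_ne_zero (inv_ne_zero hzq) hwz
      have h6 := B.smul_mem (-((Q z)⁻¹ * polar Q w z))⁻¹ h4
      convert h6 using 1
      rw [sub_sub_cancel_left, smul_neg, smul_smul]
      rw [← neg_smul, ← mul_neg, neg_neg_inv_mul_cancel h5, one_smul]
    by_cases hsing : ∃ e ∈ W, e ≠ 0 ∧ Q e = 0
    · obtain ⟨e, heW, he0, heq⟩ := hsing
      have hcard := hex h2 ⟨e, heW, he0, heq⟩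
      -- a hyperbolic pair
      obtain ⟨p, hpW, hpe⟩ := exists_polar_ne_U hW heW he0
      set f := (polar Q p e)⁻¹ • p + (-(Q ((polar Q p e)⁻¹ • p))) • e with hf
      have hfW : f ∈ W := W.add_mem (W.smul_mem _ hpW) (W.smul_mem _ heW)
      have hef : polar Q e f = 1 := by
        rw [hf, par, psr, psr, pself, heq, pc Q e p, inv_mul_cancel₀ hpe]; ring
      have hfq : Q f = 0 := by
        have h7 : polar Q ((polar Q p e)⁻¹ • p) e = 1 := by rw [psl, inv_mul_cancel₀ hpe]
        rw [hf, qadd, qsmul Q (-(Q ((polar Q p e)⁻¹ • p))) e, heq, psr, h7]; ring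
      -- they span
      have hspan : ∀ x ∈ W, x = polar Q x f • e + polar Q x e • f := by
        intro x hx
        have hW' : Submodule.span F {e, f} = W := by
          apply Submodule.eq_of_le_of_finrank_le
          · rw [Submodule.span_le]; rintro y (rfl | rfl)
            · exact heW
            · exact hfW
          · rw [h2]
            have hli : LinearIndependent F ![e, f] := by
              rw [LinearIndependent.pair_iff]
              intro a b hab
              have h7 := congrArg (fun v => polar Q v f) hab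
              have h8 := congrArg (fun v => polar Q v e) hab
              simp only [pal, psl, hef, pself, hfq, heq, polar_zero_left, pc Q f e] at h7 h8
              exact ⟨by linear_combination h7, by linear_combination h8⟩
            have h9 := finrank_span_eq_card hli
            rw [Matrix.range_cons, Matrix.range_cons, Matrix.range_empty, Set.union_empty] at h9
            rw [show ({e, f} : Set V) = {e} ∪ {f} from rfl, h9]; simp
        rw [← hW', Submodule.mem_span_pair] at hx
        obtain ⟨a, b, rfl⟩ := hx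
        simp only [pal, psl, hef, pself, hfq, heq, pc Q f e]
        module
      set α := polar Q w f with hα
      set β := polar Q w e with hβ
      have hwe : w = α • e + β • f := hspan w hwW
      have hkey : ∀ t : F, t ≠ 0 → t = -(β / α) ∨ t = β / α := by
        intro t ht
        have hzq : Q (e + t • f) = t := by rw [qadd, qsmul, heq, hfq, psr, hef]; ring
        have hwz : polar Q w (e + t • f) = β + t * α := by rw [par, psr]
        by_cases h7 : β + t * α = 0
        · have hα0 : α ≠ 0 := by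
            intro h0
            rw [h0, mul_zero, add_zero] at h7
            apply hw0; rw [hwe, h0, h7]; simp
          left
          field_simp
          linear_combination h7
        · have h8 := hz (e + t • f) (W.add_mem heW (W.smul_mem _ hfW)) (by rw [hzq]; exact ht) (by rw [hwz]; exact h7)
          obtain ⟨c, hc⟩ := Submodule.mem_span_singleton.1 h8
          have h9 := congrArg (fun v => polar Q v f) hc
          have h10 := congrArg (fun v => polar Q v e) hc
          simp only [pal, psl, hef, pself, hfq, heq, pc Q f e, ← hα, ← hβ] at h9 h10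
          have hα0 : α ≠ 0 := by
            intro h0; rw [h0] at h9; simp at h9
          right
          have hc' : c = 1 / α := by rw [eq_div_iff hα0, h9]; ring
          have h11 : c * β = t := by rw [h10]; ring
          rw [← h11, hc']; ring
      -- counting
      cases nonempty_fintype F
      classical
      have h7 : (Finset.univ : Finset F) ⊆ {0, -(β / α), β / α} := by
        intro t _
        by_cases ht : t = 0
        · simp [ht]
        · rcases hkey t ht with h | h
          · rw [h]; simp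
          · rw [h]; simp
      have h8 := (Finset.card_le_card h7).trans Finset.card_le_three
      rw [Finset.card_univ, ← Nat.card_eq_fintype_card] at h8
      omega
    · push Not at hsing
      -- anisotropic plane
      obtain ⟨z₁, hz₁W, hz₁⟩ : ∃ z₁ ∈ W, z₁ ∉ Submodule.span F {w} := by
        by_contra hcon
        push Not at hcon
        have h4 := Submodule.finrank_mono (show W ≤ Submodule.span F {w} from hcon)
        rw [finrank_span_singleton hw0] at h4
        omega
      obtain ⟨z₂, hz₂W, hz₂⟩ := exists_polar_ne_U hW hwW hw0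
      have hne : ∀ z ∈ W, polar Q w z ≠ 0 → z ∈ Submodule.span F {w} := by
        intro z hzW hwz
        refine hz z hzW ?_ hwz
        intro h0
        have : z ≠ 0 := by rintro rfl; exact hwz (polar_zero_right Q w)
        exact hsing z hzW this h0
      by_cases h4 : polar Q w z₁ = 0
      · have h5 := hne z₂ hz₂W (by rw [pc]; exact hz₂)
        have h6 := hne (z₁ + z₂) (W.add_mem hz₁W hz₂W) (by rw [par, h4, zero_add, pc]; exact hz₂)
        apply hz₁
        have := Submodule.sub_mem _ h6 h5
        rwa [add_sub_cancel_right] at this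
      · exact hz₁ (hne z₁ hz₁W h4)
  · -- dimension at least three
    have hS : ∀ w ∈ W, w ≠ 0 → ∃ a ∈ W, Q a = 0 ∧ polar Q w a ≠ 0 := by
      intro w hw hw0
      obtain ⟨a₀, ha₀W, ha₀0, ha₀q⟩ := exists_sing_mem Q W h3
      by_cases h4 : polar Q w a₀ = 0
      · obtain ⟨p, hp, h5, h6⟩ := exists_polar_ne_two (Q := Q) (P := W) (a := w) (b := a₀)
          (by obtain ⟨y, hy, h⟩ := exists_polar_ne_U hW hw hw0; exact ⟨y, hy, by rw [pc]; exact h⟩)
          (by obtain ⟨y, hy, h⟩ := exists_polar_ne_U hW ha₀W ha₀0; exact ⟨y, hy, by rw [pc]; exact h⟩)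
        refine ⟨p + (-(Q p / polar Q a₀ p)) • a₀, W.add_mem hp (W.smul_mem _ ha₀W), ?_, ?_⟩
        · rw [qadd, qsmul, ha₀q, psr, pc Q p a₀]; field_simp; ring
        · rw [par, psr, h4, mul_zero, add_zero]; exact h5
      · exact ⟨a₀, ha₀W, ha₀q, h4⟩
    obtain ⟨a, haW, haq, hwa⟩ := hS w hwW hw0
    -- `B + <a> = W`
    have hBa : W ≤ B ⊔ Submodule.span F {a} := by
      have h4 : ∀ b ∈ W, polar Q a b = 0 → b ∈ B ⊔ Submodule.span F {a} := by
        intro b hbW hab
        have h5 := B.sub_mem (hE a b haq hab haW hbW w hwB) hwB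
        rw [eich_apply] at h5
        have h6 : polar Q w a • b = -((w + polar Q w b • a - polar Q w a • b - (Q b * polar Q w a) • a) - w) +
          (polar Q w b - Q b * polar Q w a) • a := by module
        have h7 : polar Q w a • b ∈ B ⊔ Submodule.span F {a} := by
          rw [h6]
          exact Submodule.add_mem _ (Submodule.mem_sup_left (B.neg_mem h5))
            (Submodule.mem_sup_right (Submodule.smul_mem _ _ (Submodule.mem_span_singleton_self a)))
        have h8 := Submodule.smul_mem _ (polar Q w a)⁻¹ h7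
        rwa [smul_smul, inv_mul_cancel₀ hwa, one_smul] at h8
      intro x hx
      have h5 := h4 (x - (polar Q a x / polar Q w a) • w) (W.sub_mem hx (W.smul_mem _ hwW)) (by
        rw [pdr, psr, pc Q a w]; field_simp; ring)
      have h6 := Submodule.add_mem _ h5 (Submodule.mem_sup_left (B.smul_mem (polar Q a x / polar Q w a) hwB))
      rwa [sub_add_cancel] at h6
    have hfB : finrank F W ≤ finrank F B + 1 := by
      refine (Submodule.finrank_mono hBa).trans ?_
      refine (Submodule.finrank_add_le_finrank_add_finrank _ _).trans ?_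
      have := (finrank_span_le_card (R := F) ({a} : Set V)).trans (by simp : _ ≤ 1)
      omega
    -- the perp of `B` in `W`
    have hC := finrank_inf_perp hQ W B
    have hC' : perp Q W ⊓ B = ⊥ := by
      rw [eq_bot_iff, ← hW]
      rintro x ⟨hx1, hx2⟩
      exact ⟨hBW hx2, hx1⟩
    rw [hC', finrank_bot, add_zero] at hC
    by_cases hCbot : W ⊓ perp Q B = ⊥
    · rw [hCbot, finrank_bot, zero_add] at hC
      exact hfin_eq hC.ge
    · exfalso
      obtain ⟨x, hxC, hx0⟩ := Submodule.exists_mem_ne_zero_of_ne_bot hCbot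
      have hCfin : finrank F ↥(W ⊓ perp Q B) ≤ 1 := by omega
      have hCspan : ∀ z ∈ W ⊓ perp Q B, z ∈ Submodule.span F {x} := by
        intro z hz
        have h4 : Submodule.span F {x} ≤ W ⊓ perp Q B := by
          rw [Submodule.span_singleton_le_iff_mem]; exact hxC
        have h5 := Submodule.eq_of_le_of_finrank_le h4 (by rw [finrank_span_singleton hx0]; exact hCfin)
        rw [h5]; exact hz
      obtain ⟨a', ha'W, ha'q, hxa'⟩ := hS x hxC.1 hx0
      have ha'0 : a' ≠ 0 := by rintro rfl; exact hxa' (polar_zero_right Q x)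
      -- a vector `b ⊥ a'` off the line
      obtain ⟨b, hbW, hab, hb⟩ : ∃ b ∈ W, polar Q a' b = 0 ∧ b ∉ Submodule.span F {a'} := by
        have h4 := finrank_inf_perp hQ W (Submodule.span F {a'})
        rw [finrank_span_singleton ha'0] at h4
        by_contra hcon
        push Not at hcon
        have h5 : W ⊓ perp Q (Submodule.span F {a'}) ≤ Submodule.span F {a'} := by
          intro b hb
          refine hcon b hb.1 ?_
          exact hb.2 a' (Submodule.mem_span_singleton_self a')
        have h6 := Submodule.finrank_mono h5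
        rw [finrank_span_singleton ha'0] at h6
        omega
      -- the image of `x`
      have hyC : (eich Q a' b ha'q hab : V ≃ₗ[F] V) x ∈ W ⊓ perp Q B := by
        refine ⟨?_, ?_⟩
        · rw [eich_apply]
          exact W.sub_mem (W.sub_mem (W.add_mem hxC.1 (W.smul_mem _ ha'W)) (W.smul_mem _ hbW)) (W.smul_mem _ ha'W)
        · intro z hz
          change polar Q z _ = 0
          have h4 : polar Q a' (-b) = 0 := by rw [polar_neg_right, hab, neg_zero]
          have h5 := hE a' (-b) ha'q h4 ha'W (W.neg_mem hbW) z hz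
          have h6 : (eich Q a' b ha'q hab : V ≃ₗ[F] V) ((eich Q a' (-b) ha'q h4 : V ≃ₗ[F] V) z) = z := by
            rw [← coe_mul_apply, eich_mul]
            have : eich Q a' (b + -b) ha'q (by rw [add_neg_cancel, polar_zero_right]) =
              eich Q a' 0 ha'q (polar_zero_right Q a') := by congr 1; exact add_neg_cancel b
            rw [this, eich_zero, coe_one_apply]
          rw [← h6, OGrp_polar]
          exact hxC.2 _ h5
      obtain ⟨l, hl⟩ := Submodule.mem_span_singleton.1 (hCspan _ hyC)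
      rw [eich_apply] at hl
      -- `b ∈ <x, a'>`
      have h7 : polar Q x a' • b = (1 - l) • x + (polar Q x b - Q b * polar Q x a') • a' := by
        have h8 : (1 - l) • x = x - l • x := by module
        rw [h8, hl]; module
      have h9 := congrArg (fun v => polar Q v a') h7
      simp only [psl, pal, pself, ha'q, pc Q b a', hab] at h9
      have h10 : (1 - l) * polar Q x a' = 0 := by linear_combination -h9
      have h11 := (mul_eq_zero.1 h10).resolve_right hxa'
      rw [h11, zero_smul, zero_add] at h7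
      apply hb
      rw [Submodule.mem_span_singleton]
      refine ⟨(polar Q x a')⁻¹ * (polar Q x b - Q b * polar Q x a'), ?_⟩
      rw [mul_smul, ← h7, smul_smul, inv_mul_cancel₀ hxa', one_smul]
where
  neg_neg_inv_mul_cancel {a : F} (h : a ≠ 0) : (-a)⁻¹ * -a = 1 := inv_mul_cancel₀ (neg_ne_zero.2 h)

end

end Cfsg.Agent.GeoMax.Ort
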