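import Cfsg.Agent.GeoMax.ONDFin
import Cfsg.Agent.GeoMax.OTransport
import Cfsg.Agent.Orth.Diag

/-!
Glue for the stabilisers of non-degenerate subspaces of even-dimensional orthogonal spaces.
-/

set_option autoImplicit false
set_option linter.unusedSectionVars false

namespace Cfsg.Agent.GeoMax.Ort

open QuadraticMap Module Cfsg.Agent.Orth

section
variable {F V : Type*} [Field F] [AddCommGroup V] [Module F V]
variable [Finite F] [FiniteDimensional F V] {Q : QuadraticForm F V}

/-- an anti-isometry of a non-degenerate subspace of even dimension -/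
theorem exists_anti {W : Submodule F V} (hW : W ⊓ perp Q W = ⊥) (hev : Even (finrank F W)) :
    ∃ φ : W ≃ₗ[F] W, ∀ w : W, Q (φ w : V) = - Q (w : V) := by
  by_cases h2 : (2 : F) = 0
  · refine ⟨LinearEquiv.refl F W, fun w => ?_⟩
    have : (1 : F) = -1 := by
      have : (1 : F) + 1 = 0 := by rw [one_add_one_eq_two]; exact h2
      exact eq_neg_of_add_eq_zero_left this
    rw [LinearEquiv.refl_apply]
    calc Q (w : V) = 1 * Q (w : V) := (one_mul _).symm
      _ = -1 * Q (w : V) := by rw [← this]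
      _ = _ := by ring
  · have hn := nondegenerate_restrict hW
    have hn' : (polarBilin (-(Q.restrict W))).Nondegenerate := by
      have e : ∀ x y, polarBilin (-(Q.restrict W)) x y = - polarBilin (Q.restrict W) x y := by
        intro x y
        rw [pbil, pbil, polar, polar, QuadraticMap.neg_apply, QuadraticMap.neg_apply, QuadraticMap.neg_apply]
        ring
      refine ⟨fun x hx => hn.1 x fun y => ?_, fun x hx => hn.2 x fun y => ?_⟩
      · have := hx y; rw [e, neg_eq_zero] at this; exact this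
      · have := hx y; rw [e, neg_eq_zero] at this; exact this
    obtain ⟨φ, hφ⟩ := exists_isom_of_disc h2 hn hn' rfl (Module.finBasis F W) (Module.finBasis F W) (by
      have hg : gram (-(Q.restrict W)) (Module.finBasis F W) = - gram (Q.restrict W) (Module.finBasis F W) := by
        ext i j
        rw [Matrix.neg_apply, gram, gram, Matrix.of_apply, Matrix.of_apply, polar, polar,
          QuadraticMap.neg_apply, QuadraticMap.neg_apply, QuadraticMap.neg_apply]
        ring
      rw [hg, Matrix.det_neg, Fintype.card_fin, hev.neg_one_pow, one_mul]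
      exact ⟨_, rfl⟩)
    · refine ⟨φ, fun w => ?_⟩
      have h3 := hφ w
      rw [QuadraticMap.neg_apply, restrict_apply', restrict_apply'] at h3
      rw [← h3, neg_neg]

/-- If an isometry swaps a non-degenerate subspace of even dimension `n/2` with its orthogonal complement, then
the form is of plus type. -/
theorem plus_of_swap {W : Submodule F V} (hW : W ⊓ perp Q W = ⊥)
    (hev : Even (finrank F W)) (g : OGrp Q) (hg : W.map ((g : V ≃ₗ[F] V) : V →ₗ[F] V) = perp Q W) :
    ∃ T : Submodule F V, (∀ x ∈ T, Q x = 0) ∧ finrank F T = finrank F W := by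
  obtain ⟨φ, hφ⟩ := exists_anti hW hev
  let f : W →ₗ[F] V := W.subtype + ((g : V ≃ₗ[F] V) : V →ₗ[F] V) ∘ₗ W.subtype ∘ₗ (φ : W →ₗ[F] W)
  have hf : ∀ w : W, f w = (w : V) + (g : V ≃ₗ[F] V) (φ w : V) := fun w => rfl
  have hgm : ∀ w : W, (g : V ≃ₗ[F] V) (w : V) ∈ perp Q W := fun w => by
    rw [← hg]; exact Submodule.mem_map_of_mem w.2
  refine ⟨LinearMap.range f, ?_, ?_⟩
  · rintro _ ⟨w, rfl⟩
    have h1 : polar Q (w : V) ((g : V ≃ₗ[F] V) (φ w : V)) = 0 := hgm (φ w) w w.2
    rw [hf, qadd, OGrp_q, hφ, h1]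
    ring
  · refine LinearMap.finrank_range_of_inj ?_
    rw [← LinearMap.ker_eq_bot, eq_bot_iff]
    intro w hw
    have hw' : (w : V) + (g : V ≃ₗ[F] V) (φ w : V) = 0 := by rw [← hf]; exact hw
    have h1 : (w : V) ∈ W ⊓ perp Q W := by
      refine ⟨w.2, ?_⟩
      rw [eq_neg_of_add_eq_zero_left hw']
      exact (perp Q W).neg_mem (hgm _)
    rw [hW] at h1
    exact Subtype.ext ((Submodule.mem_bot F).1 h1)

end

section
variable {ι : Type} [Fintype ι] [DecidableEq ι] {F : Type*} [Field F]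

lemma plusType_of_sing {Q : (ι → F) → F} (hQ : Cfsg.Geo.IsNondegenerateQuadraticForm Q) {U : Submodule F (ι → F)}
    (h2 : Module.finrank F U = 2) {s : ι → F} (hs : s ∈ U) (hs0 : s ≠ 0) (hq : Q s = 0) :
    Cfsg.Geo.IsPlusTypeOn Q U := by
  refine ⟨Submodule.span F {s}, ?_, ?_, ?_⟩
  · rw [Submodule.span_singleton_le_iff_mem]; exact hs
  · intro w hw
    obtain ⟨c, rfl⟩ := Submodule.mem_span_singleton.1 hw
    rw [hQ.smul, hq, mul_zero]
  · rw [finrank_span_singleton hs0, h2]

lemma inf_perp_of_geo [Finite F] {Q : QuadraticForm F (ι → F)} {W : Submodule F (ι → F)}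
    (hW : Cfsg.Geo.IsNondegenerateOn (polar ⇑Q) W) : W ⊓ perp Q W = ⊥ :=
  inf_perp_of_nd fun w hw hw0 => (hW w hw hw0).1

lemma geo_of_inf_perp [Finite F] {Q : QuadraticForm F (ι → F)} {W : Submodule F (ι → F)}
    (hW : W ⊓ perp Q W = ⊥) : Cfsg.Geo.IsNondegenerateOn (polar ⇑Q) W := by
  intro w hw hw0
  obtain ⟨y, hy, hyw⟩ := exists_polar_ne_U hW hw hw0
  exact ⟨⟨y, hy, hyw⟩, y, hy, by rw [pc]; exact hyw⟩

/-- Non-degenerate subspace stabilisers, in the vocabulary of `Cfsg.Geo`. -/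
theorem nd_maximal_geo [Fintype F] {n : ℕ} (hn : 13 ≤ n) (Q : (Fin n → F) → F)
    (hQ : Cfsg.Geo.IsNondegenerateQuadraticForm Q) (W : Submodule F (Fin n → F)) (hW0 : W ≠ ⊥)
    (hW1 : W ≠ ⊤) (hW : Cfsg.Geo.IsNondegenerateOn (QuadraticMap.polar Q) W)
    (hswap : 2 * finrank F W = n →
      ∀ g ∈ commutator (OGrp (toQF hQ)), ¬ W.map ((g : (Fin n → F) ≃ₗ[F] (Fin n → F)) : (Fin n → F) →ₗ[F] (Fin n → F)) =
        perp (toQF hQ) W)
    (hex : ¬ (Fintype.card F ≤ 3 ∧ (∃ U : Submodule F (Fin n → F), Module.finrank F U = 2 ∧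
      Cfsg.Geo.IsNondegenerateOn (QuadraticMap.polar Q) U ∧ Cfsg.Geo.IsPlusTypeOn Q U ∧
      (U = W ∨ (Cfsg.Geo.AreOrthogonalFor (QuadraticMap.polar Q) U W ∧ Module.finrank F U + Module.finrank F W = n))))) :
    Cfsg.Geo.IsMaximalIn (commutator (OGrp (toQF hQ))) (stabO (toQF hQ) W ⊓ commutator (OGrp (toQF hQ))) := by
  have hfr : Module.finrank F (Fin n → F) = n := by
    rw [Module.finrank_fintype_fun_eq_card]; simp
  have hnd := toQF_nondeg hQ
  have hWp : W ⊓ perp (toQF hQ) W = ⊥ := inf_perp_of_geo hW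
  have hdim := finrank_perp hnd W
  refine nd_maximal hnd hWp (by omega) hW0 hW1 (by rw [hfr]; exact hswap) ?_ ?_
  · rintro h2 ⟨s, hs, hs0, hq⟩
    by_contra hcon
    rw [Nat.card_eq_fintype_card] at hcon
    exact hex ⟨by omega, W, h2, hW, plusType_of_sing hQ h2 hs hs0 hq, Or.inl rfl⟩
  · rintro h2 ⟨s, hs, hs0, hq⟩
    by_contra hcon
    rw [Nat.card_eq_fintype_card] at hcon
    refine hex ⟨by omega, perp (toQF hQ) W, h2, geo_of_inf_perp (Q := toQF hQ) (perp_nd hnd hWp),
      plusType_of_sing hQ h2 hs hs0 hq, Or.inr ⟨?_, by omega⟩⟩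
    intro u hu v hv
    exact mem_perp'.1 hu v hv

end

end Cfsg.Agent.GeoMax.Ort
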