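import Cfsg.Agent.GeoMax.OND

/-!
Stabilisers of non-degenerate subspaces in `Ω` are maximal: main argument.
-/

set_option autoImplicit false
set_option linter.unusedSectionVars false

namespace Cfsg.Agent.GeoMax.Ort

open QuadraticMap Module Cfsg.Agent.Orth

variable {F V : Type*} [Field F] [AddCommGroup V] [Module F V]
variable [Finite F] [FiniteDimensional F V] {Q : QuadraticForm F V}

/-- Once `M` contains `eich u w` for some `u ∈ U`, `w ∈ U^⊥` non-zero, it contains `Ω`. -/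
theorem commutator_le_of_mixed (hQ : (polarBilin Q).Nondegenerate) {U : Submodule F V}
    (hU : U ⊓ perp Q U = ⊥) (hN : 7 ≤ finrank F U) {M : Subgroup (OGrp Q)}
    (hMU : ∀ a ∈ U, ∀ b ∈ U, Q a = 0 → polar Q a b = 0 → HasE M a b)
    (hMW : ∀ a ∈ perp Q U, ∀ b ∈ perp Q U, Q a = 0 → polar Q a b = 0 → HasE M a b)
    (hMR : ∀ (z z' : V) (hz : Q z ≠ 0) (hz' : Q z' ≠ 0), z ∈ perp Q U → z' ∈ U → Q z = Q z' →
      refl Q z hz * refl Q z' hz' ∈ M)
    (hex : finrank F (perp Q U) = 2 → (∃ s ∈ perp Q U, s ≠ 0 ∧ Q s = 0) → 4 ≤ Nat.card F)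
    {u w : V} (huU : u ∈ U) (hu0 : u ≠ 0) (hwW : w ∈ perp Q U) (hw0 : w ≠ 0) (huw : HasE M u w) :
    commutator (OGrp Q) ≤ M := by
  have huq := huw.sing
  have hUW : ∀ y ∈ U, ∀ w ∈ perp Q U, polar Q y w = 0 := fun y hy w hw => hw y hy
  have hWU : ∀ w ∈ perp Q U, ∀ y ∈ U, polar Q w y = 0 := fun w hw y hy => by rw [pc]; exact hw y hy
  -- the set of `w`
  let B : Submodule F V :=
    { carrier := {w | w ∈ perp Q U ∧ HasE M u w}
      add_mem' := fun {a b} ha hb => ⟨(perp Q U).add_mem ha.1 hb.1, ha.2.add hb.2⟩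
      zero_mem' := ⟨(perp Q U).zero_mem, HasE.zero huq⟩
      smul_mem' := by
        rintro c w ⟨hw, h⟩
        refine ⟨(perp Q U).smul_mem c hw, ?_⟩
        by_cases hc : c = 0
        · rw [hc, zero_smul]; exact HasE.zero huq
        obtain ⟨t, htM, htu, htw⟩ := exists_mem_moveU hQ hU hN hMU huU (U.smul_mem c huU) hu0
          (smul_ne_zero hc hu0) (by rw [qsmul, huq, mul_zero])
        have h1 := h.conj htM
        rw [htu, htw w hw] at h1
        exact h1.smul_left huq (hUW u huU w hw) }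
  have hB : ∀ x, x ∈ B ↔ x ∈ perp Q U ∧ HasE M u x := fun x => Iff.rfl
  have hWB : perp Q U ≤ B := by
    apply irr hQ (perp_nd hQ hU) (fun x hx => ((hB x).1 hx).1)
    · intro h
      have : w ∈ B := ⟨hwW, huw⟩
      rw [h] at this
      exact hw0 ((Submodule.mem_bot F).1 this)
    · intro a b ha hab haW hbW x hx
      obtain ⟨_, _, hm⟩ := hMW a haW b hbW ha hab
      have h1 := hx.2.conj hm
      rw [eich_apply, eich_apply, hUW u huU b hbW, hUW u huU a haW] at h1
      rw [eich_apply]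
      refine ⟨?_, ?_⟩
      · exact Submodule.sub_mem _ (Submodule.sub_mem _ (Submodule.add_mem _ hx.1 (Submodule.smul_mem _ _ haW))
          (Submodule.smul_mem _ _ hbW)) (Submodule.smul_mem _ _ haW)
      · simpa using h1
    · intro z hz hzW x hx
      obtain ⟨z', hz'U, hz'q, hz'u⟩ := repU' hQ hU [u] (by simp; omega) (by simp [huU]) 0 (Q z)
      have hz'0 : Q z' ≠ 0 := by rw [hz'q]; exact hz
      have hm := hMR z z' hz hz'0 hzW hz'U hz'q.symm
      have h1 := hx.2.conj hm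
      have huz' : polar Q u z' = 0 := by rw [pc, hz'u u (by simp), polar_zero_left]
      rw [coe_mul_apply, coe_mul_apply, refl_apply_of_ortho hz'0 huz', refl_apply_of_ortho hz (hUW u huU z hzW),
        refl_apply_of_ortho hz'0 (hWU x hx.1 z' hz'U)] at h1
      refine ⟨?_, h1⟩
      rw [refl_apply]
      exact Submodule.sub_mem _ hx.1 (Submodule.smul_mem _ _ hzW)
    · exact hex
  have hFu : FullR M u := by
    intro b hb
    obtain ⟨w', hw', y, hy, rfl⟩ := exists_add hQ hU b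
    rw [par, hUW u huU w' hw', zero_add] at hb
    exact (hWB hw').2.add (hMU u huU y hy huq hb)
  obtain ⟨y, hyU, hyu⟩ := exists_polar_ne_U hU huU hu0
  obtain ⟨u', hu'U, hu'q, hu'⟩ := repU hU [u] (by simp; omega) hyU 0
  have hu'u : polar Q u' u ≠ 0 := by rw [hu' u (by simp)]; exact hyu
  have hu'0 : u' ≠ 0 := by rintro rfl; exact hu'u (polar_zero_left Q u)
  obtain ⟨t, htM, htu, -⟩ := exists_mem_moveU hQ hU hN hMU huU hu'U hu0 hu'0 (by rw [huq, hu'q])
  have hFu' := hFu.conj htM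
  rw [htu] at hFu'
  have hNV : 7 ≤ finrank F V := hN.trans (Submodule.finrank_le U)
  exact commutator_le_of_FullR hQ hNV hFu hFu' hu'u

/-- Maximality of stabilisers of non-degenerate subspaces (`U` is the larger of the two). -/
theorem nd_maximal_aux (hQ : (polarBilin Q).Nondegenerate) {U : Submodule F V}
    (hU : U ⊓ perp Q U = ⊥) (hN : 7 ≤ finrank F U) (hle : finrank F (perp Q U) ≤ finrank F U)
    (hW0 : perp Q U ≠ ⊥)
    (hswap : ∀ g ∈ commutator (OGrp Q), ¬ U.map ((g : V ≃ₗ[F] V) : V →ₗ[F] V) ≤ perp Q U)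
    (hex : finrank F (perp Q U) = 2 → (∃ s ∈ perp Q U, s ≠ 0 ∧ Q s = 0) → 4 ≤ Nat.card F) :
    Cfsg.Geo.IsMaximalIn (commutator (OGrp Q)) (stabO Q U ⊓ commutator (OGrp Q)) := by
  have hNV : 7 ≤ finrank F V := hN.trans (Submodule.finrank_le U)
  have hUW : ∀ y ∈ U, ∀ w ∈ perp Q U, polar Q y w = 0 := fun y hy w hw => hw y hy
  have hWU : ∀ w ∈ perp Q U, ∀ y ∈ U, polar Q w y = 0 := fun w hw y hy => by rw [pc]; exact hw y hy
  constructor
  · refine lt_of_le_of_ne inf_le_right ?_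
    intro heq
    obtain ⟨u, huU, hu0, huq⟩ := exists_sing_mem Q U (by omega)
    obtain ⟨w, hwW, hw0⟩ := Submodule.exists_mem_ne_zero_of_ne_bot hW0
    obtain ⟨x, hxU, hxu⟩ := exists_polar_ne_U hU huU hu0
    have huw := hUW u huU w hwW
    have hmem : eich Q u w huq huw ∈ stabO Q U ⊓ commutator (OGrp Q) := by
      rw [heq]; exact eich_mem_commutator hQ hNV huq huw
    have h1 := (mem_stabO.1 hmem.1 x).1 hxU
    rw [eich_apply, hUW x hxU w hwW, zero_smul, add_zero] at h1
    have h2 : polar Q x u • w ∈ U := by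
      have h3 := U.sub_mem (U.sub_mem hxU h1) (U.smul_mem (Q w * polar Q x u) huU)
      convert h3 using 1
      module
    have h3 := U.smul_mem (polar Q x u)⁻¹ h2
    rw [smul_smul, inv_mul_cancel₀ hxu, one_smul] at h3
    have h4 : w ∈ U ⊓ perp Q U := ⟨h3, hwW⟩
    rw [hU] at h4
    exact hw0 ((Submodule.mem_bot F).1 h4)
  · intro M hHM hMI
    by_cases hMH : M = stabO Q U ⊓ commutator (OGrp Q)
    · exact Or.inl hMH
    right
    refine le_antisymm hMI ?_
    have hMU : ∀ a ∈ U, ∀ b ∈ U, Q a = 0 → polar Q a b = 0 → HasE M a b := by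
      intro a ha b hb haq hab
      refine ⟨haq, hab, hHM ⟨mem_stabO_of_le fun x hx => ?_, eich_mem_commutator hQ hNV _ _⟩⟩
      rw [eich_apply]
      exact U.sub_mem (U.sub_mem (U.add_mem hx (U.smul_mem _ ha)) (U.smul_mem _ hb)) (U.smul_mem _ ha)
    have hMW : ∀ a ∈ perp Q U, ∀ b ∈ perp Q U, Q a = 0 → polar Q a b = 0 → HasE M a b := by
      intro a ha b hb haq hab
      refine ⟨haq, hab, hHM ⟨mem_stabO_of_le fun x hx => ?_, eich_mem_commutator hQ hNV _ _⟩⟩
      rw [eich_apply, hUW x hx a ha, hUW x hx b hb]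
      simpa using hx
    have hMR : ∀ (z z' : V) (hz : Q z ≠ 0) (hz' : Q z' ≠ 0), z ∈ perp Q U → z' ∈ U → Q z = Q z' →
        refl Q z hz * refl Q z' hz' ∈ M := by
      intro z z' hz hz' hzW hz'U hzz'
      refine hHM ⟨mem_stabO_of_le fun x hx => ?_, refl_pair_mem hQ hz hz' hzz'⟩
      have h1 : (refl Q z' hz' : V ≃ₗ[F] V) x ∈ U := by
        rw [refl_apply]; exact U.sub_mem hx (U.smul_mem _ hz'U)
      rw [coe_mul_apply, refl_apply_of_ortho hz (hUW _ h1 z hzW)]
      exact h1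
    -- an element moving `U`
    obtain ⟨g, hgM, hg⟩ : ∃ g ∈ M, g ∉ stabO Q U := by
      by_contra hcon
      push Not at hcon
      exact hMH (le_antisymm (fun g hg => ⟨hcon g hg, hMI hg⟩) hHM)
    set Y := U.map ((g : V ≃ₗ[F] V) : V →ₗ[F] V) with hY
    have hYfin : finrank F Y = finrank F U := LinearEquiv.finrank_map_eq _ _
    have hYnd : Y ⊓ perp Q Y = ⊥ := nd_map hQ g hU
    have hMY : ∀ a ∈ Y, ∀ b ∈ Y, Q a = 0 → polar Q a b = 0 → HasE M a b := by
      rintro _ ⟨a, ha, rfl⟩ _ ⟨b, hb, rfl⟩ haq hab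
      have h1 : Q a = 0 := by rw [← OGrp_q g]; exact haq
      have h2 : polar Q a b = 0 := by rw [← OGrp_polar g]; exact hab
      exact (hMU a ha b hb h1 h2).conj hgM
    -- an Eichler element of `Y` moving `U`
    obtain ⟨a, b, haq, hab, haY, hbY, x, hxU, hx⟩ : ∃ (a b : V) (ha : Q a = 0) (hab : polar Q a b = 0),
        a ∈ Y ∧ b ∈ Y ∧ ∃ x ∈ U, (eich Q a b ha hab : V ≃ₗ[F] V) x ∉ U := by
      by_contra hcon
      push Not at hcon
      by_cases hne : ∃ x ∈ U, ∃ y ∈ Y, polar Q x y ≠ 0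
      · have h1 := le_of_eich_closed hQ hYnd (by omega) hcon hne
        have h2 := Submodule.eq_of_le_of_finrank_eq h1 hYfin
        apply hg
        refine mem_stabO_of_le fun v hv => ?_
        rw [← h2]
        exact ⟨v, hv, rfl⟩
      · push Not at hne
        apply hswap g (hMI hgM)
        intro y hy u hu
        exact hne u hu y hy
    obtain ⟨_, _, hρ⟩ := hMY a haY b hbY haq hab
    set ρ := eich Q a b haq hab with hρdef
    -- a singular vector fixed by `ρ`
    obtain ⟨u, ⟨huU, huP⟩, hu0, huq⟩ : ∃ u ∈ U ⊓ perp Q (Submodule.span F {z | z ∈ [x, a, b]}), u ≠ 0 ∧ Q u = 0 := by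
      apply exists_sing_mem
      have h1 := finrank_inf_perp hQ U (Submodule.span F {z | z ∈ [x, a, b]})
      have h2 := Symp.finrank_span_list_le (K := F) [x, a, b]
      simp only [List.length_cons, List.length_nil] at h2
      omega
    have huo : ∀ z ∈ [x, a, b], polar Q u z = 0 := fun z hz => mem_perp'.1 huP z (Submodule.subset_span hz)
    have hρu : (ρ : V ≃ₗ[F] V) u = u := by
      rw [hρdef, eich_apply, huo a (by simp), huo b (by simp)]; simp
    have h1 := (hMU u huU x hxU huq (huo x (by simp))).conj hρ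
    rw [hρu] at h1
    obtain ⟨w, hw, y, hy, hwy⟩ := exists_add hQ hU ((ρ : V ≃ₗ[F] V) x)
    rw [hwy] at h1
    have h2 := h1.ortho
    rw [par, hUW u huU w hw, zero_add] at h2
    have h3 := h1.sub (hMU u huU y hy huq h2)
    rw [add_sub_cancel_right] at h3
    have hw0 : w ≠ 0 := by
      rintro rfl
      rw [zero_add] at hwy
      exact hx (by rw [hwy]; exact hy)
    exact commutator_le_of_mixed hQ hU hN hMU hMW hMR hex huU hu0 hw hw0 h3

/-- symmetric version: one of `W`, `W^⊥` is large -/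
theorem nd_maximal (hQ : (polarBilin Q).Nondegenerate) {W : Submodule F V}
    (hW : W ⊓ perp Q W = ⊥) (hN : 13 ≤ finrank F V) (hW0 : W ≠ ⊥) (hW1 : W ≠ ⊤)
    (hswap : 2 * finrank F W = finrank F V →
      ∀ g ∈ commutator (OGrp Q), ¬ W.map ((g : V ≃ₗ[F] V) : V →ₗ[F] V) = perp Q W)
    (hex : finrank F W = 2 → (∃ s ∈ W, s ≠ 0 ∧ Q s = 0) → 4 ≤ Nat.card F)
    (hex' : finrank F (perp Q W) = 2 → (∃ s ∈ perp Q W, s ≠ 0 ∧ Q s = 0) → 4 ≤ Nat.card F) :
    Cfsg.Geo.IsMaximalIn (commutator (OGrp Q)) (stabO Q W ⊓ commutator (OGrp Q)) := by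
  have hdim := finrank_perp hQ W
  have hWp : perp Q W ≠ ⊥ := by
    intro h
    rw [h, finrank_bot, zero_add] at hdim
    exact hW1 (Submodule.eq_top_of_finrank_eq hdim)
  rcases Nat.lt_or_ge (finrank F W) (finrank F (perp Q W)) with h | h
  · -- `U = W^⊥`
    rw [← stabO_perp hQ W]
    refine nd_maximal_aux hQ (U := perp Q W) (perp_nd hQ hW) (by omega) (by rw [perp_perp hQ]; exact h.le)
      (by rw [perp_perp hQ]; exact hW0) ?_ (by rw [perp_perp hQ]; exact hex)
    intro g hg hle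
    rw [perp_perp hQ] at hle
    have := Submodule.finrank_mono hle
    rw [LinearEquiv.finrank_map_eq] at this
    omega
  · refine nd_maximal_aux hQ (U := W) hW (by omega) h hWp ?_ hex'
    intro g hg hle
    have h1 := Submodule.finrank_mono hle
    rw [LinearEquiv.finrank_map_eq] at h1
    refine hswap (by omega) g hg ?_
    exact Submodule.eq_of_le_of_finrank_le hle (by rw [LinearEquiv.finrank_map_eq]; exact h)

end Cfsg.Agent.GeoMax.Ort
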