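import Cfsg.Agent.GeoMax.OBasic

/-!
Stabilisers of subspaces in `Ω`; parabolic subgroups are maximal.
-/

set_option autoImplicit false
set_option linter.unusedSectionVars false

namespace Cfsg.Agent.GeoMax.Ort

open QuadraticMap Module Cfsg.Agent.Orth

variable {F V : Type*} [Field F] [AddCommGroup V] [Module F V]

/-- The stabiliser of a subspace in the isometry group. -/
def stabO (Q : QuadraticForm F V) (W : Submodule F V) : Subgroup (OGrp Q) where
  carrier := {g | ∀ v, v ∈ W ↔ (g : V ≃ₗ[F] V) v ∈ W}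
  mul_mem' {a b} ha hb := by
    intro v
    rw [coe_mul_apply]
    exact (hb v).trans (ha _)
  one_mem' := fun v => Iff.rfl
  inv_mem' {a} ha := by
    intro v
    have := ha (((a⁻¹ : OGrp Q) : V ≃ₗ[F] V) v)
    rw [coe_apply_inv_self] at this
    exact this.symm

theorem mem_stabO {Q : QuadraticForm F V} {W : Submodule F V} {g : OGrp Q} :
    g ∈ stabO Q W ↔ ∀ v, v ∈ W ↔ (g : V ≃ₗ[F] V) v ∈ W := Iff.rfl

theorem mem_stabO_of_le [FiniteDimensional F V] {Q : QuadraticForm F V} {W : Submodule F V} {g : OGrp Q}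
    (h : ∀ v ∈ W, (g : V ≃ₗ[F] V) v ∈ W) : g ∈ stabO Q W := by
  rw [mem_stabO]
  intro v
  refine ⟨h v, fun hv => ?_⟩
  have hle : W.map ((g : V ≃ₗ[F] V) : V →ₗ[F] V) ≤ W := by
    rintro _ ⟨w, hw, rfl⟩; exact h w hw
  have hfin : finrank F (W.map ((g : V ≃ₗ[F] V) : V →ₗ[F] V)) = finrank F W := LinearEquiv.finrank_map_eq _ _
  have heq := Submodule.eq_of_le_of_finrank_eq hle hfin
  rw [← heq] at hv
  obtain ⟨w, hw, hwv⟩ := hv
  have := (g : V ≃ₗ[F] V).injective hwv
  rwa [← this]

theorem HasE.zero_left {Q : QuadraticForm F V} {M : Subgroup (OGrp Q)} (b : V) : HasE M 0 b := by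
  refine ⟨QuadraticMap.map_zero Q, polar_zero_left Q b, ?_⟩
  have : eich Q 0 b (QuadraticMap.map_zero Q) (polar_zero_left Q b) = 1 :=
    OGrp_ext fun x => by rw [eich_apply, coe_one_apply]; simp
  rw [this]; exact M.one_mem

section
variable [Finite F] [FiniteDimensional F V] {Q : QuadraticForm F V}

/-- final step: two opposite full radicals give everything -/
theorem commutator_le_of_FullR (hQ : (polarBilin Q).Nondegenerate) (hN : 7 ≤ finrank F V) {M : Subgroup (OGrp Q)}
    {u x : V} (hu : FullR M u) (hx : FullR M x) (hxu : polar Q x u ≠ 0) : commutator (OGrp Q) ≤ M := by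
  refine commutator_le hQ hN M fun a b ha hab => ?_
  by_cases ha0 : a = 0
  · rw [ha0]; exact HasE.zero_left b
  · exact FullR_all hQ hN hu hx hxu a ha ha0 b hab

theorem exists_polar_ne (hQ : (polarBilin Q).Nondegenerate) {x : V} (hx : x ≠ 0) : ∃ y, polar Q y x ≠ 0 := by
  by_contra hcon
  push Not at hcon
  exact hx (hQ.1 x fun y => by rw [pbil, pc]; exact hcon y)

/-- Maximality of parabolic subgroups of `Ω`. -/
theorem parabolic_maximal (hQ : (polarBilin Q).Nondegenerate) (hN : 7 ≤ finrank F V) (W : Submodule F V)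
    (hW0 : W ≠ ⊥) (hW : ∀ w ∈ W, Q w = 0)
    (hC : finrank F V = 2 * finrank F W + 2 → ∀ s ∈ perp Q W, Q s = 0 → s ∈ W) :
    Cfsg.Geo.IsMaximalIn (commutator (OGrp Q)) (stabO Q W ⊓ commutator (OGrp Q)) := by
  have hTI : ∀ w ∈ W, ∀ w' ∈ W, polar Q w w' = 0 := fun w hw w' hw' => TS.polar hW hw hw'
  obtain ⟨w₀, hw₀W, hw₀⟩ := Submodule.exists_mem_ne_zero_of_ne_bot hW0
  -- the key computation
  have hcomp : ∀ (s a b : V) (ha : Q a = 0) (hab : polar Q a b = 0), Q s = 0 →
      polar Q ((eich Q a b ha hab : V ≃ₗ[F] V) s) s = -(Q b * (polar Q s a * polar Q s a)) := by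
    intro s a b ha hab hs
    rw [eich_apply, pdl, pdl, pal, psl, psl, psl, pself, hs, pc Q a s, pc Q b s]
    ring
  constructor
  · refine lt_of_le_of_ne inf_le_right ?_
    intro heq
    obtain ⟨y, hy⟩ := exists_polar_ne hQ hw₀
    obtain ⟨z, hzq, hz⟩ := repV hQ [w₀] (by simp; omega) y 0
    have hzw : polar Q w₀ z ≠ 0 := by rw [pc, hz w₀ (by simp)]; exact hy
    obtain ⟨b, hbq, hb⟩ := repV hQ [z] (by simp; omega) 0 1
    have hzb : polar Q z b = 0 := by rw [pc, hb z (by simp), polar_zero_left]
    have hmem : eich Q z b hzq hzb ∈ stabO Q W ⊓ commutator (OGrp Q) := by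
      rw [heq]; exact eich_mem_commutator hQ hN hzq hzb
    have h1 := (mem_stabO.1 hmem.1 w₀).1 hw₀W
    have h2 := hTI _ h1 _ hw₀W
    rw [hcomp _ _ _ _ _ (hW w₀ hw₀W), hbq, one_mul, neg_eq_zero] at h2
    exact hzw (mul_self_eq_zero.1 h2)
  · intro M hHM hMI
    by_cases hMH : M = stabO Q W ⊓ commutator (OGrp Q)
    · exact Or.inl hMH
    right
    refine le_antisymm hMI ?_
    have hR : ∀ u ∈ W, FullR M u := by
      intro u hu b hb
      refine ⟨hW u hu, hb, hHM ⟨mem_stabO_of_le fun w hw => ?_, eich_mem_commutator hQ hN _ _⟩⟩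
      rw [eich_apply, hTI w hw u hu, mul_zero, zero_smul, zero_smul, sub_zero, sub_zero]
      exact W.add_mem hw (W.smul_mem _ hu)
    by_cases hcase : ∃ g ∈ M, ∃ w ∈ W, ∃ w' ∈ W, polar Q ((g : V ≃ₗ[F] V) w) w' ≠ 0
    · obtain ⟨g, hg, w, hw, w', hw', hne⟩ := hcase
      exact commutator_le_of_FullR hQ hN (hR w' hw') ((hR w hw).conj hg) hne
    · push Not at hcase
      exfalso
      apply hMH
      refine le_antisymm (fun g hg => ⟨mem_stabO_of_le fun w hw => ?_, hMI hg⟩) hHM
      by_contra hgw
      set s := (g : V ≃ₗ[F] V) w with hs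
      have hsq : Q s = 0 := by rw [hs, OGrp_q, hW w hw]
      have hsP : s ∈ perp Q W := by
        intro w' hw'
        change polar Q w' s = 0
        rw [pc]; exact hcase g hg w hw w' hw'
      -- a singular vector `a` of `W^⊥` not orthogonal to `s`
      obtain ⟨a, haP, haq, hsa⟩ : ∃ a ∈ perp Q W, Q a = 0 ∧ polar Q s a ≠ 0 := by
        obtain ⟨p, hp, hps⟩ := exists_ortho_not hQ W hgw
        have hpP : p ∈ perp Q W := by
          intro w' hw'
          change polar Q w' p = 0
          rw [pc]; exact hp w' hw'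
        refine ⟨p + (-(Q p)) • s, Submodule.add_mem _ hpP (Submodule.smul_mem _ _ hsP), ?_, ?_⟩
        · rw [qadd, qsmul, psr, hsq, hps]; ring
        · rw [par, psr, pself, hsq, pc, hps]; simp
      -- a non-singular vector `b` of `W^⊥` orthogonal to `a`
      obtain ⟨b, hbP, hab, hbq⟩ : ∃ b ∈ perp Q W, polar Q a b = 0 ∧ Q b ≠ 0 := by
        by_contra hcon
        push Not at hcon
        have hRTS : TS Q (perp Q (W ⊔ Submodule.span F {a})) := by
          intro b hb
          apply hcon b (perp_antitone le_sup_left hb)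
          exact hb a (Submodule.mem_sup_right (Submodule.mem_span_singleton_self a))
        have h1 := hRTS.le_perp
        rw [perp_perp hQ] at h1
        have h2 := Submodule.finrank_mono h1
        have h3 := finrank_perp hQ (W ⊔ Submodule.span F {a})
        have h4 : finrank F ↥(W ⊔ Submodule.span F {a}) ≤ finrank F W + 1 := by
          refine (Submodule.finrank_add_le_finrank_add_finrank _ _).trans ?_
          have := (finrank_span_le_card (R := F) ({a} : Set V)).trans (by simp : _ ≤ 1)
          omega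
        -- `W + <s>` is totally singular
        have hsTS : TS Q (W ⊔ Submodule.span F {s}) := by
          intro x hx
          obtain ⟨w', hw', y, hy, rfl⟩ := Submodule.mem_sup.1 hx
          obtain ⟨c, rfl⟩ := Submodule.mem_span_singleton.1 hy
          rw [qadd, qsmul, hW w' hw', hsq, psr]
          have : polar Q w' s = 0 := hsP w' hw'
          rw [this]; ring
        have h5 := hsTS.le_perp
        have h6 := Submodule.finrank_mono h5
        have h7 := finrank_perp hQ (W ⊔ Submodule.span F {s})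
        have h8 : finrank F W + 1 ≤ finrank F ↥(W ⊔ Submodule.span F {s}) := by
          apply Submodule.finrank_lt_finrank_of_lt
          rw [SetLike.lt_iff_le_and_exists]
          exact ⟨le_sup_left, s, Submodule.mem_sup_right (Submodule.mem_span_singleton_self s), hgw⟩
        exact hgw (hC (by omega) s hsP hsq)
      -- contradiction
      have hmem : eich Q a b haq hab ∈ M := by
        refine hHM ⟨mem_stabO_of_le fun w' hw' => ?_, eich_mem_commutator hQ hN _ _⟩
        have e1 : polar Q w' a = 0 := haP w' hw'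
        have e2 : polar Q w' b = 0 := hbP w' hw'
        rw [eich_apply, e1, e2]; simpa using hw'
      have h1 := hcase (g⁻¹ * (eich Q a b haq hab * g)) (M.mul_mem (M.inv_mem hg) (M.mul_mem hmem hg)) w hw w hw
      rw [coe_mul_apply, coe_mul_apply, ← hs] at h1
      have h2 := OGrp_polar g (((g⁻¹ : OGrp Q) : V ≃ₗ[F] V) ((eich Q a b haq hab : V ≃ₗ[F] V) s)) w
      rw [coe_apply_inv_self, h1, ← hs, hcomp _ _ _ _ _ hsq, neg_eq_zero] at h2
      rcases mul_eq_zero.1 h2 with h | h
      · exact hbq h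
      · exact hsa (mul_self_eq_zero.1 h)

end

end Cfsg.Agent.GeoMax.Ort
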