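import Cfsg.Agent.GeoMax.OU
import Cfsg.Agent.GeoMax.OTransport

/-!
Overgroups of `Ω(Q)` in `GL`: transvections and Siegel elements.
-/

set_option autoImplicit false
set_option linter.unusedSectionVars false

namespace Cfsg.Agent.GeoMax.Ort

open QuadraticMap Module Cfsg.Agent.Orth
open Matrix
open scoped MatrixGroups

variable {ι : Type} [Fintype ι] [DecidableEq ι] {F : Type*} [Field F]

/-- all Siegel elements of `Q` lie in `M` -/
def Sie (M : Subgroup (GL ι F)) (Q : QuadraticForm F (ι → F)) : Prop :=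
  ∀ a b, Q a = 0 → polar Q a b = 0 → HasE (M.comap (emGL Q)) a b

/-- `M` contains the transvection `x ↦ x + B(x,c) a` -/
def TQ (M : Subgroup (GL ι F)) (Q : QuadraticForm F (ι → F)) (a c : ι → F) : Prop :=
  polar Q a c = 0 ∧ ∃ g ∈ M, ∀ x, (g : Matrix ι ι F) *ᵥ x = x + polar Q x c • a

variable {M : Subgroup (GL ι F)} {Q : QuadraticForm F (ι → F)}

theorem Sie.elt (h : Sie M Q) {a b : ι → F} (ha : Q a = 0) (hab : polar Q a b = 0) :
    ∃ g ∈ M, ∀ x, (g : Matrix ι ι F) *ᵥ x = x + polar Q x b • a - polar Q x a • b - (Q b * polar Q x a) • a := by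
  obtain ⟨h1, h2, h3⟩ := h a b ha hab
  exact ⟨_, h3, fun x => by rw [emGL_mulVec, eich_apply]⟩

theorem Sie.conj (h : Sie M Q) {g : GL ι F} (hg : g ∈ M) {Q' : QuadraticForm F (ι → F)}
    (hQ : ∀ x, Q' ((g : Matrix ι ι F) *ᵥ x) = Q x) : Sie M Q' := by
  have hQ' : ∀ x, Q (((g⁻¹ : GL ι F) : Matrix ι ι F) *ᵥ x) = Q' x := by
    intro x; rw [← hQ, gl_mulVec_inv]
  have hP' : ∀ x y, polar Q (((g⁻¹ : GL ι F) : Matrix ι ι F) *ᵥ x) (((g⁻¹ : GL ι F) : Matrix ι ι F) *ᵥ y) = polar Q' x y := by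
    intro x y
    simp only [QuadraticMap.polar, ← Matrix.mulVec_add, hQ']
  intro a b ha hab
  obtain ⟨h1, h2, h3⟩ := h (((g⁻¹ : GL ι F) : Matrix ι ι F) *ᵥ a) (((g⁻¹ : GL ι F) : Matrix ι ι F) *ᵥ b)
    (by rw [hQ', ha]) (by rw [hP', hab])
  refine ⟨ha, hab, ?_⟩
  have h4 := M.mul_mem (M.mul_mem hg h3) (M.inv_mem hg)
  rw [Subgroup.mem_comap]
  convert h4 using 1
  refine gl_ext fun x => ?_
  rw [gl_mul_mulVec, gl_mul_mulVec, emGL_mulVec, emGL_mulVec, eich_apply, eich_apply, Matrix.mulVec_sub, Matrix.mulVec_sub,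
    Matrix.mulVec_add, Matrix.mulVec_smul, Matrix.mulVec_smul, Matrix.mulVec_smul, gl_mulVec_inv, gl_mulVec_inv,
    gl_mulVec_inv, hP', hP', hQ']

theorem Sie.smul (h : Sie M Q) {c : F} (hc : c ≠ 0) : Sie M (c • Q) := by
  have hP : ∀ x y, polar (c • Q) x y = c * polar Q x y := by
    intro x y
    simp only [QuadraticMap.polar, _root_.smul_apply, smul_eq_mul]; ring
  have hq : ∀ x, (c • Q) x = c * Q x := fun x => by simp
  intro a b ha hab
  rw [hq] at ha
  rw [hP] at hab
  have ha' := (mul_eq_zero.1 ha).resolve_left hc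
  have hab' := (mul_eq_zero.1 hab).resolve_left hc
  obtain ⟨h1, h2, h3⟩ := h (c • a) b (by rw [qsmul, ha', mul_zero]) (by rw [psl, hab', mul_zero])
  refine ⟨by rw [hq, ha', mul_zero], by rw [hP, hab', mul_zero], ?_⟩
  rw [Subgroup.mem_comap] at h3 ⊢
  convert h3 using 1
  refine gl_ext fun x => ?_
  rw [emGL_mulVec, emGL_mulVec, eich_apply, eich_apply, hP, hP, hq, psr]
  module

namespace TQ

theorem add_right {a c c' : ι → F} (h : TQ M Q a c) (h' : TQ M Q a c') : TQ M Q a (c + c') := by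
  obtain ⟨h0, g, hg, hgx⟩ := h
  obtain ⟨h0', g', hg', hgx'⟩ := h'
  refine ⟨by rw [par, h0, h0', add_zero], g * g', M.mul_mem hg hg', fun x => ?_⟩
  rw [gl_mul_mulVec, hgx', hgx, pal, psl, h0, par]
  module

theorem add_left {a a' c : ι → F} (h : TQ M Q a c) (h' : TQ M Q a' c) : TQ M Q (a + a') c := by
  obtain ⟨h0, g, hg, hgx⟩ := h
  obtain ⟨h0', g', hg', hgx'⟩ := h'
  refine ⟨by rw [pal, h0, h0', add_zero], g * g', M.mul_mem hg hg', fun x => ?_⟩
  rw [gl_mul_mulVec, hgx', hgx, pal, psl, h0']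
  module

theorem neg_right {a c : ι → F} (h : TQ M Q a c) : TQ M Q a (-c) := by
  obtain ⟨h0, g, hg, hgx⟩ := h
  refine ⟨by rw [polar_neg_right, h0, neg_zero], g⁻¹, M.inv_mem hg, fun x => ?_⟩
  apply gl_mulVec_injective g
  change (g : Matrix ι ι F) *ᵥ _ = (g : Matrix ι ι F) *ᵥ _
  rw [gl_mulVec_inv, hgx, polar_neg_right, pal, psl, h0]
  module

theorem smul_right {a c : ι → F} {k : F} (h : TQ M Q (k • a) c) : TQ M Q a (k • c) := by
  obtain ⟨h0, g, hg, hgx⟩ := h
  refine ⟨by rw [psr, ← psl]; exact h0, g, hg, fun x => ?_⟩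
  rw [hgx, psr]
  module

theorem smul_left {a c : ι → F} {k : F} (h : TQ M Q a (k • c)) : TQ M Q (k • a) c := by
  obtain ⟨h0, g, hg, hgx⟩ := h
  refine ⟨by rw [psl, ← psr]; exact h0, g, hg, fun x => ?_⟩
  rw [hgx, psr]
  module

theorem sub_right {a c c' : ι → F} (h : TQ M Q a c) (h' : TQ M Q a c') : TQ M Q a (c - c') := by
  rw [sub_eq_add_neg]; exact h.add_right h'.neg_right

theorem neg_left {a c : ι → F} (h : TQ M Q a c) : TQ M Q (-a) c := by
  have h1 := h.neg_right
  have h2 : TQ M Q a ((-1 : F) • c) := by rwa [neg_one_smul]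
  have h3 := h2.smul_left
  rwa [neg_one_smul] at h3

theorem sub_left {a a' c : ι → F} (h : TQ M Q a c) (h' : TQ M Q a' c) : TQ M Q (a - a') c := by
  rw [sub_eq_add_neg]; exact h.add_left h'.neg_left

theorem conj {a c : ι → F} (h : TQ M Q a c) {g : OGrp Q} (hg : g ∈ M.comap (emGL Q)) :
    TQ M Q ((g : (ι → F) ≃ₗ[F] (ι → F)) a) ((g : (ι → F) ≃ₗ[F] (ι → F)) c) := by
  obtain ⟨h0, t, ht, htx⟩ := h
  refine ⟨by rw [OGrp_polar, h0], emGL Q g * t * (emGL Q g)⁻¹, M.mul_mem (M.mul_mem hg ht) (M.inv_mem hg), fun x => ?_⟩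
  rw [gl_mul_mulVec, gl_mul_mulVec, htx, Matrix.mulVec_add, Matrix.mulVec_smul, gl_mulVec_inv, emGL_mulVec]
  congr 2
  rw [← OGrp_polar g, ← emGL_mulVec, gl_mulVec_inv]

end TQ

section fin
variable [Finite F]

theorem tq_step (hQ : (polarBilin Q).Nondegenerate) (hS : Sie M Q) {a c d : ι → F} (h : TQ M Q a c)
    (hd : Q d = 0) (hda : polar Q d a = 0) (hdc : polar Q d c = 0) (hc : c ∉ Submodule.span F {x | x ∈ [a, d]}) (k : F) :
    TQ M Q a (k • d) := by
  obtain ⟨e, he, hec⟩ := exists_sep hQ [a, d] hc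
  have hea := he a (by simp)
  have hed := he d (by simp)
  obtain ⟨h1, h2, h3⟩ := hS d (k • e) hd (by rw [psr, pc, hed, mul_zero])
  have h4 := h.conj h3
  rw [eich_apply, eich_apply, psr, psr, pc Q a e, hea, pc Q a d, hda, pc Q c e, hec, pc Q c d, hdc] at h4
  simp only [mul_zero, mul_one, zero_smul, add_zero, sub_zero] at h4
  have h5 := h4.sub_right h
  rwa [add_sub_cancel_left] at h5

/-- from one transvection with singular centre, all with this centre -/
theorem tq_all (hQ : (polarBilin Q).Nondegenerate) (hN : 9 ≤ Fintype.card ι) (hS : Sie M Q) {a c : ι → F} (ha : Q a = 0)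
    (hc : c ∉ Submodule.span F {x | x ∈ [a]}) (h : TQ M Q a c) : ∀ t, polar Q t a = 0 → TQ M Q a t := by
  have hfr : 9 ≤ finrank F (ι → F) := by rw [Module.finrank_fintype_fun_eq_card]; exact hN
  have haa : polar Q a a = 0 := by rw [pself, ha, mul_zero]
  have hsing : ∀ t, polar Q t a = 0 → Q t = 0 → TQ M Q a t := by
    intro t hta ht
    by_cases htl : t ∈ Submodule.span F {x | x ∈ [a]}
    · have e : ({x | x ∈ [a]} : Set (ι → F)) = {a} := by ext z; simp
      rw [e] at htl
      obtain ⟨k, rfl⟩ := Submodule.mem_span_singleton.1 htl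
      refine tq_step hQ hS h ha haa h.1 ?_ k
      have e : ({x | x ∈ [a, a]} : Set (ι → F)) = {x | x ∈ [a]} := by ext z; simp
      rwa [e]
    · -- a generic singular vector
      have hX := Symp.finrank_span_list_le (K := F) [a, c, t]
      obtain ⟨C, hC⟩ := Submodule.exists_isCompl (Submodule.span F {x | x ∈ [a, c, t]})
      have h5 := Submodule.finrank_add_eq_of_isCompl hC
      have h6 := Submodule.finrank_sup_add_finrank_inf_eq (perp Q (Submodule.span F {x | x ∈ [a, c, t]})) C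
      have h7 := Submodule.finrank_le (perp Q (Submodule.span F {x | x ∈ [a, c, t]}) ⊔ C)
      have h4 := finrank_perp hQ (Submodule.span F {x | x ∈ [a, c, t]})
      simp only [List.length_cons, List.length_nil] at hX
      obtain ⟨d, ⟨hd1, hd2⟩, hd0, hd⟩ := exists_sing_mem Q (perp Q (Submodule.span F {x | x ∈ [a, c, t]}) ⊓ C) (by omega)
      have hdn : d ∉ Submodule.span F {x | x ∈ [a, c, t]} := by
        intro hl
        have := hC.disjoint
        rw [Submodule.disjoint_def] at this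
        exact hd0 (this d hl hd2)
      have hdp : ∀ z ∈ [a, c, t], polar Q d z = 0 := by
        intro z hz
        rw [pc]; exact hd1 z (Submodule.subset_span hz)
      have hsub : ∀ {l : List (ι → F)}, (∀ z ∈ l, z ∈ [a, c, t]) → d ∉ Submodule.span F {x | x ∈ l} := by
        intro l hl hm
        exact hdn (Submodule.span_mono (fun z hz => hl z hz) hm)
      have hexch : ∀ {y : ι → F}, y ∈ [a, c, t] → y ∉ Submodule.span F {x | x ∈ [a]} →
          y ∉ Submodule.span F {x | x ∈ [a, d]} := by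
        intro y hy hyn hm
        have e : ({x | x ∈ [a, d]} : Set (ι → F)) = {a, d} := by ext z; simp
        rw [e] at hm
        obtain ⟨α, β, hab⟩ := Submodule.mem_span_pair.1 hm
        by_cases hβ : β = 0
        · apply hyn
          rw [hβ, zero_smul, add_zero] at hab
          rw [← hab]
          exact Submodule.smul_mem _ _ (Submodule.subset_span (by simp))
        · apply hdn
          have : d = β⁻¹ • y - (β⁻¹ * α) • a := by
            rw [← hab, smul_add, smul_smul, smul_smul, inv_mul_cancel₀ hβ, one_smul]; abel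
          rw [this]
          exact Submodule.sub_mem _ (Submodule.smul_mem _ _ (Submodule.subset_span hy))
            (Submodule.smul_mem _ _ (Submodule.subset_span (by simp)))
      have h8 := tq_step hQ hS h hd (hdp a (by simp)) (hdp c (by simp)) (hexch (by simp) hc) 1
      rw [one_smul] at h8
      have h9 := tq_step hQ hS h8 ht hta (by rw [pc]; exact hdp t (by simp)) (hsub (l := [a, t]) (by simp)) 1
      rwa [one_smul] at h9
  intro t hta
  by_cases ht : Q t = 0
  · exact hsing t hta ht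
  have htl : t ∉ Submodule.span F {x | x ∈ [a]} := by
    intro hm
    have e : ({x | x ∈ [a]} : Set (ι → F)) = {a} := by ext z; simp
    rw [e] at hm
    obtain ⟨k, rfl⟩ := Submodule.mem_span_singleton.1 hm
    exact ht (by rw [qsmul, ha, mul_zero])
  obtain ⟨y, hy, hyt⟩ := exists_sep hQ [a] htl
  obtain ⟨s, hs, hsl⟩ := repV hQ [a, t] (by simp; omega) (Q t • y) 0
  have hsa : polar Q s a = 0 := by rw [hsl a (by simp), psl, hy a (by simp), mul_zero]
  have hst : polar Q s t = Q t := by rw [hsl t (by simp), psl, hyt, mul_one]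
  have h1 := hsing s hsa hs
  have h2 := hsing (t - s) (by rw [pdl, hta, hsa, sub_zero]) (by rw [qsub, hs, pc, hst]; ring)
  have h3 := h1.add_right h2
  rwa [add_sub_cancel] at h3

/-- the special linear group from one transvection with singular centre -/
theorem sl_le_of_tq [Nontrivial ι] (hQ : (polarBilin Q).Nondegenerate) (h2 : (2 : F) ≠ 0) (hN : 9 ≤ Fintype.card ι)
    (hS : Sie M Q) {a c : ι → F} (ha : Q a = 0) (ha0 : a ≠ 0)
    (hc : c ∉ Submodule.span F {x | x ∈ [a]}) (h : TQ M Q a c) : Cfsg.Geo.specialLinear ι F ≤ M := by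
  have hfr : 9 ≤ finrank F (ι → F) := by rw [Module.finrank_fintype_fun_eq_card]; exact hN
  have h1 := tq_all hQ hN hS ha hc h
  -- all singular centres
  have hsing : ∀ a', Q a' = 0 → ∀ t, polar Q t a' = 0 → TQ M Q a' t := by
    intro a' ha' t ht
    by_cases ha'0 : a' = 0
    · rw [ha'0]
      exact ⟨polar_zero_left Q t, 1, M.one_mem, fun x => by simp⟩
    obtain ⟨g, hg, hga⟩ := exists_mem_move hQ (by omega) hS ha0 ha'0 (ha.trans ha'.symm)
    have h3 := (h1 (((g⁻¹ : OGrp Q) : (ι → F) ≃ₗ[F] (ι → F)) t) (by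
      rw [← OGrp_polar g, coe_apply_inv_self, hga, ht])).conj hg
    rwa [hga, coe_apply_inv_self] at h3
  -- all centres
  have hall : ∀ v c, polar Q v c = 0 → TQ M Q v c := by
    intro v c hvc
    by_cases hv : Q v = 0
    · exact hsing v hv c (by rw [pc]; exact hvc)
    have hvl : v ∉ Submodule.span F {x | x ∈ [c]} := by
      intro hm
      have e : ({x | x ∈ [c]} : Set (ι → F)) = {c} := by ext z; simp
      rw [e] at hm
      obtain ⟨k, rfl⟩ := Submodule.mem_span_singleton.1 hm
      rw [psl, pself] at hvc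
      rw [qsmul] at hv
      have hk : k ≠ 0 := by rintro rfl; apply hv; ring
      have hqc : Q c ≠ 0 := by intro h0; apply hv; rw [h0, mul_zero]
      exact mul_ne_zero hk (mul_ne_zero h2 hqc) hvc
    obtain ⟨y, hy, hyv⟩ := exists_sep hQ [c] hvl
    obtain ⟨s, hs, hsl⟩ := repV hQ [c, v] (by simp; omega) (Q v • y) 0
    have hsc : polar Q s c = 0 := by rw [hsl c (by simp), psl, hy c (by simp), mul_zero]
    have hsv : polar Q s v = Q v := by rw [hsl v (by simp), psl, hyv, mul_one]
    have h3 := hsing s hs c (by rw [pc]; exact hsc)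
    have h4 := hsing (v - s) (by rw [qsub, hs, pc, hsv]; ring) c (by rw [pdr, pc, hvc, pc, hsc, sub_zero])
    have h5 := h3.add_left h4
    rwa [add_sub_cancel] at h5
  refine specialLinear_le_of_hasT M fun v w hw => ?_
  obtain ⟨c, hcx⟩ := exists_polar_eq hQ (dotLin w)
  have hcx' : ∀ x, polar Q x c = w ⬝ᵥ x := fun x => by rw [pc]; exact hcx x
  obtain ⟨-, g, hg, hgx⟩ := hall v c (by rw [hcx', hw])
  refine ⟨hw, g, hg, ?_⟩
  apply Matrix.ext_of_mulVec_single
  intro i
  rw [hgx, hcx', Matrix.add_mulVec, Matrix.one_mulVec, Matrix.vecMulVec_mulVec]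
  simp

/-- the case of a transvection with `c` proportional to the centre -/
theorem sl_le_of_tq_self [Nontrivial ι] (hQ : (polarBilin Q).Nondegenerate) (h2 : (2 : F) ≠ 0) (hN : 9 ≤ Fintype.card ι)
    (hS : Sie M Q) {a : ι → F} (ha : Q a = 0) (ha0 : a ≠ 0) {k : F} (hk : k ≠ 0)
    (h : TQ M Q a (k • a)) : Cfsg.Geo.specialLinear ι F ≤ M := by
  have hfr : 9 ≤ finrank F (ι → F) := by rw [Module.finrank_fintype_fun_eq_card]; exact hN
  have haa : polar Q a a = 0 := by rw [pself, ha, mul_zero]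
  -- an opposite singular vector
  obtain ⟨y, hy, hya⟩ := exists_sep hQ [] (z := a) (by
    intro hm
    have e : ({x | x ∈ ([] : List (ι → F))} : Set (ι → F)) = ∅ := by ext z; simp
    rw [e, Submodule.span_empty, Submodule.mem_bot] at hm
    exact ha0 hm)
  obtain ⟨b, hb, hbl⟩ := repV hQ [a] (by simp; omega) y 0
  have hba : polar Q b a = 1 := by rw [hbl a (by simp), hya]
  have hab : polar Q a b = 1 := by rw [pc]; exact hba
  have hbb : polar Q b b = 0 := by rw [pself, hb, mul_zero]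
  have hb0 : b ≠ 0 := by rintro rfl; rw [polar_zero_left] at hba; exact one_ne_zero hba.symm
  obtain ⟨g, hg, hgb⟩ := exists_mem_move hQ (by omega) hS ha0 hb0 (ha.trans hb.symm)
  have hTb : TQ M Q b (k • b) := by
    have := h.conj hg
    rwa [map_smul, hgb] at this
  -- conjugate the first by the second
  have huw : TQ M Q (a + k • b) (k • (a - k • b)) := by
    obtain ⟨-, t, ht, htx⟩ := h
    obtain ⟨-, s, hs, hsx⟩ := hTb
    refine ⟨?_, s * t * s⁻¹, M.mul_mem (M.mul_mem hs ht) (M.inv_mem hs), fun x => ?_⟩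
    · rw [psr, pdr, pal, pal, psl, psl, psr, psr, haa, hba, hab, hbb]; ring
    · obtain ⟨y, rfl⟩ : ∃ y, x = (s : Matrix ι ι F) *ᵥ y := ⟨_, (gl_mulVec_inv s x).symm⟩
      rw [gl_mul_mulVec, gl_mul_mulVec, gl_inv_mulVec, htx, Matrix.mulVec_add, Matrix.mulVec_smul, hsx y, hsx a]
      simp only [psr, pdr, pal, psl, hab, hba, haa, hbb]
      module
  -- a singular vector orthogonal to both
  have hX := Symp.finrank_span_list_le (K := F) [a, b]
  have h4 := finrank_perp hQ (Submodule.span F {x | x ∈ [a, b]})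
  simp only [List.length_cons, List.length_nil] at hX
  obtain ⟨d, hd1, hd0, hd⟩ := exists_sing_mem Q (perp Q (Submodule.span F {x | x ∈ [a, b]})) (by omega)
  have hda : polar Q d a = 0 := by rw [pc]; exact hd1 a (Submodule.subset_span (by simp))
  have hdb : polar Q d b = 0 := by rw [pc]; exact hd1 b (Submodule.subset_span (by simp))
  -- `e` orthogonal to `d`, `w` but not `u`
  have hun : a + k • b ∉ Submodule.span F {x | x ∈ [d, k • (a - k • b)]} := by
    intro hm
    have e : ({x | x ∈ [d, k • (a - k • b)]} : Set (ι → F)) = {d, k • (a - k • b)} := by ext z; simp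
    rw [e] at hm
    obtain ⟨α, β, hab'⟩ := Submodule.mem_span_pair.1 hm
    have e1 := congrArg (fun z => polar Q z a) hab'
    have e2 := congrArg (fun z => polar Q z b) hab'
    simp only [pal, psl, pdl, hda, hdb, haa, hab, hba, hbb] at e1 e2
    have e3 : k * (2 : F) = 0 := by linear_combination (-k) * e2 - e1
    exact (mul_ne_zero hk h2) e3
  obtain ⟨e, he, heu⟩ := exists_sep hQ [d, k • (a - k • b)] hun
  have hed := he d (by simp)
  have hew := he _ (by simp : k • (a - k • b) ∈ [d, k • (a - k • b)])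
  obtain ⟨h1', h2', h3'⟩ := hS d e hd (by rw [pc]; exact hed)
  have h5 := huw.conj h3'
  have hud : polar Q (a + k • b) d = 0 := by rw [pal, psl, pc Q a d, pc Q b d, hda, hdb]; ring
  have hwd : polar Q (k • (a - k • b)) d = 0 := by rw [psl, pdl, psl, pc Q a d, pc Q b d, hda, hdb]; ring
  rw [eich_apply, eich_apply, pc Q _ e, heu, hud, pc Q (k • (a - k • b)) e, hew, hwd] at h5
  simp only [mul_zero, one_smul, zero_smul, add_zero, sub_zero] at h5
  have h6 := h5.sub_left huw
  rw [add_sub_cancel_left] at h6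
  refine sl_le_of_tq hQ h2 hN hS hd hd0 ?_ h6
  intro hm
  have e : ({x | x ∈ [d]} : Set (ι → F)) = {d} := by ext z; simp
  rw [e] at hm
  obtain ⟨α, hα⟩ := Submodule.mem_span_singleton.1 hm
  have e1 := congrArg (fun z => polar Q z b) hα
  simp only [psl, pdl, hdb, hab, hbb] at e1
  apply hk
  linear_combination -e1

/-- any transvection with singular centre will do -/
theorem sl_le_of_tq' [Nontrivial ι] (hQ : (polarBilin Q).Nondegenerate) (h2 : (2 : F) ≠ 0) (hN : 9 ≤ Fintype.card ι)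
    (hS : Sie M Q) {a c : ι → F} (ha : Q a = 0) (ha0 : a ≠ 0) (hc : c ≠ 0) (h : TQ M Q a c) :
    Cfsg.Geo.specialLinear ι F ≤ M := by
  by_cases hm : c ∈ Submodule.span F {x | x ∈ [a]}
  · have e : ({x | x ∈ [a]} : Set (ι → F)) = {a} := by ext z; simp
    rw [e] at hm
    obtain ⟨k, rfl⟩ := Submodule.mem_span_singleton.1 hm
    exact sl_le_of_tq_self hQ h2 hN hS ha ha0 (by rintro rfl; exact hc (zero_smul _ _)) h
  · exact sl_le_of_tq hQ h2 hN hS ha ha0 hm h

end fin

end Cfsg.Agent.GeoMax.Ort
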