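import Cfsg.Agent.GeoMax.OSL

/-!
Maximality of the orthogonal similarity group in `SL`, `q` odd.
-/

set_option autoImplicit false
set_option linter.unusedSectionVars false

namespace Cfsg.Agent.GeoMax.Ort

open QuadraticMap Module Cfsg.Agent.Orth
open Matrix
open scoped MatrixGroups

/-- totally singular subspaces of small dimension exist -/
theorem exists_TS {F V : Type*} [Field F] [AddCommGroup V] [Module F V] [Finite F] [FiniteDimensional F V]
    {Q : QuadraticForm F V} (hQ : (polarBilin Q).Nondegenerate) : ∀ k : ℕ, 2 * k + 1 ≤ finrank F V →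
    ∃ U : Submodule F V, finrank F U = k ∧ ∀ x ∈ U, Q x = 0 := by
  intro k
  induction k with
  | zero =>
    intro _
    exact ⟨⊥, finrank_bot F V, fun x hx => by rw [(Submodule.mem_bot F).1 hx, QuadraticMap.map_zero]⟩
  | succ k ih =>
    intro hk
    obtain ⟨U, hU, hUs⟩ := ih (by omega)
    obtain ⟨C, hC⟩ := Submodule.exists_isCompl U
    have h5 := Submodule.finrank_add_eq_of_isCompl hC
    have h6 := Submodule.finrank_sup_add_finrank_inf_eq (perp Q U) C
    have h7 := Submodule.finrank_le (perp Q U ⊔ C)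
    have h4 := finrank_perp hQ U
    obtain ⟨d, ⟨hd1, hd2⟩, hd0, hd⟩ := exists_sing_mem Q (perp Q U ⊓ C) (by omega)
    have hdU : d ∉ U := by
      intro hl
      have := hC.disjoint
      rw [Submodule.disjoint_def] at this
      exact hd0 (this d hl hd2)
    refine ⟨U ⊔ Submodule.span F {d}, ?_, ?_⟩
    · have h8 := Submodule.finrank_sup_add_finrank_inf_eq U (Submodule.span F {d})
      have h9 : U ⊓ Submodule.span F {d} = ⊥ := by
        rw [eq_bot_iff]
        rintro x ⟨hx1, hx2⟩
        obtain ⟨c, rfl⟩ := Submodule.mem_span_singleton.1 hx2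
        by_cases hc : c = 0
        · rw [hc, zero_smul]; exact Submodule.zero_mem _
        · exfalso
          apply hdU
          have := U.smul_mem c⁻¹ hx1
          rwa [smul_smul, inv_mul_cancel₀ hc, one_smul] at this
      rw [h9, finrank_bot, finrank_span_singleton hd0, hU] at h8
      exact h8
    · intro x hx
      obtain ⟨y, hy, z, hz, rfl⟩ := Submodule.mem_sup.1 hx
      obtain ⟨c, rfl⟩ := Submodule.mem_span_singleton.1 hz
      have : polar Q y d = 0 := hd1 y hy
      rw [qadd, qsmul, hUs y hy, hd, psr, this]; ring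

variable {ι : Type} [Fintype ι] [DecidableEq ι] {F : Type*} [Field F] [Finite F]
variable {M : Subgroup (GL ι F)} {Q : QuadraticForm F (ι → F)}

/-- two forms agreeing at a common singular vector -/
theorem sl_le_of_two [Nontrivial ι] (hQ : (polarBilin Q).Nondegenerate) (h2 : (2 : F) ≠ 0) (hN : 9 ≤ Fintype.card ι)
    (hS : Sie M Q) (Q' : QuadraticForm F (ι → F)) (hS' : Sie M Q') {a : ι → F} (ha0 : a ≠ 0) (ha : Q a = 0)
    (hP : ∀ x, polar Q' x a = polar Q x a) (hne : ¬ ∀ x, Q' x = Q x) : Cfsg.Geo.specialLinear ι F ≤ M := by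
  have hfr : 9 ≤ finrank F (ι → F) := by rw [Module.finrank_fintype_fun_eq_card]; exact hN
  have key : ∀ a b : ι → F, a ≠ 0 → Q a = 0 → (∀ x, polar Q' x a = polar Q x a) → polar Q b a = 0 →
      (∃ x, polar Q' x b ≠ polar Q x b) → Cfsg.Geo.specialLinear ι F ≤ M := by
    intro a b ha0 ha hP hba hx
    have ha' : Q' a = 0 := by
      have h1 := hP a
      rw [pself, pself, ha] at h1
      exact (mul_eq_zero.1 (h1.trans (mul_zero 2))).resolve_left h2
    have haa : polar Q a a = 0 := by rw [pself, ha, mul_zero]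
    have hab : polar Q a b = 0 := by rw [pc]; exact hba
    have hb'a : polar Q' b a = 0 := by rw [hP]; exact hba
    have ha'b : polar Q' a b = 0 := by rw [pc]; exact hb'a
    obtain ⟨g, hg, hgx⟩ := hS.elt ha hab
    obtain ⟨g', hg', hgx'⟩ := hS'.elt ha' (b := -b) (by rw [polar_neg_right, ha'b, neg_zero])
    obtain ⟨e, he⟩ := exists_polar_eq hQ ((polarBilin Q').flip b)
    have he' : ∀ x, polar Q x e = polar Q' x b := fun x => by rw [pc]; exact he x
    have hc : ∀ x, polar Q x (b - e + (Q' b - Q b) • a) = polar Q x b - polar Q' x b + (Q' b - Q b) * polar Q x a := by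
      intro x
      rw [par, pdr, psr, he']
    refine sl_le_of_tq' hQ h2 hN hS ha ha0 (c := b - e + (Q' b - Q b) • a) ?_ ?_
    · intro h0
      have h3 : ∀ x, polar Q x b - polar Q' x b + (Q' b - Q b) * polar Q x a = 0 := by
        intro x; rw [← hc, h0, polar_zero_right]
      have h4 := h3 b
      rw [pself, pself, hba] at h4
      have h5 : (2 : F) * (Q b - Q' b) = 0 := by linear_combination h4
      have h6 := (mul_eq_zero.1 h5).resolve_left h2
      obtain ⟨x, hx⟩ := hx
      apply hx
      have h7 := h3 x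
      linear_combination -h7 - (polar Q x a) * h6
    · refine ⟨?_, g' * g, M.mul_mem hg' hg, fun x => ?_⟩
      · rw [hc, hab, ha'b, haa]; ring
      · rw [gl_mul_mulVec, hgx, hgx', hc, QuadraticMap.map_neg]
        simp only [polar_neg_right, pal, pdl, psl, hP, haa, hba, ha'b, pself Q' b]
        module
  by_cases hb : ∃ b, polar Q b a = 0 ∧ ∃ x, polar Q' x b ≠ polar Q x b
  · obtain ⟨b, hba, hx⟩ := hb
    exact key a b ha0 ha hP hba hx
  · push Not at hb
    -- another singular vector
    obtain ⟨C, hC⟩ := Submodule.exists_isCompl (Submodule.span F {a})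
    have h5 := Submodule.finrank_add_eq_of_isCompl hC
    rw [finrank_span_singleton ha0] at h5
    have h6 := Submodule.finrank_sup_add_finrank_inf_eq (perp Q (Submodule.span F {a})) C
    have h7 := Submodule.finrank_le (perp Q (Submodule.span F {a}) ⊔ C)
    have h4 := finrank_perp hQ (Submodule.span F {a})
    rw [finrank_span_singleton ha0] at h4
    obtain ⟨d, ⟨hd1, hd2⟩, hd0, hd⟩ := exists_sing_mem Q (perp Q (Submodule.span F {a}) ⊓ C) (by omega)
    have hda : polar Q d a = 0 := mem_perp_one.1 hd1
    have had : a ∉ Submodule.span F {x | x ∈ [d]} := by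
      intro hm
      have e : ({x | x ∈ [d]} : Set (ι → F)) = {d} := by ext z; simp
      rw [e] at hm
      obtain ⟨α, hα⟩ := Submodule.mem_span_singleton.1 hm
      have := hC.disjoint
      rw [Submodule.disjoint_def] at this
      exact ha0 (this a (Submodule.mem_span_singleton_self a) (by rw [← hα]; exact C.smul_mem _ hd2))
    obtain ⟨z, hz, hza⟩ := exists_sep hQ [d] had
    refine key d z hd0 hd (hb d hda) (hz d (by simp)) ?_
    by_contra hcon
    push Not at hcon
    apply hne
    have hpol : ∀ x y, polar Q' y x = polar Q y x := by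
      intro x y
      have h1 := hb (x - polar Q x a • z) (by rw [pdl, psl, hza, mul_one, sub_self]) y
      rw [pdr, pdr, psr, psr, hcon y] at h1
      linear_combination h1
    intro x
    have h1 := hpol x x
    rw [pself, pself] at h1
    exact mul_left_cancel₀ h2 h1

/-- two non-proportional forms -/
theorem sl_le_of_not_prop [Nontrivial ι] (hQ : (polarBilin Q).Nondegenerate) (h2 : (2 : F) ≠ 0) (hN : 11 ≤ Fintype.card ι)
    (hS : Sie M Q) (Q' : QuadraticForm F (ι → F)) (hQ' : (polarBilin Q').Nondegenerate) (hS' : Sie M Q')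
    (hne : ¬ ∃ c : F, ∀ x, Q' x = c * Q x) : Cfsg.Geo.specialLinear ι F ≤ M := by
  have hfr : 11 ≤ finrank F (ι → F) := by rw [Module.finrank_fintype_fun_eq_card]; exact hN
  obtain ⟨U, hU, hUs⟩ := exists_TS hQ 5 (by omega)
  obtain ⟨a, haU, ha0, ha'⟩ := exists_sing_mem Q' U (by omega)
  have ha := hUs a haU
  by_cases hc : ∃ c : F, ∀ x, polar Q' x a = c * polar Q x a
  · obtain ⟨c, hc⟩ := hc
    have hc0 : c ≠ 0 := by
      rintro rfl
      apply ha0
      refine hQ'.1 a fun x => ?_
      rw [pbil, pc, hc, zero_mul]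
    refine sl_le_of_two hQ h2 (by omega) hS (c⁻¹ • Q') (hS'.smul (inv_ne_zero hc0)) ha0 ha (fun x => ?_) (fun h => hne ⟨c, fun x => ?_⟩)
    · have : polar (c⁻¹ • Q') x a = c⁻¹ * polar Q' x a := by
        simp only [QuadraticMap.polar, _root_.smul_apply, smul_eq_mul]; ring
      rw [this, hc, ← mul_assoc, inv_mul_cancel₀ hc0, one_mul]
    · rw [← h x]
      have : (c⁻¹ • Q') x = c⁻¹ * Q' x := by simp
      rw [this, ← mul_assoc, mul_inv_cancel₀ hc0, one_mul]
  · -- a second vector
    obtain ⟨C, hC⟩ := Submodule.exists_isCompl (Submodule.span F {a})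
    have h5 := Submodule.finrank_add_eq_of_isCompl hC
    rw [finrank_span_singleton ha0] at h5
    have h4 := finrank_perp hQ' (Submodule.span F {a})
    rw [finrank_span_singleton ha0] at h4
    have h6 := Submodule.finrank_sup_add_finrank_inf_eq U (perp Q' (Submodule.span F {a}))
    have h7 := Submodule.finrank_le (U ⊔ perp Q' (Submodule.span F {a}))
    have h8 := Submodule.finrank_sup_add_finrank_inf_eq (U ⊓ perp Q' (Submodule.span F {a})) C
    have h9 := Submodule.finrank_le ((U ⊓ perp Q' (Submodule.span F {a})) ⊔ C)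
    obtain ⟨b, ⟨⟨hbU, hb1⟩, hb2⟩, hb0, hb'⟩ := exists_sing_mem Q' ((U ⊓ perp Q' (Submodule.span F {a})) ⊓ C) (by omega)
    have hba' : polar Q' b a = 0 := mem_perp_one.1 hb1
    have hab : polar Q a b = 0 := TS.polar hUs haU hbU
    have hbaQ : polar Q b a = 0 := TS.polar hUs hbU haU
    have hb := hUs b hbU
    have haa : polar Q a a = 0 := by rw [pself, ha, mul_zero]
    have hbb : polar Q b b = 0 := by rw [pself, hb, mul_zero]
    have hbl : b ∉ Submodule.span F {x | x ∈ [a]} := by
      intro hm
      have e : ({x | x ∈ [a]} : Set (ι → F)) = {a} := by ext z; simp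
      rw [e] at hm
      have := hC.disjoint
      rw [Submodule.disjoint_def] at this
      exact hb0 (this b hm hb2)
    obtain ⟨g, hg, hgx⟩ := hS'.elt ha' (b := b) (by rw [pc]; exact hba')
    simp only [hb', zero_mul, zero_smul, sub_zero] at hgx
    -- the new form
    let Q'' : QuadraticForm F (ι → F) := Q.comp (Matrix.mulVecLin (g : Matrix ι ι F))
    have hQ'' : ∀ x, Q'' x = Q ((g : Matrix ι ι F) *ᵥ x) := fun x => rfl
    have hS'' : Sie M Q'' := by
      refine hS.conj (M.inv_mem hg) fun x => ?_
      rw [hQ'', gl_mulVec_inv]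
    have hQ''f : ∀ x, Q'' x = Q x + polar Q' x b * polar Q x a - polar Q' x a * polar Q x b := by
      intro x
      rw [hQ'', hgx, qsub, qadd, qsmul, qsmul, ha, hb, psr, psr, pal, psl, hab]; ring
    have hP'' : ∀ x y, polar Q'' x y = polar Q ((g : Matrix ι ι F) *ᵥ x) ((g : Matrix ι ι F) *ᵥ y) := by
      intro x y
      simp only [QuadraticMap.polar, hQ'', Matrix.mulVec_add]
    -- common singular vector
    have k1 := Symp.finrank_span_list_le (K := F) [a, b]
    simp only [List.length_cons, List.length_nil] at k1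
    have k2 := finrank_perp hQ (Submodule.span F {x | x ∈ [a, b]})
    have k3 := finrank_perp hQ' (Submodule.span F {x | x ∈ [a, b]})
    have k4 := Submodule.finrank_sup_add_finrank_inf_eq (perp Q (Submodule.span F {x | x ∈ [a, b]}))
      (perp Q' (Submodule.span F {x | x ∈ [a, b]}))
    have k5 := Submodule.finrank_le (perp Q (Submodule.span F {x | x ∈ [a, b]}) ⊔ perp Q' (Submodule.span F {x | x ∈ [a, b]}))
    obtain ⟨d, ⟨hd1, hd2⟩, hd0, hd⟩ := exists_sing_mem Q (perp Q (Submodule.span F {x | x ∈ [a, b]}) ⊓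
      perp Q' (Submodule.span F {x | x ∈ [a, b]})) (by omega)
    have e1 : polar Q a d = 0 := hd1 a (Submodule.subset_span (by simp))
    have e2 : polar Q b d = 0 := hd1 b (Submodule.subset_span (by simp))
    have e3 : polar Q' d a = 0 := by rw [pc]; exact hd2 a (Submodule.subset_span (by simp))
    have e4 : polar Q' d b = 0 := by rw [pc]; exact hd2 b (Submodule.subset_span (by simp))
    refine sl_le_of_two hQ h2 (by omega) hS Q'' hS'' hd0 hd (fun x => ?_) (fun h => ?_)
    · rw [hP'', hgx x, hgx d, e3, e4, zero_smul, zero_smul, add_zero, sub_zero, pdl, pal, psl, psl, e1, e2]; ring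
    · -- the forms differ
      have h10 : ∀ x, polar Q x a = 0 → polar Q' x a * polar Q x b = 0 := by
        intro x hx
        have := h x
        rw [hQ''f, hx] at this
        linear_combination -this
      obtain ⟨x₀, hx₀, hx₀b⟩ := exists_sep hQ [a] hbl
      have hx₀a := hx₀ a (by simp)
      obtain ⟨x₁, hx₁a, hx₁'⟩ : ∃ x₁, polar Q x₁ a = 0 ∧ polar Q' x₁ a ≠ 0 := by
        by_contra hcon
        push Not at hcon
        obtain ⟨z, hz⟩ := exists_polar_ne hQ ha0
        apply hc
        refine ⟨polar Q' z a / polar Q z a, fun x => ?_⟩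
        have h11 := hcon (x - (polar Q x a / polar Q z a) • z) (by
          rw [pdl, psl, div_mul_cancel₀ _ hz, sub_self])
        rw [pdl, psl] at h11
        rw [sub_eq_zero.1 h11]
        field_simp
      by_cases h12 : polar Q' x₀ a = 0
      · by_cases h13 : polar Q x₁ b = 0
        · have h14 := h10 (x₀ + x₁) (by rw [pal, hx₀a, hx₁a, add_zero])
          rw [pal, pal, h12, h13, hx₀b, zero_add, add_zero, mul_one] at h14
          exact hx₁' h14
        · exact mul_ne_zero hx₁' h13 (h10 x₁ hx₁a)
      · have h14 := h10 x₀ hx₀a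
        rw [hx₀b, mul_one] at h14
        exact h12 h14

/-- **Maximality of the orthogonal similarity group in `SL_n(q)`**, `q` odd. -/
theorem similarity_maximal (hQ : (polarBilin Q).Nondegenerate) (h2 : (2 : F) ≠ 0) (hN : 11 ≤ Fintype.card ι) :
    Cfsg.Geo.IsMaximalIn (Cfsg.Geo.specialLinear ι F) (Cfsg.Geo.quadSimilarityGroup ⇑Q ⊓ Cfsg.Geo.specialLinear ι F) := by
  have hfr : 11 ≤ finrank F (ι → F) := by rw [Module.finrank_fintype_fun_eq_card]; exact hN
  have hnt : Nontrivial ι := Fintype.one_lt_card_iff_nontrivial.1 (by omega)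
  constructor
  · refine lt_of_le_of_ne inf_le_right ?_
    intro heq
    -- a transvection which is not a similarity
    obtain ⟨a, ha0, ha⟩ := exists_sing Q (by omega)
    obtain ⟨C, hC⟩ := Submodule.exists_isCompl (Submodule.span F {a})
    have h5 := Submodule.finrank_add_eq_of_isCompl hC
    rw [finrank_span_singleton ha0] at h5
    have h6 := Submodule.finrank_sup_add_finrank_inf_eq (perp Q (Submodule.span F {a})) C
    have h7 := Submodule.finrank_le (perp Q (Submodule.span F {a}) ⊔ C)
    have h4 := finrank_perp hQ (Submodule.span F {a})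
    rw [finrank_span_singleton ha0] at h4
    obtain ⟨c, ⟨hc1, hc2⟩, hc0, hc⟩ := exists_sing_mem Q (perp Q (Submodule.span F {a}) ⊓ C) (by omega)
    have hca : polar Q c a = 0 := mem_perp_one.1 hc1
    have hacl : c ∉ Submodule.span F {x | x ∈ [a]} := by
      intro hm
      have e : ({x | x ∈ [a]} : Set (ι → F)) = {a} := by ext z; simp
      rw [e] at hm
      have := hC.disjoint
      rw [Submodule.disjoint_def] at this
      exact hc0 (this c hm hc2)
    have hcal : a ∉ Submodule.span F {x | x ∈ [c]} := by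
      intro hm
      have e : ({x | x ∈ [c]} : Set (ι → F)) = {c} := by ext z; simp
      rw [e] at hm
      obtain ⟨α, hα⟩ := Submodule.mem_span_singleton.1 hm
      have := hC.disjoint
      rw [Submodule.disjoint_def] at this
      exact ha0 (this a (Submodule.mem_span_singleton_self a) (by rw [← hα]; exact C.smul_mem _ hc2))
    -- the row vector
    let w : ι → F := (dotProductEquiv F ι).symm ((polarBilin Q).flip c)
    have hw : ∀ x, w ⬝ᵥ x = polar Q x c := by
      intro x
      have h := congrArg (fun ψ => ψ x) ((dotProductEquiv F ι).apply_symm_apply ((polarBilin Q).flip c))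
      exact h
    have hwa : w ⬝ᵥ a = 0 := by rw [hw, pc]; exact hca
    have hmem : tvec a w hwa ∈ Cfsg.Geo.quadSimilarityGroup ⇑Q ⊓ Cfsg.Geo.specialLinear ι F := by
      rw [heq]; exact tvec_det a w hwa
    obtain ⟨⟨k, hk⟩, -⟩ := hmem
    have hk' : ∀ v, Q v + polar Q v c * polar Q v a = k * Q v := by
      intro v
      have := hk v
      rw [tvec_mulVec, hw, qadd, qsmul, psr, ha] at this
      linear_combination this
    obtain ⟨y₁, hy₁, hy₁c⟩ := exists_sep hQ [a] hacl
    obtain ⟨y₂, hy₂, hy₂a⟩ := exists_sep hQ [c] hcal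
    have hy₁a := hy₁ a (by simp)
    have hy₂c := hy₂ c (by simp)
    -- `k = 1`
    obtain ⟨s, hs, hsl⟩ := repV hQ [a] (by simp; omega) 0 1
    have h8 := hk' s
    rw [hsl a (by simp), polar_zero_left, hs] at h8
    have hk1 : (k : F) = 1 := by linear_combination -h8
    have h9 := hk' (y₁ + y₂)
    rw [hk1, pal, pal, hy₁a, hy₂c, hy₁c, hy₂a] at h9
    exact one_ne_zero (by linear_combination h9 : (1 : F) = 0)
  · intro M hHM hMI
    by_cases hMH : M = Cfsg.Geo.quadSimilarityGroup ⇑Q ⊓ Cfsg.Geo.specialLinear ι F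
    · exact Or.inl hMH
    right
    refine le_antisymm hMI ?_
    have hS : Sie M Q := by
      intro a b ha hab
      refine ⟨ha, hab, hHM ⟨⟨1, fun v => ?_⟩, ?_⟩⟩
      · rw [emGL_mulVec, OGrp_q]; simp
      · have h1 := eich_mem_commutator hQ (by omega) ha hab
        have h2 : (Matrix.GeneralLinearGroup.det.comp (emGL Q)) (eich Q a b ha hab) = 1 := by
          have h3 := Abelianization.commutator_subset_ker (Matrix.GeneralLinearGroup.det.comp (emGL Q)) h1
          exact h3
        exact h2
    obtain ⟨g, hgM, hg⟩ : ∃ g ∈ M, g ∉ Cfsg.Geo.quadSimilarityGroup ⇑Q := by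
      by_contra hcon
      push Not at hcon
      exact hMH (le_antisymm (fun g hg => ⟨hcon g hg, hMI hg⟩) hHM)
    let Q' : QuadraticForm F (ι → F) := Q.comp (Matrix.mulVecLin (g : Matrix ι ι F))
    have hQ'v : ∀ x, Q' x = Q ((g : Matrix ι ι F) *ᵥ x) := fun x => rfl
    have hP' : ∀ x y, polar Q' x y = polar Q ((g : Matrix ι ι F) *ᵥ x) ((g : Matrix ι ι F) *ᵥ y) := by
      intro x y
      simp only [QuadraticMap.polar, hQ'v, Matrix.mulVec_add]
    have hQ' : (polarBilin Q').Nondegenerate := by
      have key : ∀ x, (∀ y, polar Q' x y = 0) → x = 0 := by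
        intro x hx
        have : (g : Matrix ι ι F) *ᵥ x = 0 := by
          refine hQ.1 _ fun y => ?_
          rw [pbil]
          have := hx (((g⁻¹ : GL ι F) : Matrix ι ι F) *ᵥ y)
          rwa [hP', gl_mulVec_inv] at this
        exact gl_mulVec_injective g (this.trans (by simp))
      refine ⟨fun x hx => key x hx, fun x hx => key x fun y => ?_⟩
      rw [pc]; exact hx y
    refine sl_le_of_not_prop hQ h2 hN hS Q' hQ' (hS.conj (M.inv_mem hgM) fun x => ?_) ?_
    · rw [hQ'v, gl_mulVec_inv]
    · rintro ⟨c, hc⟩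
      apply hg
      have hc0 : c ≠ 0 := by
        rintro rfl
        obtain ⟨s, hs, -⟩ := repV hQ [] (by simp; omega) 0 1
        have h3 := hc (((g⁻¹ : GL ι F) : Matrix ι ι F) *ᵥ s)
        rw [hQ'v, gl_mulVec_inv, hs, zero_mul] at h3
        exact one_ne_zero h3
      exact ⟨Units.mk0 c hc0, fun v => by rw [← hQ'v, hc]; rfl⟩

end Cfsg.Agent.GeoMax.Ort
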