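import Cfsg.Agent.GeoMax.OGL

/-!
Unitary structures on an orthogonal space: the normaliser of a quadratic field extension on which adjunction is
non-trivial, in `Ω(V, Q)` (any characteristic).
-/

set_option autoImplicit false
set_option linter.unusedSectionVars false

namespace Cfsg.Agent.GeoMax.Ort

open QuadraticMap Module Cfsg.Agent.Orth

variable {F V : Type*} [Field F] [AddCommGroup V] [Module F V]

/-- A small functional is represented by a vector of arbitrary norm (refined bound). -/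
theorem rep' [Finite F] [FiniteDimensional F V] {Q : QuadraticForm F V} (hQ : (polarBilin Q).Nondegenerate)
    (X : Submodule F V) (hX : finrank F X + finrank F (X ⊓ perp Q X : Submodule F V) + 3 ≤ finrank F V) (y : V) (c : F) :
    ∃ x, Q x = c ∧ ∀ w ∈ X, polar Q x w = polar Q y w := by
  have hP := finrank_perp hQ X
  -- move `y` off `X`
  obtain ⟨y', hy'X, hy'⟩ : ∃ y', y' ∉ X ∧ ∀ w ∈ X, polar Q y' w = polar Q y w := by
    by_cases hy : y ∈ X
    · have h1 : ¬ perp Q X ≤ X := by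
        intro h
        rw [inf_eq_right.2 h] at hX
        omega
      obtain ⟨p, hp, hpX⟩ := SetLike.not_le_iff_exists.1 h1
      refine ⟨y + p, fun h => hpX ?_, fun w hw => ?_⟩
      · have := X.sub_mem h hy
        rwa [add_sub_cancel_left] at this
      · rw [pal, pc Q p w]
        have : polar Q w p = 0 := hp w hw
        rw [this, add_zero]
    · exact ⟨y, hy, fun _ _ => rfl⟩
  -- a singular vector of the perp, off `X`
  obtain ⟨C, hC⟩ := Submodule.exists_isCompl (X ⊓ perp Q X)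
  have hCfin : finrank F (X ⊓ perp Q X : Submodule F V) + finrank F C = finrank F V :=
    Submodule.finrank_add_eq_of_isCompl hC
  have hPC : 3 ≤ finrank F ↥(perp Q X ⊓ C) := by
    have h1 := Submodule.finrank_sup_add_finrank_inf_eq (perp Q X) C
    have h2 := Submodule.finrank_le (perp Q X ⊔ C)
    omega
  obtain ⟨s₀, hs₀, hs₀0, hs₀q⟩ := exists_sing_mem Q _ hPC
  have hs₀X : s₀ ∉ X := by
    intro h
    apply hs₀0
    have := hC.disjoint
    rw [Submodule.disjoint_def] at this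
    exact this _ ⟨h, hs₀.1⟩ hs₀.2
  -- separation
  have hsep : ∀ z, z ∉ X → ∃ p ∈ perp Q X, polar Q z p ≠ 0 := by
    intro z hz
    obtain ⟨b, hb, hbz⟩ := exists_ortho_not hQ X hz
    refine ⟨b, fun u hu => ?_, ?_⟩
    · change polar Q u b = 0
      rw [pc]; exact hb u hu
    · rw [pc, hbz]; exact one_ne_zero
  obtain ⟨s, hs, hsq, hys⟩ : ∃ s ∈ perp Q X, Q s = 0 ∧ polar Q y' s ≠ 0 := by
    by_cases h0 : polar Q y' s₀ = 0
    · obtain ⟨p, hp, h1, h2⟩ := exists_polar_ne_two (hsep y' hy'X) (hsep s₀ hs₀X)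
      refine ⟨p + (-(Q p / polar Q s₀ p)) • s₀, Submodule.add_mem _ hp (Submodule.smul_mem _ _ hs₀.1), ?_, ?_⟩
      · rw [qadd, qsmul, hs₀q, psr, pc Q p s₀]
        field_simp; ring
      · rw [par, psr, h0, mul_zero, add_zero]; exact h1
    · exact ⟨s₀, hs₀.1, hs₀q, h0⟩
  refine ⟨y' + ((c - Q y') / polar Q y' s) • s, ?_, fun w hw => ?_⟩
  · rw [qadd, qsmul, hsq, psr]
    field_simp; ring
  · have : polar Q w s = 0 := hs w hw
    rw [pal, psl, pc Q s w, this, mul_zero, add_zero, hy' w hw]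

/-- separation by a list -/
theorem exists_sep [FiniteDimensional F V] {Q : QuadraticForm F V} (hQ : (polarBilin Q).Nondegenerate) (l : List V)
    {z : V} (hz : z ∉ Submodule.span F {x | x ∈ l}) : ∃ b, (∀ w ∈ l, polar Q b w = 0) ∧ polar Q b z = 1 := by
  obtain ⟨b, hb, hbz⟩ := exists_ortho_not hQ _ hz
  exact ⟨b, fun w hw => hb w (Submodule.subset_span hw), hbz⟩

/-- A unitary structure: `θ` generates a quadratic extension of `F`, with adjoint its conjugate. -/
structure Ux (Q : QuadraticForm F V) (θ : V →ₗ[F] V) (τ ν : F) : Prop where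
  sq : ∀ x, θ (θ x) = τ • θ x - ν • x
  adj : ∀ x y, polar Q (θ x) y = τ * polar Q x y - polar Q x (θ y)
  q : ∀ x, Q (θ x) = ν * Q x
  pol : ∀ x, Q x = 0 → polar Q x (θ x) = 0
  irr : ∀ a : F, a * a - τ * a + ν ≠ 0

namespace Ux

/-- the line over the big field -/
def line (θ : V →ₗ[F] V) (v : V) : Submodule F V := Submodule.span F {x | x ∈ [v, θ v]}

theorem mem_line {θ : V →ₗ[F] V} {v x : V} : x ∈ line θ v ↔ ∃ a b : F, x = a • v + b • θ v := by
  have e : ({x | x ∈ [v, θ v]} : Set V) = {v, θ v} := by ext z; simp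
  unfold line
  rw [e, Submodule.mem_span_pair]
  constructor
  · rintro ⟨a, b, h⟩; exact ⟨a, b, h.symm⟩
  · rintro ⟨a, b, h⟩; exact ⟨a, b, h.symm⟩

theorem self_mem {θ : V →ₗ[F] V} {v : V} : v ∈ line θ v := mem_line.2 ⟨1, 0, by simp⟩

variable {Q : QuadraticForm F V} {θ : V →ₗ[F] V} {τ ν : F}

theorem polθ (h : Ux Q θ τ ν) (x y : V) : polar Q (θ x) (θ y) = ν * polar Q x y := by
  simp only [QuadraticMap.polar, ← map_add, h.q]; ring

theorem adj' (h : Ux Q θ τ ν) (x y : V) : polar Q x (θ y) = τ * polar Q x y - polar Q (θ x) y := by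
  rw [h.adj]; ring

theorem N_ne (h : Ux Q θ τ ν) {a b : F} (hab : ¬ (a = 0 ∧ b = 0)) : a * a + τ * (a * b) + ν * (b * b) ≠ 0 := by
  intro h0
  by_cases hb : b = 0
  · rw [hb] at h0
    simp only [mul_zero, add_zero] at h0
    exact hab ⟨mul_self_eq_zero.1 h0, hb⟩
  · apply h.irr (-(a / b))
    field_simp
    linear_combination h0

theorem smul_θ (h : Ux Q θ τ ν) (a b : F) (x : V) :
    (a + b * τ) • (a • x + b • θ x) - b • θ (a • x + b • θ x) = (a * a + τ * (a * b) + ν * (b * b)) • x := by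
  rw [map_add, map_smul, map_smul, h.sq]
  module

theorem indep (h : Ux Q θ τ ν) {x : V} (hx : x ≠ 0) {a b : F} (hab : a • x + b • θ x = 0) : a = 0 ∧ b = 0 := by
  by_contra hcon
  have h1 := h.smul_θ a b x
  rw [hab, map_zero, smul_zero, smul_zero, sub_zero] at h1
  exact (smul_ne_zero (h.N_ne hcon) hx) h1.symm

theorem θ_mem (h : Ux Q θ τ ν) {v x : V} (hx : x ∈ line θ v) : θ x ∈ line θ v := by
  obtain ⟨a, b, rfl⟩ := mem_line.1 hx
  rw [mem_line]
  refine ⟨-(b * ν), a + b * τ, ?_⟩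
  rw [map_add, map_smul, map_smul, h.sq]
  module

theorem mem_of (h : Ux Q θ τ ν) {v x : V} {a b : F} (hab : ¬ (a = 0 ∧ b = 0)) (hx : a • x + b • θ x ∈ line θ v) :
    x ∈ line θ v := by
  have h1 := (line θ v).sub_mem ((line θ v).smul_mem (a + b * τ) hx) ((line θ v).smul_mem b (h.θ_mem hx))
  rw [h.smul_θ] at h1
  have h2 := (line θ v).smul_mem (a * a + τ * (a * b) + ν * (b * b))⁻¹ h1
  rwa [smul_smul, inv_mul_cancel₀ (h.N_ne hab), one_smul] at h2

theorem line_symm (h : Ux Q θ τ ν) {v x : V} (hx : x ∈ line θ v) (hx0 : x ≠ 0) : v ∈ line θ x := by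
  obtain ⟨a, b, e⟩ := mem_line.1 hx
  refine h.mem_of (a := a) (b := b) ?_ ?_
  · rintro ⟨rfl, rfl⟩
    exact hx0 (by rw [e]; simp)
  · rw [← e]; exact self_mem

theorem q_line (h : Ux Q θ τ ν) {v : V} (hv : Q v = 0) (a b : F) : Q (a • v + b • θ v) = 0 := by
  rw [qadd, qsmul, qsmul, psl, psr, h.q, hv, h.pol v hv]; ring

/-- perpendicular over the big field -/
def PK (Q : QuadraticForm F V) (θ : V →ₗ[F] V) (x v : V) : Prop := polar Q x v = 0 ∧ polar Q x (θ v) = 0

theorem PK.symm (h : Ux Q θ τ ν) {x v : V} (hxv : PK Q θ x v) : PK Q θ v x := by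
  refine ⟨by rw [pc]; exact hxv.1, ?_⟩
  rw [pc, h.adj, hxv.1, hxv.2]; ring

theorem PK.θ_left (h : Ux Q θ τ ν) {x v : V} (hxv : PK Q θ x v) : PK Q θ (θ x) v :=
  ⟨by rw [h.adj, hxv.1, hxv.2]; ring, by rw [h.polθ, hxv.1, mul_zero]⟩

theorem PK.add {x y v : V} (h1 : PK Q θ x v) (h2 : PK Q θ y v) : PK Q θ (x + y) v :=
  ⟨by rw [pal, h1.1, h2.1, add_zero], by rw [pal, h1.2, h2.2, add_zero]⟩

theorem PK.sub {x y v : V} (h1 : PK Q θ x v) (h2 : PK Q θ y v) : PK Q θ (x - y) v :=
  ⟨by rw [pdl, h1.1, h2.1, sub_zero], by rw [pdl, h1.2, h2.2, sub_zero]⟩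

theorem PK.smul {x v : V} (c : F) (h1 : PK Q θ x v) : PK Q θ (c • x) v :=
  ⟨by rw [psl, h1.1, mul_zero], by rw [psl, h1.2, mul_zero]⟩

theorem PK.of_mem {x v z : V} (h1 : PK Q θ x v) (hz : z ∈ line θ v) : polar Q x z = 0 := by
  obtain ⟨a, b, rfl⟩ := mem_line.1 hz
  rw [par, psr, psr, h1.1, h1.2]; ring

theorem PK.perp {x v : V} (h1 : PK Q θ x v) : x ∈ Orth.perp Q (line θ v) := by
  intro z hz
  change polar Q z x = 0
  rw [pc]; exact h1.of_mem hz

theorem PK.of_perp {x v : V} (hx : x ∈ Orth.perp Q (line θ v)) : PK Q θ x v := by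
  have h1 : polar Q v x = 0 := hx v self_mem
  have h2 : polar Q (θ v) x = 0 := hx (θ v) (mem_line.2 ⟨0, 1, by simp⟩)
  exact ⟨by rw [pc]; exact h1, by rw [pc]; exact h2⟩

theorem PK.of_line (h : Ux Q θ τ ν) {v z : V} (hv : Q v = 0) (hz : z ∈ line θ v) : PK Q θ z v := by
  obtain ⟨a, b, rfl⟩ := mem_line.1 hz
  have h0 : PK Q θ v v := ⟨by rw [pself, hv, mul_zero], h.pol v hv⟩
  exact (h0.smul a).add ((PK.θ_left h h0).smul b)

section fin
variable [Finite F] [FiniteDimensional F V]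

theorem finrank_line (θ : V →ₗ[F] V) (v : V) : finrank F (line θ v) ≤ 2 := by
  have := Symp.finrank_span_list_le (K := F) [v, θ v]
  exact this

theorem exists_perp_ne (hQ : (polarBilin Q).Nondegenerate) {v w : V} (hw : w ∉ line θ v) :
    ∃ p ∈ Orth.perp Q (line θ v), polar Q w p ≠ 0 := by
  obtain ⟨b, hb, hbw⟩ := exists_ortho_not hQ _ hw
  refine ⟨b, fun z hz => ?_, by rw [pc, hbw]; exact one_ne_zero⟩
  change polar Q z b = 0
  rw [pc]; exact hb z hz

variable {M : Subgroup (OGrp Q)}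

/-- the basic move -/
theorem move (h : Ux Q θ τ ν) (hM : ∀ x, Q x = 0 → ∀ c : F, HasE M x (c • θ x)) {v w x : V} (hvw : HasE M v w)
    (hx : Q x = 0) (hxv : PK Q θ x v) (c : F) :
    HasE M v ((c * polar Q w (θ x)) • x - (c * polar Q w x) • θ x) := by
  obtain ⟨e1, e2, hm⟩ := hM x hx c
  have h1 := hvw.conj hm
  have hvx := hxv.symm h
  have hq : Q (c • θ x) = 0 := by rw [qsmul, h.q, hx, mul_zero, mul_zero]
  rw [eich_apply, eich_apply, hq, psr, psr, hvx.1, hvx.2] at h1
  simp only [mul_zero, zero_mul, zero_smul, add_zero, sub_zero] at h1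
  have h2 := h1.sub hvw
  convert h2 using 1
  module

theorem move' (h : Ux Q θ τ ν) (hM : ∀ x, Q x = 0 → ∀ c : F, HasE M x (c • θ x)) {v w x : V} (hvw : HasE M v w)
    (hx : Q x = 0) (hxv : PK Q θ x v) (hwx : polar Q w x = 0) (hwθ : polar Q w (θ x) ≠ 0) : HasE M v x := by
  have h1 := h.move hM hvw hx hxv (polar Q w (θ x))⁻¹
  rwa [hwx, mul_zero, zero_smul, sub_zero, inv_mul_cancel₀ hwθ, one_smul] at h1

theorem not_mem_span (h : Ux Q θ τ ν) {v w t : V} (hw : Q w = 0) (ht : Q t = 0) (hwv : PK Q θ w v) (htv : PK Q θ t v)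
    (hwt : ¬ PK Q θ w t) : θ w ∉ Submodule.span F {x | x ∈ [v, θ v, w, t]} := by
  intro hmem
  have e : ({x | x ∈ [v, θ v, w, t]} : Set V) = {v, θ v} ∪ {w, t} := by
    ext z
    simp only [List.mem_cons, List.not_mem_nil, or_false, Set.mem_ofPred_eq, Set.mem_union, Set.mem_insert_iff,
      Set.mem_singleton_iff]
    tauto
  rw [e, Submodule.span_union, Submodule.mem_sup] at hmem
  obtain ⟨y, hy, z, hz, hyz⟩ := hmem
  obtain ⟨α, β, rfl⟩ := Submodule.mem_span_pair.1 hy
  obtain ⟨a, b, rfl⟩ := Submodule.mem_span_pair.1 hz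
  have hvt := htv.symm h
  have h1 := congrArg (fun u => polar Q u t) hyz
  have h2 := congrArg (fun u => polar Q u (θ t)) hyz
  simp only [pal, psl] at h1 h2
  rw [hvt.1, (PK.θ_left h hvt).1, pself, ht, h.adj] at h1
  rw [hvt.2, (PK.θ_left h hvt).2, h.pol t ht, h.polθ] at h2
  have h3 : polar Q w t * (a * a - τ * a + ν) = 0 := by linear_combination a * h1 - h2
  have h4 : polar Q w t = 0 := (mul_eq_zero.1 h3).resolve_right (h.irr a)
  rw [h4] at h1
  exact hwt ⟨h4, by linear_combination h1⟩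

theorem conn_B (hQ : (polarBilin Q).Nondegenerate) (h : Ux Q θ τ ν) (hN : 14 ≤ finrank F V)
    (hM : ∀ x, Q x = 0 → ∀ c : F, HasE M x (c • θ x)) {v w t : V} (hw : Q w = 0) (ht : Q t = 0) (hwv : PK Q θ w v)
    (htv : PK Q θ t v) (hwt : ¬ PK Q θ w t) (hvw : HasE M v w) : HasE M v t := by
  let X : Submodule F V := Submodule.span F {x | x ∈ [v, θ v, w, θ w, t, θ t]}
  have hXm : ∀ z ∈ [v, θ v, w, θ w, t, θ t], z ∈ X := fun z hz => Submodule.subset_span hz
  have hX6 : finrank F X ≤ 6 := Symp.finrank_span_list_le (K := F) [v, θ v, w, θ w, t, θ t]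
  have hR : finrank F (X ⊓ Orth.perp Q X : Submodule F V) < finrank F X := by
    refine Submodule.finrank_lt_finrank_of_lt (lt_of_le_of_ne inf_le_left ?_)
    intro heq
    have h1 : w ∈ X ⊓ Orth.perp Q X := by rw [heq]; exact hXm w (by simp)
    have h2 : polar Q t w = 0 := h1.2 t (hXm t (by simp))
    have h3 : polar Q (θ t) w = 0 := h1.2 (θ t) (hXm _ (by simp))
    exact hwt ⟨by rw [pc]; exact h2, by rw [pc]; exact h3⟩
  -- the functional
  have hs1 := exists_sep hQ [v, θ v, w, t] (h.not_mem_span hw ht hwv htv hwt)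
  have hs2 := exists_sep hQ [v, θ v, w, t] (z := θ t) (by
    have := h.not_mem_span ht hw htv hwv (fun h' => hwt (h'.symm h))
    have e : ({x | x ∈ [v, θ v, w, t]} : Set V) = {x | x ∈ [v, θ v, t, w]} := by
      ext z; simp only [List.mem_cons, List.not_mem_nil, or_false, Set.mem_ofPred_eq]; tauto
    rwa [e])
  obtain ⟨b1, hb1, hb1'⟩ := hs1
  obtain ⟨b2, hb2, hb2'⟩ := hs2
  have hmem : ∀ b, (∀ w' ∈ [v, θ v, w, t], polar Q b w' = 0) → b ∈ Orth.perp Q (Submodule.span F {x | x ∈ [v, θ v, w, t]}) := by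
    intro b hb z hz
    change polar Q z b = 0
    induction hz using Submodule.span_induction with
    | mem x hx => rw [pc]; exact hb x hx
    | zero => rw [polar_zero_left]
    | add x y _ _ h1 h2 => rw [pal, h1, h2, add_zero]
    | smul a x _ h1 => rw [psl, h1, mul_zero]
  obtain ⟨y, hy, hy1, hy2⟩ := exists_polar_ne_two (Q := Q) (P := Orth.perp Q (Submodule.span F {x | x ∈ [v, θ v, w, t]}))
    (a := θ w) (b := θ t) ⟨b1, hmem b1 hb1, by rw [pc, hb1']; exact one_ne_zero⟩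
    ⟨b2, hmem b2 hb2, by rw [pc, hb2']; exact one_ne_zero⟩
  have hyp : ∀ w' ∈ [v, θ v, w, t], polar Q y w' = 0 := by
    intro w' hw'
    rw [pc]; exact hy w' (Submodule.subset_span hw')
  obtain ⟨x, hx, hxX⟩ := rep' hQ X (by omega) y 0
  have hxv : PK Q θ x v := ⟨by rw [hxX v (hXm _ (by simp))]; exact hyp _ (by simp),
    by rw [hxX _ (hXm _ (by simp))]; exact hyp _ (by simp)⟩
  have hxw : polar Q x w = 0 := by rw [hxX w (hXm _ (by simp))]; exact hyp _ (by simp)
  have hxt : polar Q x t = 0 := by rw [hxX t (hXm _ (by simp))]; exact hyp _ (by simp)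
  have hxw' : polar Q x (θ w) ≠ 0 := by rw [hxX _ (hXm _ (by simp)), pc]; exact hy1
  have hxt' : polar Q x (θ t) ≠ 0 := by rw [hxX _ (hXm _ (by simp)), pc]; exact hy2
  have hvx : HasE M v x := by
    refine h.move' hM hvw hx hxv (by rw [pc]; exact hxw) ?_
    rw [h.adj', pc Q w x, hxw, mul_zero, zero_sub, pc]
    exact neg_ne_zero.2 hxw'
  exact h.move' hM hvx ht htv hxt hxt'

theorem conn (hQ : (polarBilin Q).Nondegenerate) (h : Ux Q θ τ ν) (hN : 14 ≤ finrank F V)
    (hM : ∀ x, Q x = 0 → ∀ c : F, HasE M x (c • θ x)) {v w t : V} (hw : Q w = 0) (ht : Q t = 0) (hwv : PK Q θ w v)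
    (htv : PK Q θ t v) (hwl : w ∉ line θ v) (htl : t ∉ line θ v) (hvw : HasE M v w) : HasE M v t := by
  by_cases hwt : PK Q θ w t
  · obtain ⟨p, hp, h1, h2⟩ := exists_polar_ne_two (exists_perp_ne hQ hwl) (exists_perp_ne hQ htl)
    have hpv := PK.of_perp hp
    have h1' : polar Q p w ≠ 0 := by rw [pc]; exact h1
    set z := p + (-(Q p / polar Q p w)) • w with hz
    have hzq : Q z = 0 := by
      rw [hz, qadd, qsmul, hw, psr]
      field_simp; ring
    have hzv : PK Q θ z v := hpv.add (hwv.smul _)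
    have hzw : polar Q w z ≠ 0 := by
      rw [hz, par, psr, pself, hw, mul_zero, mul_zero, add_zero]; exact h1
    have hzt : polar Q t z ≠ 0 := by
      rw [hz, par, psr, pc Q t w, hwt.1, mul_zero, add_zero]; exact h2
    have hvz := conn_B hQ h hN hM hw hzq hwv hzv (fun h' => hzw h'.1) hvw
    exact conn_B hQ h hN hM hzq ht hzv htv (fun h' => hzt (by rw [pc]; exact h'.1)) hvz
  · exact conn_B hQ h hN hM hw ht hwv htv hwt hvw

theorem hasE_self (hM : ∀ x, Q x = 0 → ∀ c : F, HasE M x (c • θ x)) {v z : V} (hv : Q v = 0) (hz : z ∈ line θ v) :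
    HasE M v z := by
  obtain ⟨a, b, rfl⟩ := mem_line.1 hz
  refine HasE.add ?_ (hM v hv b)
  refine ⟨hv, by rw [psr, pself, hv, mul_zero, mul_zero], ?_⟩
  have : eich Q v (a • v) hv (by rw [psr, pself, hv, mul_zero, mul_zero]) = 1 := by
    refine OGrp_ext fun x => ?_
    rw [eich_apply, coe_one_apply, qsmul, hv, psr]
    module
  rw [this]; exact M.one_mem

theorem full_P (hQ : (polarBilin Q).Nondegenerate) (h : Ux Q θ τ ν) (hN : 14 ≤ finrank F V)
    (hM : ∀ x, Q x = 0 → ∀ c : F, HasE M x (c • θ x)) {v w : V} (hw : Q w = 0) (hwv : PK Q θ w v)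
    (hwl : w ∉ line θ v) (hvw : HasE M v w) : ∀ p, PK Q θ p v → HasE M v p := by
  have hv := hvw.sing
  intro p hp
  by_cases hpq : Q p = 0
  · by_cases hpl : p ∈ line θ v
    · exact hasE_self hM hv hpl
    · exact conn hQ h hN hM hw hpq hwv hp hwl hpl hvw
  · have hsing : ∀ z ∈ line θ v, polar Q z p = 0 := fun z hz => by rw [pc]; exact hp.of_mem hz
    have hpl : p ∉ Submodule.span F {x | x ∈ [v, θ v]} := by
      intro hpl
      obtain ⟨a, b, rfl⟩ := mem_line.1 hpl
      exact hpq (h.q_line hv a b)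
    obtain ⟨y, hy, hyp⟩ := exists_sep hQ [v, θ v] hpl
    obtain ⟨x, hx, hxl⟩ := repV hQ [v, θ v, p] (by simp; omega) (Q p • y) 0
    have hxv : PK Q θ x v := by
      constructor
      · rw [hxl v (by simp), psl, hy v (by simp), mul_zero]
      · rw [hxl _ (by simp), psl, hy _ (by simp), mul_zero]
    have hxp : polar Q x p = Q p := by rw [hxl p (by simp), psl, hyp, mul_one]
    have h1 : HasE M v x := conn hQ h hN hM hw hx hwv hxv hwl (fun hl => hpq (by rw [← hxp]; exact hsing x hl)) hvw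
    have h2 : HasE M v (p - x) := by
      refine conn hQ h hN hM hw ?_ hwv (hp.sub hxv) hwl (fun hl => hpq ?_) hvw
      · rw [qsub, hx, pc, hxp]; ring
      · have := hsing _ hl
        rw [pdl, pself, hxp] at this
        linear_combination this
    have h3 := h1.add h2
    rwa [add_sub_cancel] at h3

theorem exists_common (hQ : (polarBilin Q).Nondegenerate) (θ : V →ₗ[F] V) (hN : 14 ≤ finrank F V) (v w : V) :
    ∃ z, Q z = 0 ∧ z ≠ 0 ∧ PK Q θ z v ∧ PK Q θ z w ∧ z ∉ line θ v ∧ z ∉ line θ w := by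
  have h1 := Submodule.finrank_sup_add_finrank_inf_eq (line θ v) (line θ w)
  have h2 := finrank_line θ v
  have h3 := finrank_line θ w
  have h4 := finrank_perp hQ (line θ v ⊔ line θ w)
  obtain ⟨C, hC⟩ := Submodule.exists_isCompl (line θ v ⊔ line θ w)
  have h5 := Submodule.finrank_add_eq_of_isCompl hC
  have h6 := Submodule.finrank_sup_add_finrank_inf_eq (Orth.perp Q (line θ v ⊔ line θ w)) C
  have h7 := Submodule.finrank_le (Orth.perp Q (line θ v ⊔ line θ w) ⊔ C)
  obtain ⟨z, ⟨hz1, hz2⟩, hz0, hz⟩ := exists_sing_mem Q (Orth.perp Q (line θ v ⊔ line θ w) ⊓ C) (by omega)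
  have hzn : z ∉ line θ v ⊔ line θ w := by
    intro hzl
    have := hC.disjoint
    rw [Submodule.disjoint_def] at this
    exact hz0 (this z hzl hz2)
  refine ⟨z, hz, hz0, PK.of_perp fun u hu => hz1 u (Submodule.mem_sup_left hu),
    PK.of_perp fun u hu => hz1 u (Submodule.mem_sup_right hu), fun hl => hzn (Submodule.mem_sup_left hl),
    fun hl => hzn (Submodule.mem_sup_right hl)⟩

theorem all_P (hQ : (polarBilin Q).Nondegenerate) (h : Ux Q θ τ ν) (hN : 14 ≤ finrank F V)
    (hM : ∀ x, Q x = 0 → ∀ c : F, HasE M x (c • θ x)) {v : V} (hv0 : v ≠ 0) (hv : Q v = 0)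
    (hvP : ∀ p, PK Q θ p v → HasE M v p) {w : V} (hw0 : w ≠ 0) (hw : Q w = 0) : ∀ p, PK Q θ p w → HasE M w p := by
  have step : ∀ {v w : V}, v ≠ 0 → Q v = 0 → (∀ p, PK Q θ p v → HasE M v p) → w ≠ 0 → Q w = 0 → PK Q θ w v → w ∉ line θ v →
      ∀ p, PK Q θ p w → HasE M w p := by
    intro v w hv0 hv hvP hw0 hw hwv hwl
    exact full_P hQ h hN hM hv (hwv.symm h) (fun hl => hwl (h.line_symm hl hv0)) ((hvP w hwv).symm hw)
  obtain ⟨z, hz, hz0, hzv, hzw, hzlv, hzlw⟩ := exists_common hQ θ hN v w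
  have h1 := step hv0 hv hvP hz0 hz hzv hzlv
  exact step hz0 hz h1 hw0 hw (hzw.symm h) (fun hl => hzlw (h.line_symm hl hw0))

theorem fullR_of (hQ : (polarBilin Q).Nondegenerate) (h : Ux Q θ τ ν) (hN : 14 ≤ finrank F V)
    (hall : ∀ w, w ≠ 0 → Q w = 0 → ∀ p, PK Q θ p w → HasE M w p) {v : V} (hv0 : v ≠ 0) (hv : Q v = 0) : FullR M v := by
  have hθv : θ v ∉ Submodule.span F {x | x ∈ [v]} := by
    intro hmem
    have e : ({x | x ∈ [v]} : Set V) = {v} := by ext z; simp
    rw [e] at hmem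
    obtain ⟨c, hc⟩ := Submodule.mem_span_singleton.1 hmem
    have := h.indep hv0 (a := c) (b := -1) (by rw [hc]; simp)
    exact neg_ne_zero.2 one_ne_zero this.2
  obtain ⟨y, hy, hy1⟩ := exists_sep hQ [v] hθv
  obtain ⟨a, ha, hal⟩ := repV hQ [v, θ v] (by simp; omega) y 0
  have hav : polar Q a v = 0 := by rw [hal v (by simp)]; exact hy v (by simp)
  have haθ : polar Q a (θ v) = 1 := by rw [hal _ (by simp), hy1]
  have ha0 : a ≠ 0 := by
    rintro rfl
    rw [polar_zero_left] at haθ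
    exact one_ne_zero haθ.symm
  -- two vectors
  have h1 := Submodule.finrank_sup_add_finrank_inf_eq (line θ a) (line θ v)
  have h2 := finrank_line θ a
  have h3 := finrank_line θ v
  have h4 := finrank_perp hQ (line θ a ⊔ line θ v)
  obtain ⟨w, hw, b, hb, hwb⟩ : ∃ w ∈ Orth.perp Q (line θ a ⊔ line θ v), ∃ b ∈ Orth.perp Q (line θ a ⊔ line θ v),
      polar Q w b ≠ 0 := by
    by_contra hcon
    push Not at hcon
    have hle : Orth.perp Q (line θ a ⊔ line θ v) ≤ Orth.perp Q (Orth.perp Q (line θ a ⊔ line θ v)) := by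
      intro w hw b hb
      exact hcon b hb w hw
    have h5 := Submodule.finrank_mono hle
    have h6 := finrank_perp hQ (Orth.perp Q (line θ a ⊔ line θ v))
    omega
  have hPa : ∀ {z}, z ∈ Orth.perp Q (line θ a ⊔ line θ v) → PK Q θ z a := fun hz =>
    PK.of_perp fun u hu => hz u (Submodule.mem_sup_left hu)
  have hPv : ∀ {z}, z ∈ Orth.perp Q (line θ a ⊔ line θ v) → PK Q θ z v := fun hz =>
    PK.of_perp fun u hu => hz u (Submodule.mem_sup_right hu)
  have hca : ∀ c : F, HasE M v (c • a) := by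
    intro c
    have hg := hall a ha0 ha b (hPa hb)
    obtain ⟨e1, e2, hg⟩ := hg
    have hp := hall v hv0 hv ((c * (polar Q w b)⁻¹) • w) ((hPv hw).smul _)
    have h5 := hp.conj hg
    rw [eich_apply, eich_apply, pc Q v b, (hPv hb).1, pc Q v a, hav, psl, psl, (hPa hw).1, mul_assoc,
      inv_mul_cancel₀ hwb] at h5
    simp only [mul_zero, mul_one, zero_smul, add_zero, sub_zero] at h5
    have h6 := h5.sub hp
    rwa [add_sub_cancel_left] at h6
  intro u hu
  have h5 : HasE M v (u - polar Q u (θ v) • a) := by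
    refine hall v hv0 hv _ ⟨?_, ?_⟩
    · rw [pdl, psl, hav, pc Q u v, hu, mul_zero, sub_zero]
    · rw [pdl, psl, haθ, mul_one, sub_self]
  have h6 := h5.add (hca (polar Q u (θ v)))
  rwa [sub_add_cancel] at h6

/-- an unexpected Eichler element yields everything -/
theorem commutator_le (hQ : (polarBilin Q).Nondegenerate) (h : Ux Q θ τ ν) (hN : 14 ≤ finrank F V)
    (hM : ∀ x, Q x = 0 → ∀ c : F, HasE M x (c • θ x)) {v w : V} (hv0 : v ≠ 0) (hvw : HasE M v w)
    (hwl : w ∉ line θ v) : commutator (OGrp Q) ≤ M := by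
  have hv := hvw.sing
  obtain ⟨z, hzv, hzl⟩ : ∃ z ∈ Orth.perp Q (line θ v), z ∉ line θ v := by
    by_contra hcon
    push Not at hcon
    have h1 : Orth.perp Q (line θ v) ≤ line θ v := hcon
    have h2 := Submodule.finrank_mono h1
    have h3 := finrank_line θ v
    have h4 := finrank_perp hQ (line θ v)
    omega
  have hzv' := PK.of_perp hzv
  obtain ⟨y, hy, hy1, hy2⟩ := exists_polar_ne_two (exists_perp_ne hQ hwl) (exists_perp_ne hQ hzl)
  have hyv := PK.of_perp hy
  obtain ⟨x, hx, hxl⟩ := repV hQ [v, θ v, w, z] (by simp; omega) y 0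
  have hxv : PK Q θ x v := ⟨by rw [hxl v (by simp)]; exact hyv.1, by rw [hxl _ (by simp)]; exact hyv.2⟩
  have hxw : polar Q w x ≠ 0 := by rw [pc, hxl w (by simp), pc]; exact hy1
  have hxz : polar Q z x ≠ 0 := by rw [pc, hxl z (by simp), pc]; exact hy2
  have hxn : x ∉ line θ v := fun hl => hxz (hzv'.of_mem hl)
  have h1 := h.move hM hvw hx hxv 1
  rw [one_mul, one_mul, sub_eq_add_neg, ← neg_smul] at h1
  have hu : PK Q θ (polar Q w (θ x) • x + (-polar Q w x) • θ x) v := (hxv.smul _).add ((PK.θ_left h hxv).smul _)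
  have hP := full_P hQ h hN hM (h.q_line hx _ _) hu
    (fun hl => hxn (h.mem_of (fun h' => hxw (neg_eq_zero.1 h'.2)) hl)) h1
  have hall : ∀ w, w ≠ 0 → Q w = 0 → ∀ p, PK Q θ p w → HasE M w p := fun w hw0 hw =>
    all_P hQ h hN hM hv0 hv hP hw0 hw
  refine Ort.commutator_le hQ (by omega) M fun a b ha hab => ?_
  by_cases ha0 : a = 0
  · rw [ha0]; exact HasE.zero_left b
  · exact fullR_of hQ h hN hall ha0 ha b hab

/-- an operator preserving all singular lines over the big field is in the big field -/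
theorem exists_eq (hQ : (polarBilin Q).Nondegenerate) (h : Ux Q θ τ ν) (hN : 14 ≤ finrank F V) {θ' : V →ₗ[F] V}
    (hl : ∀ v, Q v = 0 → θ' v ∈ line θ v) : ∃ a b : F, ∀ x, θ' x = a • x + b • θ x := by
  obtain ⟨v₀, hv₀0, hv₀⟩ := exists_sing Q (by omega)
  obtain ⟨a, b, hab⟩ := mem_line.1 (hl v₀ hv₀)
  have step : ∀ {v w : V}, v ≠ 0 → Q v = 0 → θ' v = a • v + b • θ v → Q w = 0 → PK Q θ w v → w ∉ line θ v →
      θ' w = a • w + b • θ w := by
    intro v w hv0 hv hv' hw hwv hwl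
    obtain ⟨c, d, hcd⟩ := mem_line.1 (hl w hw)
    obtain ⟨s, t, hst⟩ := mem_line.1 (hl (w + v) (by rw [qadd, hw, hv, hwv.1]; ring))
    have h1 : (c - s) • w + (d - t) • θ w ∈ line θ v := by
      rw [mem_line]
      refine ⟨s - a, t - b, ?_⟩
      rw [map_add, map_add, hcd, hv'] at hst
      have h2 : (c - s) • w + (d - t) • θ w - ((s - a) • v + (t - b) • θ v) =
          (c • w + d • θ w + (a • v + b • θ v)) - (s • (w + v) + t • (θ w + θ v)) := by module
      rw [← sub_eq_zero, h2, hst, sub_self]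
    have h2 : c - s = 0 ∧ d - t = 0 := by
      by_contra hcon
      exact hwl (h.mem_of hcon h1)
    have h3 : (s - a) • v + (t - b) • θ v = 0 := by
      rw [map_add, map_add, hcd, hv'] at hst
      have e1 : c = s := sub_eq_zero.1 h2.1
      have e2 : d = t := sub_eq_zero.1 h2.2
      rw [e1, e2] at hst
      have h4 : (s - a) • v + (t - b) • θ v =
          (s • (w + v) + t • (θ w + θ v)) - (s • w + t • θ w + (a • v + b • θ v)) := by module
      rw [h4, hst, sub_self]
    have h4 := h.indep hv0 h3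
    rw [hcd, sub_eq_zero.1 h2.1, sub_eq_zero.1 h2.2, sub_eq_zero.1 h4.1, sub_eq_zero.1 h4.2]
  have hsing : ∀ w, Q w = 0 → θ' w = a • w + b • θ w := by
    intro w hw
    by_cases hw0 : w = 0
    · rw [hw0]; simp
    obtain ⟨z, hz, hz0, hzv, hzw, hzlv, hzlw⟩ := exists_common hQ θ hN v₀ w
    have h1 := step hv₀0 hv₀ hab hz hzv hzlv
    exact step hz0 hz h1 hw (hzw.symm h) (fun hl => hzlw (h.line_symm hl hw0))
  refine ⟨a, b, fun x => ?_⟩
  by_cases hx : Q x = 0
  · exact hsing x hx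
  have hx0 : x ∉ Submodule.span F {x | x ∈ ([] : List V)} := by
    intro hmem
    have e : ({x | x ∈ ([] : List V)} : Set V) = ∅ := by ext z; simp
    rw [e, Submodule.span_empty, Submodule.mem_bot] at hmem
    exact hx (by rw [hmem, QuadraticMap.map_zero])
  obtain ⟨y, -, hy⟩ := exists_sep hQ [] hx0
  obtain ⟨s, hs, hsl⟩ := repV hQ [x] (by simp; omega) (Q x • y) 0
  have hsx : polar Q s x = Q x := by rw [hsl x (by simp), psl, hy, mul_one]
  have h1 := hsing s hs
  have h2 := hsing (x - s) (by rw [qsub, hs, pc, hsx]; ring)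
  have h3 : θ' x = θ' (x - s) + θ' s := by rw [← map_add, sub_add_cancel]
  rw [h3, h1, h2, map_sub]
  module

end fin

end Ux

end Cfsg.Agent.GeoMax.Ort
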