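import Cfsg.Agent.GeoMax.SympPair
import Cfsg.Agent.Orth.Bridge

/-!
The stabiliser of a pair of complementary totally singular subspaces (type `GL_m(q).2`) is maximal in the
symplectic group in odd characteristic.
-/

set_option autoImplicit false
set_option linter.unusedSectionVars false

namespace Cfsg.Agent.GeoMax

open Matrix
open scoped MatrixGroups
open Cfsg.Geo

namespace Symp

variable {ι : Type} [Fintype ι] [DecidableEq ι] {F : Type*} [Field F]
variable {f : (ι → F) → (ι → F) → F}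

lemma tr_mul_rho (hf : IsSymplecticForm f) {u w : ι → F} (h : f w u = 0) (c d : F) :
    tr hf u d * rho hf u w c = rho hf u w (c + d) := by
  apply gl_ext
  intro x
  rw [gl_mul_mulVec, rho_mulVec hf h, rho_mulVec hf h, tr_mulVec]
  simp only [add_left hf, smul_left hf, self hf, h, mul_zero, add_zero]
  module

/-- two non-commuting elements of the unipotent radical at `u` give a transvection -/
lemma exists_tr_of_rho (hf : IsSymplecticForm f) (h2 : (2 : F) ≠ 0) {M : Subgroup (GL ι F)} {u w w' : ι → F}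
    (h : f w u = 0) (h' : f w' u = 0) {c c' : F} (hm : rho hf u w c ∈ M) (hm' : rho hf u w' c' ∈ M)
    (hne : f w w' ≠ 0) : ∃ d, d ≠ 0 ∧ tr hf u d ∈ M := by
  refine ⟨2 * f w' w, mul_ne_zero h2 (by rw [skew hf]; exact neg_ne_zero.2 hne), ?_⟩
  have h1 := rho_mul hf h h' c c'
  have h3 := rho_mul hf h' h c' c
  have h4 : tr hf u (2 * f w' w) * (rho hf u w' c' * rho hf u w c) = rho hf u w c * rho hf u w' c' := by
    rw [h1, h3, tr_mul_rho hf (by rw [add_left hf, h, h', add_zero]), add_comm w w']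
    congr 1
    rw [skew hf w w']
    ring
  have h5 := M.mul_mem (M.mul_mem hm hm') (M.inv_mem (M.mul_mem hm' hm))
  rwa [← h4, mul_inv_cancel_right] at h5

lemma rho_conj_mem (hf : IsSymplecticForm f) {M : Subgroup (GL ι F)} {g : GL ι F} (hg : g ∈ isoGL f) (hgM : g ∈ M)
    {u w : ι → F} {c : F} (hm : rho hf u w c ∈ M) :
    rho hf ((g : Matrix ι ι F) *ᵥ u) ((g : Matrix ι ι F) *ᵥ w) c ∈ M := by
  rw [← rho_conj hf hg]
  exact M.mul_mem (M.mul_mem hgM hm) (M.inv_mem hgM)

lemma f_symm0 (hf : IsSymplecticForm f) {u v : ι → F} (h : f u v = 0) : f v u = 0 := by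
  rw [skew hf, h, neg_zero]

/-- a pair of complementary totally singular subspaces whose "root elements" lie in `M` -/
structure GoodPair (hf : IsSymplecticForm f) (M : Subgroup (GL ι F)) (X X' : Submodule F (ι → F)) : Prop where
  ts : ∀ x ∈ X, ∀ y ∈ X, f x y = 0
  ts' : ∀ x ∈ X', ∀ y ∈ X', f x y = 0
  sup : X ⊔ X' = ⊤
  mem : ∀ x ∈ X, ∀ x' ∈ X', f x x' = 0 → rho hf x x' 0 ∈ M

lemma rho_comm0 (hf : IsSymplecticForm f) {u w : ι → F} (h : f w u = 0) : rho hf u w 0 = rho hf w u 0 := by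
  apply gl_ext
  intro x
  rw [rho_mulVec hf h, rho_mulVec hf (f_symm0 hf h)]
  module

namespace GoodPair
variable {hf : IsSymplecticForm f} {M : Subgroup (GL ι F)} {X X' : Submodule F (ι → F)}

lemma symm (h : GoodPair hf M X X') : GoodPair hf M X' X :=
  ⟨h.ts', h.ts, by rw [sup_comm]; exact h.sup, fun x hx x' hx' h0 => by
    rw [rho_comm0 hf (f_symm0 hf h0)]; exact h.mem x' hx' x hx (f_symm0 hf h0)⟩

lemma map (h : GoodPair hf M X X') {g : GL ι F} (hg : g ∈ isoGL f) (hgM : g ∈ M) :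
    GoodPair hf M (X.map (Matrix.mulVecLin (g : Matrix ι ι F))) (X'.map (Matrix.mulVecLin (g : Matrix ι ι F))) := by
  refine ⟨?_, ?_, ?_, ?_⟩
  · rintro _ ⟨x, hx, rfl⟩ _ ⟨y, hy, rfl⟩
    exact (mem_isoGL.1 hg x y).trans (h.ts x hx y hy)
  · rintro _ ⟨x, hx, rfl⟩ _ ⟨y, hy, rfl⟩
    exact (mem_isoGL.1 hg x y).trans (h.ts' x hx y hy)
  · rw [← Submodule.map_sup, h.sup, Submodule.map_top, LinearMap.range_eq_top]
    intro y
    exact ⟨((g⁻¹ : GL ι F) : Matrix ι ι F) *ᵥ y, gl_mulVec_inv g y⟩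
  · rintro _ ⟨x, hx, rfl⟩ _ ⟨x', hx', rfl⟩ h0
    have h1 : f x x' = 0 := (mem_isoGL.1 hg x x').symm.trans h0
    exact rho_conj_mem hf hg hgM (h.mem x hx x' hx' h1)

lemma exists_add (h : GoodPair hf M X X') (v : ι → F) : ∃ a ∈ X, ∃ b ∈ X', v = a + b := by
  have hv : v ∈ X ⊔ X' := by rw [h.sup]; trivial
  obtain ⟨a, ha, b, hb, hab⟩ := Submodule.mem_sup.1 hv
  exact ⟨a, ha, b, hb, hab.symm⟩

lemma mem_of_perp (h : GoodPair hf M X X') {v : ι → F} (hv : ∀ x ∈ X, f v x = 0) : v ∈ X := by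
  obtain ⟨a, ha, b, hb, rfl⟩ := h.exists_add v
  have hb0 : b = 0 := by
    apply eq_zero_of_forall hf
    intro z
    obtain ⟨x, hx, y, hy, rfl⟩ := h.exists_add z
    have := hv x hx
    rw [add_left hf, h.ts a ha x hx, zero_add] at this
    rw [add_right hf, this, h.ts' b hb y hy, add_zero]
  rw [hb0, add_zero]; exact ha

lemma inf (h : GoodPair hf M X X') : X ⊓ X' = ⊥ := by
  rw [eq_bot_iff]
  rintro x ⟨hx, hx'⟩
  rw [Submodule.mem_bot]
  apply eq_zero_of_forall hf
  intro z
  obtain ⟨a, ha, b, hb, rfl⟩ := h.exists_add z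
  rw [add_right hf, h.ts x hx a ha, h.ts' x hx' b hb, add_zero]

/-- existence of a vector in a large subspace orthogonal to two given vectors -/
lemma _root_.Cfsg.Agent.GeoMax.Symp.exists_perp_two (hf : IsSymplecticForm f) {Y : Submodule F (ι → F)}
    (l : List (ι → F)) (hY : l.length + 1 ≤ Module.finrank F Y) :
    ∃ v ∈ Y, v ≠ 0 ∧ ∀ w ∈ l, f v w = 0 := by
  by_contra hcon
  push Not at hcon
  have h1 : Y ⊓ perp hf (Submodule.span F {x | x ∈ l}) = ⊥ := by
    rw [eq_bot_iff]
    rintro v ⟨hv, hvp⟩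
    rw [Submodule.mem_bot]
    by_contra hne
    obtain ⟨w, hw, hvw⟩ := hcon v hv hne
    exact hvw (mem_perp'.1 hvp w (Submodule.subset_span hw))
  have h2 := Submodule.finrank_sup_add_finrank_inf_eq Y (perp hf (Submodule.span F {x | x ∈ l}))
  rw [h1, finrank_bot, finrank_perp] at h2
  have h3 := Submodule.finrank_le (Y ⊔ perp hf (Submodule.span F {x | x ∈ l}))
  rw [Module.finrank_fintype_fun_eq_card] at h3
  have h4 := finrank_span_list_le (K := F) l
  have h5 : Module.finrank F (Submodule.span F {x | x ∈ l}) ≤ Fintype.card ι := by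
    rw [← Module.finrank_fintype_fun_eq_card (R := F) (η := ι)]; exact Submodule.finrank_le _
  omega

variable {Y Y' : Submodule F (ι → F)}

/-- the case of large intersections -/
lemma le_of_three (h2 : (2 : F) ≠ 0) (hX : GoodPair hf M X X') (hY : GoodPair hf M Y Y')
    (hno : ∀ v ∈ X, v ≠ 0 → ∀ d, d ≠ 0 → tr hf v d ∉ M) (h3 : 3 ≤ Module.finrank F (X ⊓ Y : Submodule F (ι → F))) :
    Y' ≤ X' := by
  intro y' hy'
  apply hX.symm.mem_of_perp
  intro x' hx'
  obtain ⟨v, ⟨hvX, hvY⟩, hv0, hv⟩ := exists_perp_two hf [y', x'] h3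
  by_contra hne
  obtain ⟨d, hd, hdM⟩ := exists_tr_of_rho hf h2 (f_symm0 hf (hv y' (by simp))) (f_symm0 hf (hv x' (by simp)))
    (hY.mem v hvY y' hy' (hv y' (by simp))) (hX.mem v hvX x' hx' (hv x' (by simp))) hne
  exact hno v hvX hv0 d hd hdM

/-- a product of two functionals vanishes only if one of them does -/
lemma _root_.Cfsg.Agent.GeoMax.Symp.eq_zero_or_of_mul {U : Submodule F (ι → F)} (φ ψ : (ι → F) →ₗ[F] F)
    (h : ∀ u ∈ U, φ u * ψ u = 0) : (∀ u ∈ U, φ u = 0) ∨ (∀ u ∈ U, ψ u = 0) := by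
  by_contra hcon
  push Not at hcon
  obtain ⟨⟨x, hx, hxφ⟩, y, hy, hyψ⟩ := hcon
  have h1 : ψ x = 0 := (mul_eq_zero.1 (h x hx)).resolve_left hxφ
  have h2 : φ y = 0 := (mul_eq_zero.1 (h y hy)).resolve_right hyψ
  have h3 := h (x + y) (U.add_mem hx hy)
  rw [map_add, map_add, h1, h2, add_zero, zero_add] at h3
  exact (mul_ne_zero hxφ hyψ) h3

/-- the dichotomy -/
lemma dich (h2 : (2 : F) ≠ 0) {A B : Submodule F (ι → F)} (hA : GoodPair hf M A B) (hMI : M ≤ isoGL f)
    (hX : GoodPair hf M X X')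
    (hno : ∀ v ∈ X, v ≠ 0 → ∀ d, d ≠ 0 → tr hf v d ∉ M) {v : ι → F} (hvX : v ∈ X) (hv0 : v ≠ 0)
    {a b : ι → F} (ha : a ∈ A) (hb : b ∈ B) (hab : f a b = 0) (hav : f a v = 0) (hbv : f b v = 0) :
    (∀ u ∈ X', f u v = 0 → f u a = 0) ∨ (∀ u ∈ X', f u v = 0 → f u b = 0) := by
  have key := Cfsg.Agent.GeoMax.Symp.eq_zero_or_of_mul (U := X' ⊓ LinearMap.ker ((toBilin hf).flip v))
    ((toBilin hf).flip a) ((toBilin hf).flip b) ?_
  · rcases key with h | h
    · exact Or.inl fun u hu huv => h u ⟨hu, huv⟩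
    · exact Or.inr fun u hu huv => h u ⟨hu, huv⟩
  · rintro u ⟨hu, huv⟩
    change f u v = 0 at huv
    change f u a * f u b = 0
    by_contra hne
    have hr := hA.mem a ha b hb hab
    have hu1 := hX.mem v hvX u hu (f_symm0 hf huv)
    have hu2 := rho_conj_mem hf (hMI hr) hr hu1
    have hfix : (rho hf a b 0 : Matrix ι ι F) *ᵥ v = v := by
      rw [rho_mulVec hf (f_symm0 hf hab), f_symm0 hf hav, f_symm0 hf hbv]; simp
    rw [hfix] at hu2
    have e1 : (rho hf a b 0 : Matrix ι ι F) *ᵥ u = u + f u a • b + f u b • a := by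
      rw [rho_mulVec hf (f_symm0 hf hab)]; simp
    rw [e1] at hu2
    obtain ⟨d, hd, hdM⟩ := exists_tr_of_rho hf h2 (u := v) (w := u + f u a • b + f u b • a) (w' := u)
      (by rw [add_left hf, add_left hf, smul_left hf, smul_left hf, huv, hav, hbv]; ring) huv hu2 hu1 (by
        rw [add_left hf, add_left hf, smul_left hf, smul_left hf, self hf, skew hf b u, skew hf a u]
        intro h0
        apply hne
        have : (2 : F) * (f u a * f u b) = 0 := by linear_combination -h0
        exact (mul_eq_zero.1 this).resolve_left h2)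
    exact hno v hvX hv0 d hd hdM

/-- In the absence of transvections, every good pair is the standard one. -/
lemma eq_of_no_tr (h2 : (2 : F) ≠ 0) {A B : Submodule F (ι → F)} (hA : GoodPair hf M A B) (hMI : M ≤ isoGL f)
    (hdA : 7 ≤ Module.finrank F A) (hdB : 7 ≤ Module.finrank F B)
    (hX : GoodPair hf M X X')
    (hno : ∀ v ∈ X, v ≠ 0 → ∀ d, d ≠ 0 → tr hf v d ∉ M)
    (hnoA : ∀ v ∈ A, v ≠ 0 → ∀ d, d ≠ 0 → tr hf v d ∉ M)
    (hnoB : ∀ v ∈ B, v ≠ 0 → ∀ d, d ≠ 0 → tr hf v d ∉ M) : X ≤ A ∨ X ≤ B := by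
  by_contra hcon
  push Not at hcon
  obtain ⟨v, hvX, hvA, hvB⟩ := exists_notMem_notMem hcon.1 hcon.2
  have hv0 : v ≠ 0 := by rintro rfl; exact hvA A.zero_mem
  -- membership in `X'` from orthogonality to the hyperplane
  have hmem : ∀ a : ι → F, f a v = 0 → (∀ u ∈ X', f u v = 0 → f u a = 0) → ∃ c : F, a - c • v ∈ X' := by
    intro a hav ha
    obtain ⟨-, z, hz⟩ := hf.nondegenerate v hv0
    obtain ⟨x, hx, y, hy, rfl⟩ := hX.exists_add z
    rw [add_right hf, hX.ts v hvX x hx, zero_add] at hz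
    have hz' : f y v ≠ 0 := by rw [skew hf]; exact neg_ne_zero.2 hz
    refine ⟨f y a / f y v, ?_⟩
    apply hX.symm.mem_of_perp
    intro u hu
    rw [f_symm0 hf]
    have h1 := ha (u - (f u v / f y v) • y) (X'.sub_mem hu (X'.smul_mem _ hy)) (by
      rw [sub_left hf, smul_left hf, div_mul_cancel₀ _ hz', sub_self])
    rw [sub_left hf, smul_left hf] at h1
    rw [sub_right hf, smul_right hf]
    field_simp at h1 ⊢
    linear_combination h1
  -- the subspaces
  let Kv : Submodule F (ι → F) := LinearMap.ker ((toBilin hf).flip v)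
  have hKv : ∀ x, x ∈ Kv ↔ f x v = 0 := fun x => Iff.rfl
  let P : Submodule F (ι → F) := X' ⊔ Submodule.span F {v}
  have hP : ∀ a : ι → F, f a v = 0 → (∀ u ∈ X', f u v = 0 → f u a = 0) → a ∈ P := by
    intro a hav ha
    obtain ⟨c, hc⟩ := hmem a hav ha
    have : a = (a - c • v) + c • v := by abel
    rw [this]
    exact Submodule.add_mem_sup hc (Submodule.smul_mem _ _ (Submodule.mem_span_singleton_self v))
  -- large intersection with `P` gives large intersection with `X'`
  have hbig : ∀ W : Submodule F (ι → F), 4 ≤ Module.finrank F W → W ≤ P →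
      3 ≤ Module.finrank F (W ⊓ X' : Submodule F (ι → F)) := by
    intro W hW hWP
    have h1 := Submodule.finrank_sup_add_finrank_inf_eq W X'
    have h3 : Module.finrank F (W ⊔ X' : Submodule F (ι → F)) ≤ Module.finrank F P :=
      Submodule.finrank_mono (sup_le hWP le_sup_left)
    have h4 : Module.finrank F P ≤ Module.finrank F X' + 1 := by
      have := Submodule.finrank_add_le_finrank_add_finrank X' (Submodule.span F {v})
      rwa [finrank_span_singleton hv0] at this
    omega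
  have hker : ∀ (W : Submodule F (ι → F)) (z : ι → F), Module.finrank F W ≤
      Module.finrank F (W ⊓ LinearMap.ker ((toBilin hf).flip z) : Submodule F (ι → F)) + 1 := by
    intro W z
    have h1 := Submodule.finrank_sup_add_finrank_inf_eq W (LinearMap.ker ((toBilin hf).flip z))
    have h3 := LinearMap.finrank_range_add_finrank_ker ((toBilin hf).flip z)
    have h4 : Module.finrank F (LinearMap.range ((toBilin hf).flip z)) ≤ 1 := by
      have := Submodule.finrank_le (LinearMap.range ((toBilin hf).flip z))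
      rwa [Module.finrank_self] at this
    have h5 := Submodule.finrank_le (W ⊔ LinearMap.ker ((toBilin hf).flip z))
    omega
  by_cases hAP : A ⊓ Kv ≤ P
  · -- large intersection of `A` and `X'`
    have h3 := hbig (A ⊓ Kv) (by have := hker A v; change _ ≤ Module.finrank F (A ⊓ Kv : Submodule F (ι → F)) + 1 at this; omega) hAP
    have h4 : 3 ≤ Module.finrank F (A ⊓ X' : Submodule F (ι → F)) :=
      h3.trans (Submodule.finrank_mono (inf_le_inf_right _ inf_le_left))
    exact hvB (hA.le_of_three h2 hX.symm hnoA h4 hvX)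
  · obtain ⟨a, ⟨haA, hav⟩, haP⟩ := SetLike.not_le_iff_exists.1 hAP
    have hav' : f a v = 0 := hav
    have hle : (B ⊓ Kv) ⊓ LinearMap.ker ((toBilin hf).flip a) ≤ P := by
      rintro b ⟨⟨hbB, hbv⟩, hba⟩
      have hbv' : f b v = 0 := hbv
      have hba' : f b a = 0 := hba
      rcases hA.dich h2 hMI hX hno hvX hv0 haA hbB (f_symm0 hf hba') hav' hbv' with h | h
      · exact absurd (hP a hav' h) haP
      · exact hP b hbv' h
    have h3 := hbig _ (by
      have e1 := hker B v
      have e2 := hker (B ⊓ Kv) a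
      change _ ≤ Module.finrank F (B ⊓ Kv : Submodule F (ι → F)) + 1 at e1
      omega) hle
    have h4 : 3 ≤ Module.finrank F (B ⊓ X' : Submodule F (ι → F)) :=
      h3.trans (Submodule.finrank_mono (inf_le_inf_right _ (inf_le_left.trans inf_le_left)))
    exact hvA (hA.symm.le_of_three h2 hX.symm hnoB h4 hvX)

end GoodPair

/-- From one transvection with centre in `A` to all of them. -/
lemma GoodPair.TS_of_tr (h2 : (2 : F) ≠ 0) {hf : IsSymplecticForm f} {M : Subgroup (GL ι F)}
    {A B : Submodule F (ι → F)} (hA : GoodPair hf M A B) (hMI : M ≤ isoGL f)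
    (hdA : 2 ≤ Module.finrank F A) {a : ι → F} (ha : a ∈ A) (ha0 : a ≠ 0) {d : F} (hd : d ≠ 0)
    (h : tr hf a d ∈ M) : ∀ x ∈ A, TS hf M x := by
  -- moving
  have hmove : ∀ x ∈ A, x ≠ 0 → ∀ x' ∈ A, x ∉ Submodule.span F {x' - x} → tr hf x d ∈ M → tr hf x' d ∈ M := by
    intro x hx hx0 x' hx' hind hm
    obtain ⟨z, hz, hxz⟩ := exists_perp_ne hf hind
    have hz1 := hz _ (Submodule.mem_span_singleton_self _)
    obtain ⟨y, hy, b, hb, rfl⟩ := hA.exists_add z
    rw [add_right hf, hA.ts x hx y hy, zero_add] at hxz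
    rw [add_right hf, hA.ts _ (A.sub_mem hx' hx) y hy, zero_add] at hz1
    have h1 : f (x' - x) ((f x b)⁻¹ • b) = 0 := by rw [smul_right hf, hz1, mul_zero]
    have hr := hA.mem (x' - x) (A.sub_mem hx' hx) ((f x b)⁻¹ • b) (B.smul_mem _ hb) h1
    have h3 := M.mul_mem (M.mul_mem hr hm) (M.inv_mem hr)
    rw [tr_conj hf (hMI hr)] at h3
    rwa [rho_mulVec hf (f_symm0 hf h1), hA.ts x hx _ (A.sub_mem hx' hx), smul_right hf, inv_mul_cancel₀ hxz,
      zero_smul, add_zero, one_smul, mul_zero, zero_smul, add_zero, add_sub_cancel] at h3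
  have hnot : ∀ x x' : ι → F, x ≠ 0 → x' ∉ Submodule.span F {x} → x ∉ Submodule.span F {x' - x} := by
    intro x x' hx0 hx' h
    obtain ⟨c, hc⟩ := Submodule.mem_span_singleton.1 h
    have hc0 : c ≠ 0 := by rintro rfl; rw [zero_smul] at hc; exact hx0 hc.symm
    apply hx'
    rw [Submodule.mem_span_singleton]
    refine ⟨c⁻¹ + 1, ?_⟩
    rw [add_smul, one_smul]
    nth_rewrite 1 [← hc]
    rw [smul_smul, inv_mul_cancel₀ hc0, one_smul]; abel
  have hsp : ∀ x x' : ι → F, x ≠ 0 → x' ∉ Submodule.span F {x} → x ∉ Submodule.span F {x'} := by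
    intro x x' hx0 hx' h
    obtain ⟨c, hc⟩ := Submodule.mem_span_singleton.1 h
    have hc0 : c ≠ 0 := by rintro rfl; rw [zero_smul] at hc; exact hx0 hc.symm
    apply hx'
    rw [Submodule.mem_span_singleton]
    exact ⟨c⁻¹, by rw [← hc, smul_smul, inv_mul_cancel₀ hc0, one_smul]⟩
  have hall : ∀ x ∈ A, x ≠ 0 → tr hf x d ∈ M := by
    have hstep : ∀ x ∈ A, x ≠ 0 → ∀ x' ∈ A, x' ≠ 0 → x' ∉ Submodule.span F {x} → tr hf x d ∈ M → tr hf x' d ∈ M :=
      fun x hx hx0 x' hx' _ hind hm => hmove x hx hx0 x' hx' (hnot x x' hx0 hind) hm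
    intro x hx hx0
    by_cases hxa : x ∈ Submodule.span F {a}
    · -- an intermediate vector
      obtain ⟨y, hyA, hy⟩ : ∃ y ∈ A, y ∉ Submodule.span F {a} := by
        by_contra hcon
        push Not at hcon
        have : A ≤ Submodule.span F {a} := hcon
        have := Submodule.finrank_mono this
        rw [finrank_span_singleton ha0] at this
        omega
      have hy0 : y ≠ 0 := by rintro rfl; exact hy (Submodule.zero_mem _)
      have h1 := hstep a ha ha0 y hyA hy0 hy h
      refine hstep y hyA hy0 x hx hx0 ?_ h1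
      intro hxy
      obtain ⟨c, rfl⟩ := Submodule.mem_span_singleton.1 hxa
      have hc0 : c ≠ 0 := by rintro rfl; rw [zero_smul] at hx0; exact hx0 rfl
      have h3 := Submodule.smul_mem _ c⁻¹ hxy
      rw [smul_smul, inv_mul_cancel₀ hc0, one_smul] at h3
      exact hsp a y ha0 hy h3
    · exact hstep a ha ha0 x hx hx0 hxa h
  intro x hx c
  by_cases hx0 : x = 0
  · rw [hx0]; exact TS.zero hf M c
  -- `c = d (α² - β²)`
  have hsq : ∀ e : F, tr hf x (e * e * d) ∈ M := by
    intro e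
    by_cases he : e = 0
    · rw [he, zero_mul, zero_mul]
      have : tr hf x 0 = 1 := gl_ext fun z => by rw [tr_mulVec]; simp
      rw [this]; exact M.one_mem
    · have := hall (e • x) (A.smul_mem _ hx) (smul_ne_zero he hx0)
      rwa [tr_smul hf] at this
  have h5 := M.mul_mem (hsq ((c / d + 1) / 2)) (M.inv_mem (hsq ((c / d - 1) / 2)))
  have h6 : tr hf x c * tr hf x ((c / d - 1) / 2 * ((c / d - 1) / 2) * d) =
      tr hf x ((c / d + 1) / 2 * ((c / d + 1) / 2) * d) := by
    apply gl_ext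
    intro z
    have h4 : (c / d + 1) / 2 * ((c / d + 1) / 2) * d = c + (c / d - 1) / 2 * ((c / d - 1) / 2) * d := by
      field_simp; ring
    rw [gl_mul_mulVec, tr_mulVec, tr_mulVec, tr_mulVec, add_left hf, smul_left hf, self hf, h4]
    module
  rwa [← h6, mul_inv_cancel_right] at h5

/-- all transvections with centres in `A ∪ B` generate everything -/
lemma GoodPair.iso_le {hf : IsSymplecticForm f} {M : Subgroup (GL ι F)}
    {A B : Submodule F (ι → F)} (hA : GoodPair hf M A B) (hTA : ∀ x ∈ A, TS hf M x) (hTB : ∀ x ∈ B, TS hf M x) :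
    isoGL f ≤ M := by
  refine iso_le_of_TS hf M fun v => ?_
  obtain ⟨a, ha, b, hb, rfl⟩ := hA.exists_add v
  by_cases ha0 : a = 0
  · rw [ha0, zero_add]; exact hTB b hb
  by_cases hab : f a b = 0
  · obtain ⟨z, hz⟩ := exists_ne_zero hf ha0
    obtain ⟨x, hx, b', hb', rfl⟩ := hA.exists_add z
    rw [add_right hf, hA.ts a ha x hx, zero_add] at hz
    have h1 := (hTA a ha).add' (hTB b' hb') hz
    have h3 := h1.add' (hTB (b - b') (B.sub_mem hb hb')) (by
      rw [add_left hf, sub_right hf, hab, hA.ts' b' hb' _ (B.sub_mem hb hb'), zero_sub, add_zero]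
      exact neg_ne_zero.2 hz)
    have : a + b' + (b - b') = a + b := by abel
    rwa [this] at h3
  · exact (hTA a ha).add' (hTB b hb) hab

end Symp

end Cfsg.Agent.GeoMax
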