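import Cfsg.Agent.GeoMax.SpGL

/-!
The swap of two complementary totally singular subspaces, and maximality of their stabiliser.
-/

set_option autoImplicit false
set_option linter.unusedSectionVars false

namespace Cfsg.Agent.GeoMax

open Matrix
open scoped MatrixGroups
open Cfsg.Geo

namespace Symp

variable {ι : Type} [Fintype ι] [DecidableEq ι] {F : Type*} [Field F]
variable {f : (ι → F) → (ι → F) → F}

lemma toDual_symm {A : Type*} [AddCommGroup A] [Module F A] {κ : Type*} [Fintype κ] [DecidableEq κ]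
    (b : Module.Basis κ F A) (x y : A) : b.toDual x y = b.toDual y x := by
  have h : b.toDual = b.toDual.flip := by
    refine b.ext fun i => b.ext fun j => ?_
    rw [LinearMap.flip_apply, Module.Basis.toDual_apply, Module.Basis.toDual_apply]
    simp only [eq_comm]
  rw [← LinearMap.flip_apply b.toDual x y, ← h]

/-- An isometry exchanging two complementary totally singular subspaces. -/
theorem exists_swap_ts (hf : IsSymplecticForm f) {A B : Submodule F (ι → F)} (hA : ∀ x ∈ A, ∀ y ∈ A, f x y = 0)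
    (hB : ∀ x ∈ B, ∀ y ∈ B, f x y = 0) (hc : IsCompl A B) (hd : Module.finrank F A = Module.finrank F B) :
    ∃ s ∈ isoGL f, (∀ a ∈ A, (s : Matrix ι ι F) *ᵥ a ∈ B) ∧ (∀ b ∈ B, (s : Matrix ι ι F) *ᵥ b ∈ A) := by
  let L : B →ₗ[F] Module.Dual F A := ((toBilin hf).flip.domRestrict B).compl₂ A.subtype
  have hL : ∀ (b : B) (a : A), L b a = f a b := fun b a => rfl
  have hinj : Function.Injective L := by
    rw [injective_iff_map_eq_zero]
    intro b hb
    apply Subtype.ext
    apply eq_zero_of_forall hf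
    intro z
    have hz : z ∈ A ⊔ B := by rw [hc.sup_eq_top]; trivial
    obtain ⟨x, hx, y, hy, rfl⟩ := Submodule.mem_sup.1 hz
    have h1 := hL b ⟨x, hx⟩
    rw [hb] at h1
    rw [add_right hf, hB b b.2 y hy, add_zero, f_symm0 hf]
    exact h1.symm
  have hfd : Module.finrank F B = Module.finrank F (Module.Dual F A) := by
    rw [Subspace.dual_finrank_eq, hd]
  let Le : B ≃ₗ[F] Module.Dual F A := LinearMap.linearEquivOfInjective L hinj hfd
  have hLe : ∀ (φ : Module.Dual F A) (a : A), f a (Le.symm φ : ι → F) = φ a := by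
    intro φ a
    rw [← hL]
    have : L (Le.symm φ) = φ := Le.apply_symm_apply φ
    rw [this]
  let bs := Module.finBasis F A
  let φ : A ≃ₗ[F] B := bs.toDualEquiv.trans Le.symm
  have hφ : ∀ a a' : A, f a (φ a' : ι → F) = bs.toDual a' a := fun a a' => hLe _ _
  have hφs : ∀ a a' : A, f a (φ a' : ι → F) = f a' (φ a : ι → F) := fun a a' => by
    rw [hφ, hφ, toDual_symm]
  let e := Submodule.prodEquivOfIsCompl A B hc
  let sl : (ι → F) ≃ₗ[F] (ι → F) := e.symm.trans
    (((LinearEquiv.prodComm F A B).trans ((φ.symm.trans (LinearEquiv.neg F)).prodCongr φ)).trans e)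
  have hsl : ∀ (a : A) (b : B), sl ((a : ι → F) + (b : ι → F)) = (φ a : ι → F) - (φ.symm b : ι → F) := by
    intro a b
    have h1 : e.symm ((a : ι → F) + (b : ι → F)) = (a, b) := by
      rw [LinearEquiv.symm_apply_eq]
      rfl
    change e (((φ.symm.trans (LinearEquiv.neg F)).prodCongr φ) (LinearEquiv.prodComm F A B (e.symm _))) = _
    rw [h1]
    change ((-(φ.symm b) : A) : ι → F) + (φ a : ι → F) = _
    rw [Submodule.coe_neg]; abel
  have hslA : ∀ a : A, sl (a : ι → F) = (φ a : ι → F) := by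
    intro a
    have := hsl a 0
    simpa using this
  have hslB : ∀ b : B, sl (b : ι → F) = - (φ.symm b : ι → F) := by
    intro b
    have := hsl 0 b
    simpa using this
  let s : GL ι F := (Cfsg.Agent.Orth.glE ι F).symm sl
  have hs : ∀ x, (s : Matrix ι ι F) *ᵥ x = sl x := by
    intro x
    rw [← Cfsg.Agent.Orth.glE_apply]
    change (Cfsg.Agent.Orth.glE ι F ((Cfsg.Agent.Orth.glE ι F).symm sl)) x = _
    rw [MulEquiv.apply_symm_apply]
  refine ⟨s, ?_, ?_, ?_⟩
  · rw [mem_isoGL]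
    intro u v
    have hu : u ∈ A ⊔ B := by rw [hc.sup_eq_top]; trivial
    have hv : v ∈ A ⊔ B := by rw [hc.sup_eq_top]; trivial
    obtain ⟨a, ha, b, hb, rfl⟩ := Submodule.mem_sup.1 hu
    obtain ⟨a', ha', b', hb', rfl⟩ := Submodule.mem_sup.1 hv
    rw [hs, hs, hsl ⟨a, ha⟩ ⟨b, hb⟩, hsl ⟨a', ha'⟩ ⟨b', hb'⟩]
    simp only [sub_left hf, sub_right hf, add_left hf, add_right hf]
    rw [hB _ (φ ⟨a, ha⟩).2 _ (φ ⟨a', ha'⟩).2, hA _ (φ.symm ⟨b, hb⟩).2 _ (φ.symm ⟨b', hb'⟩).2, hA a ha a' ha', hB b hb b' hb',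
      skew hf (φ ⟨a, ha⟩ : ι → F), hφs (φ.symm ⟨b', hb'⟩), hφs (φ.symm ⟨b, hb⟩), LinearEquiv.apply_symm_apply,
      LinearEquiv.apply_symm_apply, skew hf b a']
    ring
  · intro a ha
    rw [hs, hslA ⟨a, ha⟩]
    exact (φ ⟨a, ha⟩).2
  · intro b hb
    rw [hs, hslB ⟨b, hb⟩]
    exact A.neg_mem (φ.symm ⟨b, hb⟩).2

/-- **Maximality of `GL_m(q).2` in `Sp_2m(q)`**, `q` odd. -/
theorem glPair_maximal (hf : IsSymplecticForm f) (h2 : (2 : F) ≠ 0) {m : ℕ} (hm : 7 ≤ m)
    (D : Fin 2 → Submodule F (ι → F)) (hD : IsMDecomposition m D) (hts : ∀ i, IsTotallySingularFor f (D i)) :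
    IsMaximalIn (isoGL f) (decompositionStabilizer D ⊓ isoGL f) := by
  have hd0 := hD.finrank_eq 0
  have hd1 := hD.finrank_eq 1
  have hcompl : IsCompl (D 0) (D 1) := by
    constructor
    · exact hD.indep.pairwiseDisjoint (by decide)
    · rw [codisjoint_iff, ← hD.iSup_eq_top]
      apply le_antisymm
      · exact sup_le (le_iSup D 0) (le_iSup D 1)
      · refine iSup_le fun i => ?_
        fin_cases i
        · exact le_sup_left
        · exact le_sup_right
  -- description of the stabiliser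
  have hmemH : ∀ g : GL ι F, ((∀ x ∈ D 0, (g : Matrix ι ι F) *ᵥ x ∈ D 0) ∧ (∀ x ∈ D 1, (g : Matrix ι ι F) *ᵥ x ∈ D 1)) ∨
      ((∀ x ∈ D 0, (g : Matrix ι ι F) *ᵥ x ∈ D 1) ∧ (∀ x ∈ D 1, (g : Matrix ι ι F) *ᵥ x ∈ D 0)) →
      g ∈ decompositionStabilizer D := by
    intro g hg
    have hfm : ∀ W : Submodule F (ι → F), Module.finrank F (W.map (Matrix.toLin' (g : Matrix ι ι F))) = Module.finrank F W := by
      intro W
      refine (Submodule.equivMapOfInjective _ ?_ W).finrank_eq.symm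
      intro x y hxy
      rw [Matrix.toLin'_apply, Matrix.toLin'_apply] at hxy
      exact gl_mulVec_injective g hxy
    have hmap : ∀ i j, (∀ x ∈ D i, (g : Matrix ι ι F) *ᵥ x ∈ D j) → (D i).map (Matrix.toLin' (g : Matrix ι ι F)) = D j := by
      intro i j h
      refine Submodule.eq_of_le_of_finrank_eq ?_ ?_
      · rintro _ ⟨x, hx, rfl⟩
        rw [Matrix.toLin'_apply]; exact h x hx
      · rw [hfm, hD.finrank_eq, hD.finrank_eq]
    rcases hg with ⟨h1, h3⟩ | ⟨h1, h3⟩
    · refine ⟨1, fun i => ?_⟩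
      rw [Equiv.Perm.one_apply]
      fin_cases i
      · exact hmap 0 0 h1
      · exact hmap 1 1 h3
    · refine ⟨Equiv.swap 0 1, fun i => ?_⟩
      fin_cases i
      · exact (hmap 0 1 h1).trans (by simp)
      · exact (hmap 1 0 h3).trans (by simp)
  constructor
  · refine lt_of_le_of_ne inf_le_right ?_
    intro heq
    -- vectors
    obtain ⟨b, hb, hb0⟩ := Submodule.exists_mem_ne_zero_of_ne_bot (p := D 1) (by
      intro h; rw [h, finrank_bot] at hd1; omega)
    obtain ⟨z, hz⟩ := exists_ne_zero hf hb0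
    have hzt : z ∈ D 0 ⊔ D 1 := by rw [hcompl.sup_eq_top]; trivial
    obtain ⟨a, ha, b', hb', rfl⟩ := Submodule.mem_sup.1 hzt
    rw [add_right hf, hts 1 b hb b' hb', add_zero] at hz
    have ha0 : a ≠ 0 := by rintro rfl; exact hz (zero_right hf b)
    have hab : f a b ≠ 0 := by rw [skew hf]; exact neg_ne_zero.2 hz
    obtain ⟨x, hx, hx0, hxb⟩ := exists_perp_two hf (Y := D 0) [b] (by simp; omega)
    have hxb' := hxb b (by simp)
    have hmem : tr hf (a + b) 1 ∈ decompositionStabilizer D ⊓ isoGL f := by rw [heq]; exact tr_mem_iso hf _ 1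
    obtain ⟨⟨σ, hσ⟩, -⟩ := hmem
    have h1 := hσ 0
    have hxm : (tr hf (a + b) 1 : Matrix ι ι F) *ᵥ x ∈ D (σ 0) := by
      rw [← h1]; exact ⟨x, hx, by rw [Matrix.toLin'_apply]⟩
    rw [tr_mulVec, add_right hf, hts 0 x hx a ha, hxb'] at hxm
    have ham : (tr hf (a + b) 1 : Matrix ι ι F) *ᵥ a ∈ D (σ 0) := by
      rw [← h1]; exact ⟨a, ha, by rw [Matrix.toLin'_apply]⟩
    rw [tr_mulVec, add_right hf, self hf, zero_add, one_mul] at ham
    rcases (show σ 0 = 0 ∨ σ 0 = 1 by omega) with h | h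
    · rw [h] at ham
      have h3 := (D 0).sub_mem ((D 0).sub_mem ham ha) ((D 0).smul_mem (f a b) ha)
      have e : a + f a b • (a + b) - a - f a b • a = f a b • b := by module
      rw [e] at h3
      have h4 := (D 0).smul_mem (f a b)⁻¹ h3
      rw [smul_smul, inv_mul_cancel₀ hab, one_smul] at h4
      exact hb0 ((Submodule.disjoint_def.1 hcompl.disjoint) b h4 hb)
    · rw [h] at hxm
      rw [add_zero, mul_zero, zero_smul, add_zero] at hxm
      exact hx0 ((Submodule.disjoint_def.1 hcompl.disjoint) x hx hxm)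
  · intro M hHM hMI
    by_cases hMH : M = decompositionStabilizer D ⊓ isoGL f
    · exact Or.inl hMH
    right
    refine le_antisymm hMI ?_
    have hgood : GoodPair hf M (D 0) (D 1) := by
      refine ⟨hts 0, hts 1, hcompl.sup_eq_top, fun x hx x' hx' h0 => hHM ⟨hmemH _ (Or.inl ⟨?_, ?_⟩), rho_mem_iso hf _ _ _⟩⟩
      · intro y hy
        rw [rho_mulVec hf (f_symm0 hf h0), hts 0 y hy x hx, zero_smul, add_zero, mul_zero, zero_smul, add_zero]
        exact (D 0).add_mem hy ((D 0).smul_mem _ hx)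
      · intro y hy
        rw [rho_mulVec hf (f_symm0 hf h0), hts 1 y hy x' hx', zero_smul, add_zero, zero_mul, zero_smul, add_zero]
        exact (D 1).add_mem hy ((D 1).smul_mem _ hx')
    obtain ⟨s, hsI, hs0, hs1⟩ := exists_swap_ts hf (hts 0) (hts 1) hcompl (by omega)
    have hsM : s ∈ M := hHM ⟨hmemH s (Or.inr ⟨hs0, hs1⟩), hsI⟩
    -- transvections with centre in `D 0` suffice
    have hfin : (∃ a ∈ D 0, a ≠ 0 ∧ ∃ d, d ≠ 0 ∧ tr hf a d ∈ M) → isoGL f ≤ M := by
      rintro ⟨a, ha, ha0, d, hd, hm⟩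
      have h0 := hgood.TS_of_tr h2 hMI (by omega) ha ha0 hd hm
      refine hgood.iso_le h0 fun x hx => ?_
      have h3 : (s : Matrix ι ι F) *ᵥ (((s⁻¹ : GL ι F) : Matrix ι ι F) *ᵥ x) = x := gl_mulVec_inv s x
      rw [← h3]
      refine (h0 _ ?_).conj hsI hsM
      -- `s⁻¹ x ∈ D 0`
      have hfm : (D 0).map (Matrix.mulVecLin (s : Matrix ι ι F)) = D 1 := by
        refine Submodule.eq_of_le_of_finrank_eq ?_ ?_
        · rintro _ ⟨y, hy, rfl⟩; exact hs0 y hy
        · rw [(Submodule.equivMapOfInjective _ (gl_mulVec_injective s) (D 0)).finrank_eq.symm, hd0, hd1]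
      rw [← hfm] at hx
      obtain ⟨y, hy, rfl⟩ := hx
      have : ((s⁻¹ : GL ι F) : Matrix ι ι F) *ᵥ (Matrix.mulVecLin (s : Matrix ι ι F) y) = y := gl_inv_mulVec s y
      rw [this]; exact hy
    by_contra hcon
    have hno0 : ∀ v ∈ D 0, v ≠ 0 → ∀ d, d ≠ 0 → tr hf v d ∉ M := fun v hv hv0 d hd hm =>
      hcon (hfin ⟨v, hv, hv0, d, hd, hm⟩)
    have hno1 : ∀ v ∈ D 1, v ≠ 0 → ∀ d, d ≠ 0 → tr hf v d ∉ M := by
      intro v hv hv0 d hd hm
      refine hno0 _ (hs1 v hv) (fun h => hv0 (gl_mulVec_injective s (by simpa using h))) d hd ?_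
      rw [← tr_conj hf hsI]
      exact M.mul_mem (M.mul_mem hsM hm) (M.inv_mem hsM)
    have hnomap : ∀ g ∈ M, ∀ W : Submodule F (ι → F), (∀ v ∈ W, v ≠ 0 → ∀ d, d ≠ 0 → tr hf v d ∉ M) →
        ∀ v ∈ W.map (Matrix.mulVecLin (g : Matrix ι ι F)), v ≠ 0 → ∀ d, d ≠ 0 → tr hf v d ∉ M := by
      rintro g hg W hW _ ⟨x, hx, rfl⟩ hv0 d hd hm
      refine hW x hx (by rintro rfl; exact hv0 (by simp)) d hd ?_
      have h3 := M.mul_mem (M.mul_mem (M.inv_mem hg) hm) (M.inv_mem (M.inv_mem hg))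
      rw [tr_conj hf ((isoGL f).inv_mem (hMI hg))] at h3
      have : ((g⁻¹ : GL ι F) : Matrix ι ι F) *ᵥ (Matrix.mulVecLin (g : Matrix ι ι F) x) = x := gl_inv_mulVec g x
      rwa [this] at h3
    apply hMH
    refine le_antisymm (fun g hg => ⟨hmemH g ?_, hMI hg⟩) hHM
    have hX := hgood.map (hMI hg) hg
    have e0 := hgood.eq_of_no_tr h2 hMI (by omega) (by omega) hX (hnomap g hg _ hno0) hno0 hno1
    have e1 := hgood.eq_of_no_tr h2 hMI (by omega) (by omega) hX.symm (hnomap g hg _ hno1) hno0 hno1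
    have hinj : Function.Injective (Matrix.mulVecLin (g : Matrix ι ι F)) := gl_mulVec_injective g
    have hdm : ∀ i, Module.finrank F ((D i).map (Matrix.mulVecLin (g : Matrix ι ι F))) = m := fun i => by
      rw [(Submodule.equivMapOfInjective _ hinj (D i)).finrank_eq.symm, hD.finrank_eq]
    have hdisj : ∀ j, ¬ ((D 0).map (Matrix.mulVecLin (g : Matrix ι ι F)) ≤ D j ∧
        (D 1).map (Matrix.mulVecLin (g : Matrix ι ι F)) ≤ D j) := by
      rintro j ⟨h3, h4⟩
      have h5 := Submodule.eq_of_le_of_finrank_eq h3 (by rw [hdm, hD.finrank_eq])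
      have h6 := Submodule.eq_of_le_of_finrank_eq h4 (by rw [hdm, hD.finrank_eq])
      have h7 : (D 0).map (Matrix.mulVecLin (g : Matrix ι ι F)) = (D 1).map (Matrix.mulVecLin (g : Matrix ι ι F)) := by
        rw [h5, h6]
      have h8 := Submodule.map_injective_of_injective hinj h7
      have h9 := hcompl.inf_eq_bot
      rw [h8, inf_idem] at h9
      rw [h9, finrank_bot] at hd1
      omega
    have hto : ∀ i j, (D i).map (Matrix.mulVecLin (g : Matrix ι ι F)) ≤ D j → ∀ x ∈ D i, (g : Matrix ι ι F) *ᵥ x ∈ D j :=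
      fun i j h x hx => h ⟨x, hx, rfl⟩
    rcases e0 with e0 | e0 <;> rcases e1 with e1 | e1
    · exact absurd ⟨e0, e1⟩ (hdisj 0)
    · exact Or.inl ⟨hto 0 0 e0, hto 1 1 e1⟩
    · exact Or.inr ⟨hto 0 1 e0, hto 1 0 e1⟩
    · exact absurd ⟨e0, e1⟩ (hdisj 1)

end Symp

end Cfsg.Agent.GeoMax
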