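import Cfsg.Agent.GeoMax.SpGL
import Cfsg.Agent.GeoMax.OBasic

/-!
Overgroups in the symplectic group of the centraliser of a skew-adjoint `θ` with `θ² = δ` a non-square
(type `GU_m(q)` in `Sp_2m(q)`, `q` odd).
-/

set_option autoImplicit false
set_option linter.unusedSectionVars false

namespace Cfsg.Agent.GeoMax

open Matrix
open scoped MatrixGroups
open Cfsg.Geo

namespace Symp

variable {ι : Type} [Fintype ι] [DecidableEq ι] {F : Type*} [Field F]
variable {f : (ι → F) → (ι → F) → F}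

/-- a linear map preserving the form comes from an element of the isometry group -/
lemma exists_iso (hf : IsSymplecticForm f) (L : (ι → F) →ₗ[F] (ι → F)) (hL : ∀ x y, f (L x) (L y) = f x y) :
    ∃ g ∈ isoGL f, ∀ x, (g : Matrix ι ι F) *ᵥ x = L x := by
  have hinj : Function.Injective L := by
    rw [injective_iff_map_eq_zero]
    intro x hx
    apply eq_zero_of_forall hf
    intro z
    rw [← hL, hx, zero_left hf]
  let g : GL ι F := (Cfsg.Agent.Orth.glE ι F).symm (LinearEquiv.ofInjectiveEndo L hinj)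
  have hg : ∀ x, (g : Matrix ι ι F) *ᵥ x = L x := by
    intro x
    rw [← Cfsg.Agent.Orth.glE_apply]
    change (Cfsg.Agent.Orth.glE ι F ((Cfsg.Agent.Orth.glE ι F).symm (LinearEquiv.ofInjectiveEndo L hinj))) x = _
    rw [MulEquiv.apply_symm_apply]
    rfl
  refine ⟨g, ?_, hg⟩
  rw [mem_isoGL]
  intro u v
  rw [hg, hg, hL]

/-- skew-adjoint `θ` with `θ² = δ`, `δ` not a square -/
structure Cx (f : (ι → F) → (ι → F) → F) (θ : (ι → F) →ₗ[F] (ι → F)) (δ : F) : Prop where
  skew : ∀ x y, f (θ x) y = - f x (θ y)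
  sq : ∀ x, θ (θ x) = δ • x
  ns : ∀ a : F, a * a ≠ δ

namespace Cx
variable {θ : (ι → F) →ₗ[F] (ι → F)} {δ : F}

lemma ne0 (h : Cx f θ δ) : δ ≠ 0 := fun h0 => h.ns 0 (by rw [h0, mul_zero])

lemma norm_ne (h : Cx f θ δ) {s t : F} (hst : s ≠ 0 ∨ t ≠ 0) : s * s - δ * (t * t) ≠ 0 := by
  intro h0
  by_cases ht : t = 0
  · rw [ht] at h0
    rcases hst with hs | hs
    · exact mul_self_ne_zero.2 hs (by linear_combination h0)
    · exact hs ht
  · apply h.ns (s / t)
    field_simp
    linear_combination h0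

lemma indep (h : Cx f θ δ) {v : ι → F} (hv : v ≠ 0) {s t : F} (hst : s • v + t • θ v = 0) : s = 0 ∧ t = 0 := by
  by_contra hcon
  have hne : s ≠ 0 ∨ t ≠ 0 := by
    by_contra hc
    push Not at hc
    exact hcon hc
  have h1 := congrArg θ hst
  rw [map_add, map_smul, map_smul, h.sq, map_zero] at h1
  have h2 : (s * s - δ * (t * t)) • v = 0 := by
    have : (s * s - δ * (t * t)) • v = s • (s • v + t • θ v) - t • (s • θ v + t • (δ • v)) := by module
    rw [this, hst, h1, smul_zero, smul_zero, sub_zero]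
  rcases smul_eq_zero.1 h2 with h3 | h3
  · exact h.norm_ne hne h3
  · exact hv h3

/-- the `K`-line -/
def line (θ : (ι → F) →ₗ[F] (ι → F)) (v : ι → F) : Submodule F (ι → F) := Submodule.span F {v, θ v}

lemma mem_line {v x : ι → F} : x ∈ line θ v ↔ ∃ s t : F, s • v + t • θ v = x := Submodule.mem_span_pair

lemma self_mem (v : ι → F) : v ∈ line θ v := Submodule.subset_span (by simp)
lemma theta_self_mem (v : ι → F) : θ v ∈ line θ v := Submodule.subset_span (by simp)

lemma theta_mem (h : Cx f θ δ) {v x : ι → F} (hx : x ∈ line θ v) : θ x ∈ line θ v := by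
  obtain ⟨s, t, rfl⟩ := mem_line.1 hx
  rw [map_add, map_smul, map_smul, h.sq, mem_line]
  exact ⟨t * δ, s, by module⟩

lemma mem_line_symm (h : Cx f θ δ) {v x : ι → F} (hx : x ∈ line θ v) (hx0 : x ≠ 0) : v ∈ line θ x := by
  obtain ⟨s, t, rfl⟩ := mem_line.1 hx
  have hst : s ≠ 0 ∨ t ≠ 0 := by
    by_contra hc
    push Not at hc
    rw [hc.1, hc.2] at hx0
    simp at hx0
  have hn := h.norm_ne hst
  rw [mem_line]
  refine ⟨(s * s - δ * (t * t))⁻¹ * s, -((s * s - δ * (t * t))⁻¹ * t), ?_⟩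
  rw [map_add, map_smul, map_smul, h.sq]
  have : ((s * s - δ * (t * t))⁻¹ * s) • (s • v + t • θ v) + (-((s * s - δ * (t * t))⁻¹ * t)) • (s • θ v + t • (δ • v)) =
      ((s * s - δ * (t * t))⁻¹ * (s * s - δ * (t * t))) • v := by module
  rw [this, inv_mul_cancel₀ hn, one_smul]

lemma line_trans (h : Cx f θ δ) {v x y : ι → F} (hx : x ∈ line θ v) (hy : y ∈ line θ x) : y ∈ line θ v := by
  obtain ⟨s, t, rfl⟩ := mem_line.1 hy
  exact Submodule.add_mem _ (Submodule.smul_mem _ _ hx) (Submodule.smul_mem _ _ (h.theta_mem hx))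

/-- uniqueness of coordinates for independent lines -/
lemma coords (h : Cx f θ δ) {v w : ι → F} (hv : v ≠ 0) (hw : w ∉ line θ v) {s t s' t' : F}
    (he : s • v + t • θ v = s' • w + t' • θ w) : s = 0 ∧ t = 0 ∧ s' = 0 ∧ t' = 0 := by
  have h0 : s' • w + t' • θ w = 0 := by
    by_contra hne
    apply hw
    refine h.line_trans (x := s' • w + t' • θ w) (mem_line.2 ⟨s, t, he⟩) ?_
    exact h.mem_line_symm (mem_line.2 ⟨s', t', rfl⟩) hne
  have hw0 : w ≠ 0 := by rintro rfl; exact hw (Submodule.zero_mem _)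
  obtain ⟨h1, h2⟩ := h.indep hw0 h0
  rw [h0] at he
  obtain ⟨h3, h4⟩ := h.indep hv he
  exact ⟨h3, h4, h1, h2⟩

variable {θ' : (ι → F) →ₗ[F] (ι → F)}

/-- the vectors whose `K'`-line is their `K`-line -/
def NN (θ θ' : (ι → F) →ₗ[F] (ι → F)) (v : ι → F) : Prop := θ' v ∈ line θ v

lemma NN.of_mem (h : Cx f θ δ) (h' : Cx f θ' δ) {v x : ι → F} (hv : NN θ θ' v) (hx : x ∈ line θ v) (hx0 : x ≠ 0) :
    NN θ θ' x := by
  have hv0 : v ≠ 0 := by
    rintro rfl
    obtain ⟨s, t, rfl⟩ := mem_line.1 hx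
    simp at hx0
  -- `θ' (θ v) ∈ line θ v`
  obtain ⟨s, t, hst⟩ := mem_line.1 hv
  have ht : t ≠ 0 := by
    rintro rfl
    have h1 := congrArg θ' hst
    rw [zero_smul, add_zero, map_smul, h'.sq, ← hst, zero_smul, add_zero, smul_smul] at h1
    have h2 : (s * s - δ) • v = 0 := by rw [sub_smul, h1, sub_self]
    rcases smul_eq_zero.1 h2 with h3 | h3
    · exact h.ns s (by linear_combination h3)
    · exact hv0 h3
  have h1 : θ' (θ v) ∈ line θ v := by
    have h2 : θ v = t⁻¹ • (θ' v - s • v) := by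
      rw [← hst, add_sub_cancel_left, smul_smul, inv_mul_cancel₀ ht, one_smul]
    rw [h2, map_smul, map_sub, map_smul, h'.sq]
    refine Submodule.smul_mem _ _ (Submodule.sub_mem _ (Submodule.smul_mem _ _ (self_mem v)) (Submodule.smul_mem _ _ hv))
  have h2 : θ' x ∈ line θ v := by
    obtain ⟨a, b, rfl⟩ := mem_line.1 hx
    rw [map_add, map_smul, map_smul]
    exact Submodule.add_mem _ (Submodule.smul_mem _ _ hv) (Submodule.smul_mem _ _ h1)
  exact h.line_trans (h.mem_line_symm hx hx0) h2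

/-- constant coefficients on independent pairs -/
lemma NN.coeff (h : Cx f θ δ) {v w : ι → F} (hv0 : v ≠ 0) (hw : w ∉ line θ v) {s t s' t' a b : F}
    (hv : s • v + t • θ v = θ' v) (hw' : s' • w + t' • θ w = θ' w)
    (hvw : a • (v + w) + b • θ (v + w) = θ' (v + w)) : s = a ∧ t = b ∧ s' = a ∧ t' = b := by
  have he : (s - a) • v + (t - b) • θ v = (a - s') • w + (b - t') • θ w := by
    rw [map_add, map_add, ← hv, ← hw'] at hvw
    rw [sub_smul, sub_smul, sub_smul, sub_smul]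
    have : s • v - a • v + (t • θ v - b • θ v) - (a • w - s' • w + (b • θ w - t' • θ w)) =
        (s • v + t • θ v + (s' • w + t' • θ w)) - (a • (v + w) + b • (θ v + θ w)) := by module
    rw [← sub_eq_zero, this, hvw, sub_self]
  obtain ⟨h1, h2, h3, h4⟩ := h.coords hv0 hw he
  exact ⟨sub_eq_zero.1 h1, sub_eq_zero.1 h2, (sub_eq_zero.1 h3).symm, (sub_eq_zero.1 h4).symm⟩

/-- if every vector is in `NN`, then `θ'` is in the field generated by `θ` -/
lemma exists_eq_of_NN (h : Cx f θ δ) (hex : ∀ v : ι → F, ∃ w, w ∉ line θ v) (hN : ∀ v, NN θ θ' v) :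
    ∃ a b : F, ∀ x, θ' x = a • x + b • θ x := by
  by_cases htriv : ∀ v : ι → F, v = 0
  · exact ⟨0, 0, fun x => by rw [htriv x]; simp⟩
  push Not at htriv
  obtain ⟨v, hv0⟩ := htriv
  obtain ⟨a, b, hab⟩ := mem_line.1 (hN v)
  -- vectors off the line of `v`
  have hoff : ∀ w, w ∉ line θ v → θ' w = a • w + b • θ w := by
    intro w hw
    obtain ⟨s', t', hw'⟩ := mem_line.1 (hN w)
    obtain ⟨c, d, hvw⟩ := mem_line.1 (hN (v + w))
    obtain ⟨e1, e2, e3, e4⟩ := NN.coeff h hv0 hw hab hw' hvw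
    rw [← hw', e3, e4, ← e1, ← e2]
  obtain ⟨w, hw⟩ := hex v
  refine ⟨a, b, fun x => ?_⟩
  by_cases hx : x ∈ line θ v
  · have h1 := hoff (x + w) (fun hxw => hw (by
      have := Submodule.sub_mem _ hxw hx
      rwa [add_sub_cancel_left] at this))
    have h2 := hoff w hw
    rw [map_add, map_add, h2] at h1
    have : θ' x = (a • (x + w) + b • (θ x + θ w)) - (a • w + b • θ w) := by rw [← h1]; abel
    rw [this]; module
  · exact hoff x hx

/-! ### The quadratic form -/

/-- the quadratic form `x ↦ f(x, θ x)` -/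
noncomputable def qf (hf : IsSymplecticForm f) (θ : (ι → F) →ₗ[F] (ι → F)) : QuadraticForm F (ι → F) :=
  LinearMap.BilinMap.toQuadraticMap ((toBilin hf).compl₂ θ)

lemma qf_apply (hf : IsSymplecticForm f) (x : ι → F) : qf hf θ x = f x (θ x) := rfl

lemma polar_qf (hf : IsSymplecticForm f) (h : Cx f θ δ) (x y : ι → F) :
    QuadraticMap.polar (qf hf θ) x y = 2 * f x (θ y) := by
  rw [QuadraticMap.polar, qf_apply, qf_apply, qf_apply, map_add]
  simp only [add_left hf, add_right hf]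
  have : f y (θ x) = f x (θ y) := by rw [Symp.skew hf, h.skew, neg_neg]
  rw [this]; ring

lemma qf_nondeg (hf : IsSymplecticForm f) (h2 : (2 : F) ≠ 0) (h : Cx f θ δ) :
    (QuadraticMap.polarBilin (qf hf θ)).Nondegenerate := by
  have key : ∀ x, (∀ y, QuadraticMap.polar (qf hf θ) x y = 0) → x = 0 := by
    intro x hx
    apply eq_zero_of_forall hf
    intro z
    have h1 := hx (δ⁻¹ • θ z)
    rw [polar_qf hf h, map_smul, h.sq, smul_smul, inv_mul_cancel₀ h.ne0, one_smul] at h1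
    exact (mul_eq_zero.1 h1).resolve_left h2
  refine ⟨fun x hx => key x hx, fun x hx => key x fun y => ?_⟩
  rw [QuadraticMap.polar_comm]
  exact hx y

/-- existence of vectors with prescribed pairings and norm -/
lemma exists_vec [Finite F] (hf : IsSymplecticForm f) (h2 : (2 : F) ≠ 0) (h : Cx f θ δ) (l : List (ι → F))
    (hl : 2 * l.length + 3 ≤ Fintype.card ι) (y : ι → F) (c : F) :
    ∃ x, f x (θ x) = c ∧ ∀ w ∈ l, f x w = f y w := by
  obtain ⟨x, hx, hxl⟩ := Ort.repV (qf_nondeg hf h2 h) (l.map fun w => δ⁻¹ • θ w)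
    (by rw [List.length_map, Module.finrank_fintype_fun_eq_card]; exact hl) y c
  refine ⟨x, hx, fun w hw => ?_⟩
  have h3 := hxl _ (List.mem_map.2 ⟨w, hw, rfl⟩)
  rw [polar_qf hf h, polar_qf hf h, map_smul, h.sq, smul_smul, inv_mul_cancel₀ h.ne0, one_smul] at h3
  exact mul_left_cancel₀ h2 h3

/-- a non-zero isotropic vector orthogonal to a list -/
lemma exists_iso_vec [Finite F] (hf : IsSymplecticForm f) (l : List (ι → F))
    (hl : l.length + 3 ≤ Fintype.card ι) : ∃ w, w ≠ 0 ∧ f w (θ w) = 0 ∧ ∀ v ∈ l, f w v = 0 := by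
  have h3 : 3 ≤ Module.finrank F (perp hf (Submodule.span F {x | x ∈ l})) := by
    rw [finrank_perp]
    have := finrank_span_list_le (K := F) l
    omega
  obtain ⟨w, hw, hw0, hwq⟩ := Ort.exists_sing_mem (qf hf θ) _ h3
  exact ⟨w, hw0, hwq, fun v hv => mem_perp'.1 hw v (Submodule.subset_span hv)⟩

end Cx

end Symp

end Cfsg.Agent.GeoMax
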