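import Cfsg.Agent.GeoMax.SpUMain

/-!
The normaliser of a quadratic extension field on which adjunction is non-trivial is maximal in the symplectic
group, `q` odd.
-/

set_option autoImplicit false
set_option linter.unusedSectionVars false

namespace Cfsg.Agent.GeoMax

open Matrix
open scoped MatrixGroups
open Cfsg.Geo

namespace Symp

variable {ι : Type} [Fintype ι] [DecidableEq ι] {F : Type*} [Field F]
variable {f : (ι → F) → (ι → F) → F}

/-- A two-dimensional subalgebra is spanned by `1` and any non-scalar element. -/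
lemma exists_eq_of_two {K : Subalgebra F (Matrix ι ι F)} (hK : Module.finrank F K = 2) {Θ : Matrix ι ι F} (hΘ : Θ ∈ K)
    (hns : ∀ c : F, Θ ≠ c • (1 : Matrix ι ι F)) {k : Matrix ι ι F} (hk : k ∈ K) :
    ∃ a b : F, k = a • (1 : Matrix ι ι F) + b • Θ := by
  have h1 : (1 : Matrix ι ι F) ∈ K := K.one_mem
  have hone : (1 : Matrix ι ι F) ≠ 0 := by
    intro h0
    exact hns 0 (by rw [zero_smul, ← mul_one Θ, h0, mul_zero])
  have hli : LinearIndependent F ![(⟨1, h1⟩ : K), ⟨Θ, hΘ⟩] := by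
    rw [LinearIndependent.pair_iff]
    intro s t hst
    have h3 : s • (1 : Matrix ι ι F) + t • Θ = 0 := congrArg Subtype.val hst
    by_cases ht : t = 0
    · refine ⟨?_, ht⟩
      rw [ht, zero_smul, add_zero] at h3
      exact (smul_eq_zero.1 h3).resolve_right hone
    · exfalso
      apply hns (-(t⁻¹ * s))
      have : Θ = t⁻¹ • (s • (1 : Matrix ι ι F) + t • Θ) - (t⁻¹ * s) • (1 : Matrix ι ι F) := by
        rw [smul_add, smul_smul, smul_smul, inv_mul_cancel₀ ht, one_smul]; abel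
      rw [this, h3, smul_zero, zero_sub, neg_smul]
  have hfd : FiniteDimensional F K := Module.finite_of_finrank_pos (by omega)
  have hspan := hli.span_eq_top_of_card_eq_finrank (by rw [hK]; simp)
  have hkm : (⟨k, hk⟩ : K) ∈ Submodule.span F (Set.range ![(⟨1, h1⟩ : K), ⟨Θ, hΘ⟩]) := by rw [hspan]; trivial
  rw [Matrix.range_cons_cons_empty, Submodule.mem_span_pair] at hkm
  obtain ⟨a, b, hab⟩ := hkm
  exact ⟨a, b, (congrArg Subtype.val hab).symm⟩

lemma exists_theta (hf : IsSymplecticForm f) (h2 : (2 : F) ≠ 0) {K : Subalgebra F (Matrix ι ι F)}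
    (hK : IsFieldSubalgebra 2 K) (hac : IsAdjointClosedFor f K) (hnsa : ¬ IsSelfAdjointFor f K) :
    ∃ (Θ : Matrix ι ι F) (δ : F), Θ ∈ K ∧ Cx f (Matrix.mulVecLin Θ) δ ∧
      (∀ k ∈ K, ∃ a b : F, k = a • (1 : Matrix ι ι F) + b • Θ) := by
  unfold IsSelfAdjointFor at hnsa
  push Not at hnsa
  obtain ⟨k, hk, u, v, huv⟩ := hnsa
  obtain ⟨k', hk', hadj⟩ := hac k hk
  have hadj' : ∀ u v, f (k' *ᵥ u) v = f u (k *ᵥ v) := by
    intro u v
    rw [Symp.skew hf, ← hadj, ← Symp.skew hf]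
  have hskew : ∀ x y, f ((k - k') *ᵥ x) y = - f x ((k - k') *ᵥ y) := by
    intro x y
    rw [Matrix.sub_mulVec, Matrix.sub_mulVec, sub_left hf, sub_right hf, hadj, hadj']
    ring
  have hΘ : k - k' ∈ K := K.sub_mem hk hk'
  have hΘ0 : k - k' ≠ 0 := by
    intro h0
    apply huv
    have := hadj u v
    rwa [← sub_eq_zero.1 h0] at this
  have hns : ∀ c : F, k - k' ≠ c • (1 : Matrix ι ι F) := by
    intro c hc
    have h3 : ∀ x y, (2 * c) * f x y = 0 := by
      intro x y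
      have := hskew x y
      rw [hc, Matrix.smul_mulVec, Matrix.smul_mulVec, Matrix.one_mulVec, Matrix.one_mulVec, smul_left hf,
        smul_right hf] at this
      linear_combination this
    have hc0 : c = 0 := by
      by_contra hne
      have : ∀ x y, f x y = 0 := fun x y => (mul_eq_zero.1 (h3 x y)).resolve_left (mul_ne_zero h2 hne)
      apply huv
      rw [this, this]
    apply hΘ0
    rw [hc, hc0, zero_smul]
  have hspan := fun k hk => exists_eq_of_two hK.finrank_eq hΘ hns (k := k) hk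
  set Θ := k - k' with hΘdef
  clear_value Θ
  obtain ⟨a, b, hab⟩ := hspan (Θ * Θ) (K.mul_mem hΘ hΘ)
  -- `b = 0`
  have hsq : ∀ x y, f ((Θ * Θ) *ᵥ x) y = f x ((Θ * Θ) *ᵥ y) := by
    intro x y
    rw [← Matrix.mulVec_mulVec, ← Matrix.mulVec_mulVec, hskew, hskew, neg_neg]
  have hb : b = 0 := by
    by_contra hne
    have h3 : ∀ x y, f (Θ *ᵥ x) y = 0 := by
      intro x y
      have h4 := hsq x y
      rw [hab, Matrix.add_mulVec, Matrix.add_mulVec, Matrix.smul_mulVec, Matrix.smul_mulVec, Matrix.smul_mulVec,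
        Matrix.smul_mulVec, Matrix.one_mulVec, Matrix.one_mulVec, add_left hf, add_right hf, smul_left hf, smul_left hf,
        smul_right hf, smul_right hf, ← neg_eq_iff_eq_neg.2 (hskew x y)] at h4
      have h5 : (2 * b) * f (Θ *ᵥ x) y = 0 := by linear_combination h4
      exact (mul_eq_zero.1 h5).resolve_left (mul_ne_zero h2 hne)
    apply hΘ0
    apply Matrix.ext_of_mulVec_single
    intro i
    rw [Matrix.zero_mulVec]
    exact eq_zero_of_forall hf fun y => h3 _ y
  rw [hb, zero_smul, add_zero] at hab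
  refine ⟨Θ, a, hΘ, ⟨fun x y => hskew x y, fun x => ?_, fun e he => ?_⟩, hspan⟩
  · rw [Matrix.mulVecLin_apply, Matrix.mulVecLin_apply, Matrix.mulVec_mulVec, hab, Matrix.smul_mulVec, Matrix.one_mulVec]
  · -- `(Θ - e)(Θ + e) = 0`
    have h3 : (Θ - e • (1 : Matrix ι ι F)) * (Θ + e • (1 : Matrix ι ι F)) = 0 := by
      rw [sub_mul, mul_add, mul_add, hab, Matrix.smul_mul, Matrix.smul_mul, Matrix.mul_smul, Matrix.mul_smul,
        Matrix.one_mul, Matrix.mul_one, Matrix.mul_one, smul_smul, he]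
      abel
    have h4 : Θ - e • (1 : Matrix ι ι F) ∈ K := K.sub_mem hΘ (K.smul_mem K.one_mem e)
    obtain ⟨y, hy, hy1⟩ := hK.inv _ h4 (sub_ne_zero.2 (hns e))
    have h5 : Θ + e • (1 : Matrix ι ι F) = 0 := by
      have h6 := hK.comm _ h4 y hy
      calc Θ + e • (1 : Matrix ι ι F) = (y * (Θ - e • (1 : Matrix ι ι F))) * (Θ + e • (1 : Matrix ι ι F)) := by
            rw [← h6, hy1, Matrix.one_mul]
        _ = 0 := by rw [Matrix.mul_assoc, h3, Matrix.mul_zero]
    apply hns (-e)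
    rw [neg_smul]; exact eq_neg_of_add_eq_zero_left h5

/-- elements commuting with `Θ` normalise `K` -/
lemma mem_norm_of_comm {K : Subalgebra F (Matrix ι ι F)} {Θ : Matrix ι ι F}
    (hsp : ∀ k ∈ K, ∃ a b : F, k = a • (1 : Matrix ι ι F) + b • Θ) {g : GL ι F}
    (hg : (g : Matrix ι ι F) * Θ = Θ * (g : Matrix ι ι F)) : g ∈ subalgebraNormalizer K := by
  have hc : ∀ k ∈ K, (g : Matrix ι ι F) * k = k * (g : Matrix ι ι F) := by
    intro k hk
    obtain ⟨a, b, rfl⟩ := hsp k hk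
    rw [Matrix.mul_add, Matrix.add_mul, Matrix.mul_smul, Matrix.mul_smul, Matrix.smul_mul, Matrix.smul_mul, hg,
      Matrix.mul_one, Matrix.one_mul]
  have hgi : (g : Matrix ι ι F) * ((g⁻¹ : GL ι F) : Matrix ι ι F) = 1 := by
    rw [← Units.val_mul, mul_inv_cancel, Units.val_one]
  have hig : ((g⁻¹ : GL ι F) : Matrix ι ι F) * (g : Matrix ι ι F) = 1 := by
    rw [← Units.val_mul, inv_mul_cancel, Units.val_one]
  intro k
  constructor
  · intro hk
    rw [hc k hk, Matrix.mul_assoc, hgi, Matrix.mul_one]; exact hk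
  · intro hk
    have h1 := hc _ hk
    have h0 : ((g : Matrix ι ι F) * k * ((g⁻¹ : GL ι F) : Matrix ι ι F)) * (g : Matrix ι ι F) = (g : Matrix ι ι F) * k := by
      rw [Matrix.mul_assoc, hig, Matrix.mul_one]
    rw [h0] at h1
    have h2 : k = (g : Matrix ι ι F) * k * ((g⁻¹ : GL ι F) : Matrix ι ι F) := by
      calc k = ((g⁻¹ : GL ι F) : Matrix ι ι F) * ((g : Matrix ι ι F) * k) := by
            rw [← Matrix.mul_assoc, hig, Matrix.one_mul]
        _ = ((g⁻¹ : GL ι F) : Matrix ι ι F) * ((g : Matrix ι ι F) * ((g : Matrix ι ι F) * k * ((g⁻¹ : GL ι F) : Matrix ι ι F))) := by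
            rw [h1]
        _ = _ := by rw [← Matrix.mul_assoc, hig, Matrix.one_mul]
    rw [h2]; exact hk

/-- `g Θ g⁻¹ = a + b Θ` with `b ≠ 0` implies `g` normalises `K` -/
lemma mem_norm_of_conj {K : Subalgebra F (Matrix ι ι F)} {Θ : Matrix ι ι F} (hΘ : Θ ∈ K)
    (hsp : ∀ k ∈ K, ∃ a b : F, k = a • (1 : Matrix ι ι F) + b • Θ) {g : GL ι F} {a b : F} (hb : b ≠ 0)
    (hg : (g : Matrix ι ι F) * Θ * ((g⁻¹ : GL ι F) : Matrix ι ι F) = a • (1 : Matrix ι ι F) + b • Θ) :
    g ∈ subalgebraNormalizer K := by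
  have hgi : (g : Matrix ι ι F) * ((g⁻¹ : GL ι F) : Matrix ι ι F) = 1 := by
    rw [← Units.val_mul, mul_inv_cancel, Units.val_one]
  have hig : ((g⁻¹ : GL ι F) : Matrix ι ι F) * (g : Matrix ι ι F) = 1 := by
    rw [← Units.val_mul, inv_mul_cancel, Units.val_one]
  have hfor : ∀ k ∈ K, (g : Matrix ι ι F) * k * ((g⁻¹ : GL ι F) : Matrix ι ι F) ∈ K := by
    intro k hk
    obtain ⟨s, t, rfl⟩ := hsp k hk
    have : (g : Matrix ι ι F) * (s • (1 : Matrix ι ι F) + t • Θ) * ((g⁻¹ : GL ι F) : Matrix ι ι F) =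
        s • (1 : Matrix ι ι F) + t • ((g : Matrix ι ι F) * Θ * ((g⁻¹ : GL ι F) : Matrix ι ι F)) := by
      rw [Matrix.mul_add, Matrix.add_mul, Matrix.mul_smul, Matrix.mul_smul, Matrix.smul_mul, Matrix.smul_mul,
        Matrix.mul_one, hgi]
    rw [this, hg]
    exact K.add_mem (K.smul_mem K.one_mem _) (K.smul_mem (K.add_mem (K.smul_mem K.one_mem _) (K.smul_mem hΘ _)) _)
  -- inverse direction
  have hΘ' : ((g⁻¹ : GL ι F) : Matrix ι ι F) * Θ * (g : Matrix ι ι F) = b⁻¹ • (Θ - a • (1 : Matrix ι ι F)) := by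
    have h1 : Θ = a • (1 : Matrix ι ι F) + b • (((g⁻¹ : GL ι F) : Matrix ι ι F) * Θ * (g : Matrix ι ι F)) := by
      have h3 := congrArg (fun z => ((g⁻¹ : GL ι F) : Matrix ι ι F) * z * (g : Matrix ι ι F)) hg
      rw [Matrix.mul_add, Matrix.add_mul, Matrix.mul_smul, Matrix.mul_smul, Matrix.smul_mul, Matrix.smul_mul,
        Matrix.mul_one, hig, ← Matrix.mul_assoc, ← Matrix.mul_assoc, hig, Matrix.one_mul, Matrix.mul_assoc, hig,
        Matrix.mul_one] at h3
      exact h3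
    have h4 : Θ - a • (1 : Matrix ι ι F) = b • (((g⁻¹ : GL ι F) : Matrix ι ι F) * Θ * (g : Matrix ι ι F)) := by
      nth_rewrite 1 [h1]; abel
    rw [h4, smul_smul, inv_mul_cancel₀ hb, one_smul]
  have hback : ∀ k ∈ K, ((g⁻¹ : GL ι F) : Matrix ι ι F) * k * (g : Matrix ι ι F) ∈ K := by
    intro k hk
    obtain ⟨s, t, rfl⟩ := hsp k hk
    have : ((g⁻¹ : GL ι F) : Matrix ι ι F) * (s • (1 : Matrix ι ι F) + t • Θ) * (g : Matrix ι ι F) =
        s • (1 : Matrix ι ι F) + t • (((g⁻¹ : GL ι F) : Matrix ι ι F) * Θ * (g : Matrix ι ι F)) := by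
      rw [Matrix.mul_add, Matrix.add_mul, Matrix.mul_smul, Matrix.mul_smul, Matrix.smul_mul, Matrix.smul_mul,
        Matrix.mul_one, hig]
    rw [this, hΘ']
    exact K.add_mem (K.smul_mem K.one_mem _) (K.smul_mem (K.smul_mem (K.sub_mem hΘ (K.smul_mem K.one_mem _)) _) _)
  intro k
  refine ⟨hfor k, fun hk => ?_⟩
  have h1 := hback _ hk
  have h2 : ((g⁻¹ : GL ι F) : Matrix ι ι F) * ((g : Matrix ι ι F) * k * ((g⁻¹ : GL ι F) : Matrix ι ι F)) *
      (g : Matrix ι ι F) = k := by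
    rw [← Matrix.mul_assoc, ← Matrix.mul_assoc, hig, Matrix.one_mul, Matrix.mul_assoc, hig, Matrix.mul_one]
  rwa [h2] at h1

/-- **Maximality of `GU_m(q)` type subgroups of `Sp_2m(q)`**, `q` odd. -/
theorem unitary_maximal [Finite F] (hf : IsSymplecticForm f) (h2 : (2 : F) ≠ 0) (hι : 9 ≤ Fintype.card ι)
    (K : Subalgebra F (Matrix ι ι F)) (hK : IsFieldSubalgebra 2 K) (hac : IsAdjointClosedFor f K)
    (hnsa : ¬ IsSelfAdjointFor f K) : IsMaximalIn (isoGL f) (subalgebraNormalizer K ⊓ isoGL f) := by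
  obtain ⟨Θ, δ, hΘ, h, hsp⟩ := exists_theta hf h2 hK hac hnsa
  have hex : ∀ v : ι → F, ∃ w, w ∉ Cx.line (Matrix.mulVecLin Θ) v := by
    intro v
    by_contra hcon
    push Not at hcon
    have h3 : Cx.line (Matrix.mulVecLin Θ) v = ⊤ := by
      rw [eq_top_iff]; intro w _; exact hcon w
    have h4 : Module.finrank F (Cx.line (Matrix.mulVecLin Θ) v) ≤ 2 := by
      have := finrank_span_list_le (K := F) [v, Matrix.mulVecLin Θ v]
      have e : ({x | x ∈ [v, Matrix.mulVecLin Θ v]} : Set (ι → F)) = {v, Matrix.mulVecLin Θ v} := by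
        ext x; simp
      rw [e] at this
      exact this
    rw [h3, finrank_top, Module.finrank_fintype_fun_eq_card] at h4
    omega
  constructor
  · refine lt_of_le_of_ne inf_le_right ?_
    intro heq
    -- a transvection normalising `K`
    obtain ⟨v, hv0⟩ : ∃ v : ι → F, v ≠ 0 := by
      obtain ⟨w, hw⟩ := hex 0
      exact ⟨w, by rintro rfl; exact hw (Submodule.zero_mem _)⟩
    have ht : tr hf v 1 ∈ subalgebraNormalizer K ⊓ isoGL f := by rw [heq]; exact tr_mem_iso hf _ 1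
    obtain ⟨a, b, hab⟩ := hsp _ ((ht.1 Θ).1 hΘ)
    -- the action on vectors
    have hact : ∀ x, a • ((tr hf v 1 : Matrix ι ι F) *ᵥ x) + b • (Θ *ᵥ ((tr hf v 1 : Matrix ι ι F) *ᵥ x)) =
        (tr hf v 1 : Matrix ι ι F) *ᵥ (Θ *ᵥ x) := by
      intro x
      have h3 := congrArg (fun A : Matrix ι ι F => A *ᵥ ((tr hf v 1 : Matrix ι ι F) *ᵥ x)) hab
      rw [Matrix.add_mulVec, Matrix.smul_mulVec, Matrix.smul_mulVec, Matrix.one_mulVec, ← Matrix.mulVec_mulVec,
        ← Matrix.mulVec_mulVec, gl_inv_mulVec] at h3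
      exact h3.symm
    simp only [tr_mulVec, one_mul, Matrix.mulVec_add, Matrix.mulVec_smul] at hact
    obtain ⟨x, -, hx0, hxl⟩ := exists_perp_two hf (Y := ⊤) [v, Θ *ᵥ v] (by
      rw [finrank_top, Module.finrank_fintype_fun_eq_card]; simp; omega)
    have hx1 : f x v = 0 := hxl v (by simp)
    have hx2 : f (Θ *ᵥ x) v = 0 := by
      have := h.skew x v
      rw [Matrix.mulVecLin_apply, Matrix.mulVecLin_apply] at this
      rw [this, hxl _ (by simp), neg_zero]
    have h3 := hact x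
    simp only [hx1, hx2, zero_smul, add_zero] at h3
    have h4 := h.indep hx0 (s := a) (t := b - 1) (by rw [Matrix.mulVecLin_apply, sub_smul, ← add_sub_assoc, h3]; simp)
    obtain ⟨z, hz⟩ := exists_ne_zero hf hv0
    have hz' : f z v ≠ 0 := by rw [Symp.skew hf]; exact neg_ne_zero.2 hz
    have h5 := hact z
    have hb1 : b = 1 := by linear_combination h4.2
    rw [h4.1, hb1, zero_smul, zero_add, one_smul] at h5
    have h6 := h.indep hv0 (s := - f (Θ *ᵥ z) v) (t := f z v) (by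
      rw [Matrix.mulVecLin_apply]
      have : f z v • Θ *ᵥ v = f (Θ *ᵥ z) v • v := add_left_cancel h5
      rw [this]; module)
    exact hz' h6.2
  · intro M hHM hMI
    by_cases hMH : M = subalgebraNormalizer K ⊓ isoGL f
    · exact Or.inl hMH
    right
    refine le_antisymm hMI ?_
    have hM : ∀ g ∈ isoGL f, (∀ x, (g : Matrix ι ι F) *ᵥ (Matrix.mulVecLin Θ x) =
        Matrix.mulVecLin Θ ((g : Matrix ι ι F) *ᵥ x)) → g ∈ M := by
      intro g hg hc
      refine hHM ⟨mem_norm_of_comm hsp ?_, hg⟩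
      apply Matrix.ext_of_mulVec_single
      intro i
      rw [← Matrix.mulVec_mulVec, ← Matrix.mulVec_mulVec]
      exact hc _
    obtain ⟨g, hgM, hg⟩ : ∃ g ∈ M, g ∉ subalgebraNormalizer K := by
      by_contra hcon
      push Not at hcon
      exact hMH (le_antisymm (fun g hg => ⟨hcon g hg, hMI hg⟩) hHM)
    have hgI := hMI hgM
    -- the conjugate structure
    let Θ' : Matrix ι ι F := (g : Matrix ι ι F) * Θ * ((g⁻¹ : GL ι F) : Matrix ι ι F)
    have hΘ' : ∀ x, Θ' *ᵥ x = (g : Matrix ι ι F) *ᵥ (Θ *ᵥ (((g⁻¹ : GL ι F) : Matrix ι ι F) *ᵥ x)) := by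
      intro x
      rw [Matrix.mulVec_mulVec, Matrix.mulVec_mulVec]
    have hginv : ∀ x y, f (((g⁻¹ : GL ι F) : Matrix ι ι F) *ᵥ x) y = f x ((g : Matrix ι ι F) *ᵥ y) := by
      intro x y
      have := mem_isoGL.1 hgI (((g⁻¹ : GL ι F) : Matrix ι ι F) *ᵥ x) y
      rw [gl_mulVec_inv] at this
      exact this.symm
    have hginv' : ∀ x y, f x (((g⁻¹ : GL ι F) : Matrix ι ι F) *ᵥ y) = f ((g : Matrix ι ι F) *ᵥ x) y := by
      intro x y
      rw [Symp.skew hf, hginv, ← Symp.skew hf]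
    have h' : Cx f (Matrix.mulVecLin Θ') δ := by
      refine ⟨fun x y => ?_, fun x => ?_, h.ns⟩
      · rw [Matrix.mulVecLin_apply, Matrix.mulVecLin_apply, hΘ', hΘ', ← hginv]
        have h3 := h.skew (((g⁻¹ : GL ι F) : Matrix ι ι F) *ᵥ x) (((g⁻¹ : GL ι F) : Matrix ι ι F) *ᵥ y)
        rw [Matrix.mulVecLin_apply, Matrix.mulVecLin_apply] at h3
        rw [← h3, hginv']
      · rw [Matrix.mulVecLin_apply, Matrix.mulVecLin_apply, hΘ', hΘ', gl_inv_mulVec]
        have h3 := h.sq (((g⁻¹ : GL ι F) : Matrix ι ι F) *ᵥ x)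
        rw [Matrix.mulVecLin_apply, Matrix.mulVecLin_apply] at h3
        rw [h3, Matrix.mulVec_smul, gl_mulVec_inv]
    refine Cx.iso_le_of_two hf h2 h h' hι hMI hM ?_ ?_
    · intro k hk hkc
      -- conjugate back
      have h3 : g⁻¹ * k * g ∈ M := by
        refine hM _ ((isoGL f).mul_mem ((isoGL f).mul_mem ((isoGL f).inv_mem hgI) hk) hgI) fun x => ?_
        have h4 := hkc ((g : Matrix ι ι F) *ᵥ x)
        rw [Matrix.mulVecLin_apply, Matrix.mulVecLin_apply, hΘ', hΘ', gl_inv_mulVec] at h4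
        rw [gl_mul_mulVec, gl_mul_mulVec, gl_mul_mulVec, gl_mul_mulVec, Matrix.mulVecLin_apply, Matrix.mulVecLin_apply,
          h4, gl_inv_mulVec]
      have h4 := M.mul_mem (M.mul_mem hgM h3) (M.inv_mem hgM)
      have h5 : g * (g⁻¹ * k * g) * g⁻¹ = k := by group
      rwa [h5] at h4
    · by_contra hcon
      push Not at hcon
      obtain ⟨a, b, hab⟩ := Cx.exists_eq_of_NN h hex hcon
      obtain ⟨v, hv0⟩ : ∃ v : ι → F, v ≠ 0 := by
        obtain ⟨w, hw⟩ := hex 0
        exact ⟨w, by rintro rfl; exact hw (Submodule.zero_mem _)⟩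
      have hb : b ≠ 0 := by
        rintro rfl
        have h3 := h'.sq v
        rw [hab v, zero_smul, add_zero, map_smul, hab v, zero_smul, add_zero, smul_smul] at h3
        have h4 : (a * a - δ) • v = 0 := by rw [sub_smul, h3, sub_self]
        rcases smul_eq_zero.1 h4 with h5 | h5
        · exact h.ns a (by linear_combination h5)
        · exact hv0 h5
      apply hg
      refine mem_norm_of_conj hΘ hsp (a := a) (b := b) hb ?_
      apply Matrix.ext_of_mulVec_single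
      intro i
      have h3 := hab (Pi.single i 1)
      rw [Matrix.mulVecLin_apply, Matrix.mulVecLin_apply] at h3
      rw [Matrix.add_mulVec, Matrix.smul_mulVec, Matrix.smul_mulVec, Matrix.one_mulVec]
      exact h3

end Symp

end Cfsg.Agent.GeoMax
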