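import Cfsg.Agent.GeoMax.SpU

/-!
`GU_m(q)` in `Sp_2m(q)`, `q` odd: main argument.
-/

set_option autoImplicit false
set_option linter.unusedSectionVars false

namespace Cfsg.Agent.GeoMax

open Matrix
open scoped MatrixGroups
open Cfsg.Geo

namespace Symp

variable {ι : Type} [Fintype ι] [DecidableEq ι] {F : Type*} [Field F]
variable {f : (ι → F) → (ι → F) → F}

/-- additivity: squares generate everything in odd characteristic -/
lemma TS_of_sq (hf : IsSymplecticForm f) (h2 : (2 : F) ≠ 0) {M : Subgroup (GL ι F)} {x : ι → F} {d : F} (hd : d ≠ 0)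
    (hsq : ∀ e : F, tr hf x (e * e * d) ∈ M) : TS hf M x := by
  intro c
  have h5 := M.mul_mem (hsq ((c / d + 1) / 2)) (M.inv_mem (hsq ((c / d - 1) / 2)))
  have h6 : tr hf x c * tr hf x ((c / d - 1) / 2 * ((c / d - 1) / 2) * d) =
      tr hf x ((c / d + 1) / 2 * ((c / d + 1) / 2) * d) := by
    apply gl_ext
    intro z
    have h4 : (c / d + 1) / 2 * ((c / d + 1) / 2) * d = c + (c / d - 1) / 2 * ((c / d - 1) / 2) * d := by
      field_simp; ring
    rw [gl_mul_mulVec, tr_mulVec, tr_mulVec, tr_mulVec, add_left hf, smul_left hf, self hf, h4]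
    module
  rwa [← h6, mul_inv_cancel_right] at h5

/-- two prescribed values -/
lemma exists_two_values (hf : IsSymplecticForm f) {a b : ι → F} (hb : b ∉ Submodule.span F {a})
    (ha : a ∉ Submodule.span F {b}) (s t : F) : ∃ y, f y a = s ∧ f y b = t := by
  obtain ⟨z1, h1, h1'⟩ := exists_perp_ne hf hb
  obtain ⟨z2, h2, h2'⟩ := exists_perp_ne hf ha
  have e1 := f_symm0 hf (h1 a (Submodule.mem_span_singleton_self a))
  have e2 := f_symm0 hf (h2 b (Submodule.mem_span_singleton_self b))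
  have e3 : f z1 b ≠ 0 := by rw [skew hf]; exact neg_ne_zero.2 h1'
  have e4 : f z2 a ≠ 0 := by rw [skew hf]; exact neg_ne_zero.2 h2'
  refine ⟨(s / f z2 a) • z2 + (t / f z1 b) • z1, ?_, ?_⟩
  · rw [add_left hf, smul_left hf, smul_left hf, e1, mul_zero, add_zero, div_mul_cancel₀ _ e4]
  · rw [add_left hf, smul_left hf, smul_left hf, e2, mul_zero, zero_add, div_mul_cancel₀ _ e3]

namespace Cx
variable {θ : (ι → F) →ₗ[F] (ι → F)} {δ : F}

lemma f_theta_symm (hf : IsSymplecticForm f) (h : Cx f θ δ) (x y : ι → F) : f x (θ y) = f y (θ x) := by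
  rw [Symp.skew hf y, h.skew, neg_neg]

lemma f_theta_theta (h : Cx f θ δ) (hf : IsSymplecticForm f) (x y : ι → F) : f (θ x) (θ y) = -(δ * f x y) := by
  rw [h.skew, h.sq, smul_right hf]

/-- quasi-reflections -/
lemma exists_qr (hf : IsSymplecticForm f) (h : Cx f θ δ) (w : ι → F) (α β : F)
    (hc : 2 * α = f w (θ w) * (α * α - δ * (β * β))) :
    ∃ g ∈ isoGL f, (∀ x, (g : Matrix ι ι F) *ᵥ (θ x) = θ ((g : Matrix ι ι F) *ᵥ x)) ∧
      ∀ y, (g : Matrix ι ι F) *ᵥ y = y - (α * f y (θ w) - δ * β * f y w) • w - (β * f y (θ w) - α * f y w) • θ w := by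
  let L : (ι → F) →ₗ[F] (ι → F) := LinearMap.id
    - (α • (toBilin hf).flip (θ w) - (δ * β) • (toBilin hf).flip w).smulRight w
    - (β • (toBilin hf).flip (θ w) - α • (toBilin hf).flip w).smulRight (θ w)
  have hL : ∀ y, L y = y - (α * f y (θ w) - δ * β * f y w) • w - (β * f y (θ w) - α * f y w) • θ w := fun y => rfl
  have hww : f (θ w) w = - f w (θ w) := h.skew w w
  obtain ⟨g, hg, hgL⟩ := exists_iso hf L (by
    intro x y
    rw [hL, hL]
    simp only [sub_left hf, sub_right hf, smul_left hf, smul_right hf, self hf]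
    rw [Symp.skew hf w y, Symp.skew hf (θ w) y, hww]
    linear_combination (f x (θ w) * f y w - f y (θ w) * f x w) * hc)
  refine ⟨g, hg, fun x => ?_, fun y => by rw [hgL, hL]⟩
  rw [hgL, hgL, hL, hL, map_sub, map_sub, map_smul, map_smul, h.sq, h.f_theta_theta hf, h.skew x w]
  module

/-- moving a vector to another one of the same norm -/
lemma exists_move (hf : IsSymplecticForm f) (h : Cx f θ δ) {x x' : ι → F} (hq : f x (θ x) = f x' (θ x'))
    (hne : f x x' ≠ 0) :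
    ∃ g ∈ isoGL f, (∀ x, (g : Matrix ι ι F) *ᵥ (θ x) = θ ((g : Matrix ι ι F) *ᵥ x)) ∧ (g : Matrix ι ι F) *ᵥ x = x' := by
  set w := x - x' with hw
  have hxw : f x w = - f x x' := by rw [hw, sub_right hf, self hf, zero_sub]
  have hxw0 : f x w ≠ 0 := by rw [hxw]; exact neg_ne_zero.2 hne
  have hN := h.norm_ne (s := f x (θ w)) (t := f x w) (Or.inr hxw0)
  set N := f x (θ w) * f x (θ w) - δ * (f x w * f x w) with hNdef
  have hxw2 : 2 * f x (θ w) = f w (θ w) := by
    have e1 : f x (θ w) = f x (θ x) - f x (θ x') := by rw [hw, map_sub, sub_right hf]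
    have e2 : f w (θ w) = f x (θ x) - f x (θ x') - (f x' (θ x) - f x' (θ x')) := by
      rw [hw, map_sub, sub_left hf, sub_right hf, sub_right hf]
    rw [e1, e2, h.f_theta_symm hf x' x, ← hq]; ring
  obtain ⟨g, hg, hgθ, hgm⟩ := h.exists_qr hf w (f x (θ w) / N) (f x w / N) (by
    rw [← hxw2]; field_simp
    linear_combination (2 * f x (θ w)) * hNdef)
  refine ⟨g, hg, hgθ, ?_⟩
  rw [hgm]
  have e1 : f x (θ w) / N * f x (θ w) - δ * (f x w / N) * f x w = 1 := by
    have : f x (θ w) / N * f x (θ w) - δ * (f x w / N) * f x w =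
        (f x (θ w) * f x (θ w) - δ * (f x w * f x w)) / N := by ring
    rw [this, ← hNdef]; exact div_self hN
  have e2 : f x w / N * f x (θ w) - f x (θ w) / N * f x w = 0 := by ring
  rw [e1, e2, one_smul, zero_smul, sub_zero, hw]; abel

/-- transitivity on vectors of the same norm -/
lemma exists_move' [Finite F] (hf : IsSymplecticForm f) (h2 : (2 : F) ≠ 0) (h : Cx f θ δ) (hι : 7 ≤ Fintype.card ι)
    {x x' : ι → F} (hq : f x (θ x) = f x' (θ x')) (hx : x ≠ 0) (hx' : x' ≠ 0) :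
    ∃ g ∈ isoGL f, (∀ x, (g : Matrix ι ι F) *ᵥ (θ x) = θ ((g : Matrix ι ι F) *ᵥ x)) ∧ (g : Matrix ι ι F) *ᵥ x = x' := by
  obtain ⟨z, hz, hz'⟩ := exists_common hf hx hx'
  obtain ⟨y, hy, hyl⟩ := h.exists_vec hf h2 [x, x'] (by simpa using hι) z (f x (θ x))
  have h3 : f x y ≠ 0 := by
    rw [Symp.skew hf, hyl x (by simp), ← Symp.skew hf]; exact hz
  have h4 : f y x' ≠ 0 := by
    rw [hyl x' (by simp), Symp.skew hf]; exact neg_ne_zero.2 hz'
  obtain ⟨g, hg, hgθ, hgx⟩ := h.exists_move hf hy.symm h3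
  obtain ⟨g', hg', hgθ', hgx'⟩ := h.exists_move hf (hy.trans hq) h4
  refine ⟨g' * g, (isoGL f).mul_mem hg' hg, fun v => ?_, ?_⟩
  · rw [gl_mul_mulVec, gl_mul_mulVec, hgθ, hgθ']
  · rw [gl_mul_mulVec, hgx, hgx']

/-- Eichler type elements -/
lemma exists_E (hf : IsSymplecticForm f) (h : Cx f θ δ) {w₁ w₂ : ι → F} (h1 : f w₁ (θ w₁) = 0) (h2 : f w₂ (θ w₂) = 0)
    (h3 : f w₁ w₂ = 0) (h4 : f w₁ (θ w₂) = 0) :
    ∃ g ∈ isoGL f, (∀ x, (g : Matrix ι ι F) *ᵥ (θ x) = θ ((g : Matrix ι ι F) *ᵥ x)) ∧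
      ∀ y, (g : Matrix ι ι F) *ᵥ y = y + f y w₁ • w₂ + f y w₂ • w₁ -
        δ⁻¹ • (f y (θ w₁) • θ w₂ + f y (θ w₂) • θ w₁) := by
  let L : (ι → F) →ₗ[F] (ι → F) := LinearMap.id
    + ((toBilin hf).flip w₁).smulRight w₂ + ((toBilin hf).flip w₂).smulRight w₁
    - δ⁻¹ • (((toBilin hf).flip (θ w₁)).smulRight (θ w₂) + ((toBilin hf).flip (θ w₂)).smulRight (θ w₁))
  have hL : ∀ y, L y = y + f y w₁ • w₂ + f y w₂ • w₁ -
        δ⁻¹ • (f y (θ w₁) • θ w₂ + f y (θ w₂) • θ w₁) := fun y => rfl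
  have e1 : f (θ w₁) w₁ = 0 := f_symm0 hf h1
  have e2 : f (θ w₂) w₂ = 0 := f_symm0 hf h2
  have e3 : f w₂ w₁ = 0 := f_symm0 hf h3
  have e4 : f w₂ (θ w₁) = 0 := by rw [h.f_theta_symm hf]; exact h4
  have e5 : f (θ w₁) w₂ = 0 := f_symm0 hf e4
  have e6 : f (θ w₂) w₁ = 0 := f_symm0 hf h4
  have e7 : f (θ w₁) (θ w₂) = 0 := by rw [h.f_theta_theta hf, h3, mul_zero, neg_zero]
  have e8 : f (θ w₂) (θ w₁) = 0 := f_symm0 hf e7
  obtain ⟨g, hg, hgL⟩ := exists_iso hf L (by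
    intro x y
    rw [hL, hL]
    simp only [sub_left hf, sub_right hf, smul_left hf, smul_right hf, self hf, add_left hf, add_right hf,
      h1, h2, h3, h4, e1, e2, e3, e4, e5, e6, e7, e8]
    rw [Symp.skew hf w₁ y, Symp.skew hf w₂ y, Symp.skew hf (θ w₁) y, Symp.skew hf (θ w₂) y]
    ring)
  refine ⟨g, hg, fun x => ?_, fun y => by rw [hgL, hL]⟩
  have hd := h.ne0
  have k1 : δ⁻¹ * (-(δ * f x w₁)) = - f x w₁ := by field_simp
  have k2 : δ⁻¹ * (-(δ * f x w₂)) = - f x w₂ := by field_simp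
  have k3 : δ⁻¹ * f x (θ w₁) * δ = f x (θ w₁) := by field_simp
  have k4 : δ⁻¹ * f x (θ w₂) * δ = f x (θ w₂) := by field_simp
  rw [hgL, hgL, hL, hL, map_sub, map_add, map_add, map_smul, map_smul, map_smul, map_add, map_smul, map_smul,
    h.sq, h.sq, h.f_theta_theta hf, h.f_theta_theta hf, h.skew x w₁, h.skew x w₂, smul_add, smul_add, smul_smul,
    smul_smul, smul_smul, smul_smul, smul_smul, smul_smul, k1, k2, k3, k4]
  module

/-- **key step**: a transvection in a group containing the centralisers of `θ` and `θ'` -/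
theorem exists_tr [Finite F] (hf : IsSymplecticForm f) (h2 : (2 : F) ≠ 0) (h : Cx f θ δ) {θ' : (ι → F) →ₗ[F] (ι → F)}
    (h' : Cx f θ' δ) (hι : 9 ≤ Fintype.card ι) {M : Subgroup (GL ι F)}
    (hM : ∀ g ∈ isoGL f, (∀ x, (g : Matrix ι ι F) *ᵥ (θ x) = θ ((g : Matrix ι ι F) *ᵥ x)) → g ∈ M)
    (hM' : ∀ g ∈ isoGL f, (∀ x, (g : Matrix ι ι F) *ᵥ (θ' x) = θ' ((g : Matrix ι ι F) *ᵥ x)) → g ∈ M)
    {v : ι → F} (hD : f v (θ' v) ≠ 0) (hv : θ' v ∉ line θ v) : ∃ z d, z ≠ 0 ∧ d ≠ 0 ∧ tr hf z d ∈ M := by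
  set u := θ' v with hu
  obtain ⟨z₀, hz₀, huz₀⟩ := exists_perp_ne hf hv
  obtain ⟨w₁, hw₁, hw₁l⟩ := h.exists_vec hf h2 [v, θ v, u] (by simpa using hι) z₀ 0
  have a1 : f w₁ v = 0 := by rw [hw₁l v (by simp)]; exact f_symm0 hf (hz₀ v (self_mem v))
  have a2 : f w₁ (θ v) = 0 := by rw [hw₁l _ (by simp)]; exact f_symm0 hf (hz₀ _ (theta_self_mem v))
  have a3 : f u w₁ ≠ 0 := by rw [Symp.skew hf, hw₁l u (by simp), ← Symp.skew hf]; exact huz₀
  obtain ⟨w₂, hw₂0, hw₂, hw₂l⟩ := exists_iso_vec (θ := θ) hf [v, θ v, u, θ u, w₁, θ w₁] (by simpa using hι)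
  have b1 : f w₂ v = 0 := hw₂l v (by simp)
  have b2 : f w₂ (θ v) = 0 := hw₂l _ (by simp)
  have b3 : f w₂ u = 0 := hw₂l u (by simp)
  have b4 : f w₂ (θ u) = 0 := hw₂l _ (by simp)
  have b5 : f w₂ w₁ = 0 := hw₂l _ (by simp)
  have b6 : f w₂ (θ w₁) = 0 := hw₂l _ (by simp)
  obtain ⟨g, hg, hgθ, hgm⟩ := h.exists_E hf hw₁ hw₂ (f_symm0 hf b5) (by rw [h.f_theta_symm hf]; exact b6)
  have hgM := hM g hg hgθ
  have c1 : f v (θ w₁) = 0 := by rw [h.f_theta_symm hf]; exact a2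
  have c2 : f v (θ w₂) = 0 := by rw [h.f_theta_symm hf]; exact b2
  have c3 : f u (θ w₂) = 0 := by rw [h.f_theta_symm hf]; exact b4
  have hgv : (g : Matrix ι ι F) *ᵥ v = v := by
    rw [hgm, f_symm0 hf a1, f_symm0 hf b1, c1, c2]; simp
  set z := f u w₁ • w₂ - (δ⁻¹ * f u (θ w₁)) • θ w₂ with hz
  have hgu : (g : Matrix ι ι F) *ᵥ u = u + z := by
    rw [hgm, f_symm0 hf b3, c3, hz]; module
  have hz0 : z ≠ 0 := by
    intro h0
    rw [hz, sub_eq_add_neg, ← neg_smul] at h0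
    exact a3 (h.indep hw₂0 h0).1
  have hvz : f v z = 0 := by
    rw [hz, sub_right hf, smul_right hf, smul_right hf, f_symm0 hf b1, c2]; ring
  have huz : f u z = 0 := by
    rw [hz, sub_right hf, smul_right hf, smul_right hf, f_symm0 hf b3, c3]; ring
  -- the torus element
  have hδ1 : (1 : F) - δ ≠ 0 := fun h0 => h.ns 1 (by linear_combination h0)
  have hδ := h.ne0
  obtain ⟨a, b, hab, hb⟩ : ∃ a b : F, a * a - δ * (b * b) = 1 ∧ b ≠ 0 :=
    ⟨(1 + δ) / (1 - δ), 2 / (1 - δ), by field_simp; ring, div_ne_zero h2 hδ1⟩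
  have ha : a - 1 ≠ 0 := by
    intro h0
    have : a = 1 := by linear_combination h0
    rw [this] at hab
    have h3 : δ * (b * b) = 0 := by linear_combination -hab
    exact mul_ne_zero hδ (mul_ne_zero hb hb) h3
  set D := f v u with hDdef
  obtain ⟨t, ht, htθ, htm⟩ := h'.exists_qr hf v (-((a - 1) / D)) (-(b / D)) (by
    rw [← hu, ← hDdef]
    field_simp
    linear_combination (-1 : F) * hab)
  have htM := hM' t ht htθ
  have htm' : ∀ x, (t : Matrix ι ι F) *ᵥ x = x + D⁻¹ • (f x u • ((a - 1) • v + b • u) - f x v • ((a - 1) • u + (b * δ) • v)) := by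
    intro x
    rw [htm, ← hu]
    module
  have htz : (t : Matrix ι ι F) *ᵥ z = z := by
    rw [htm', f_symm0 hf huz, f_symm0 hf hvz]; simp
  have huv : f u v = -D := by rw [hDdef, Symp.skew hf]
  set w := D⁻¹ • (b • u - (a - 1) • v) with hw
  have htw : (t : Matrix ι ι F) *ᵥ w = D⁻¹ • ((a - 1) • v + b • u) := by
    have e1 : f w u = -(a - 1) := by
      rw [hw, smul_left hf, sub_left hf, smul_left hf, smul_left hf, self hf, ← hDdef]; field_simp; ring
    have e2 : f w v = -b := by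
      rw [hw, smul_left hf, sub_left hf, smul_left hf, smul_left hf, self hf, huv]; field_simp; ring
    rw [htm', e1, e2, hw]
    have e3 : D⁻¹ • (b • u - (a - 1) • v) + D⁻¹ • (-(a - 1) • ((a - 1) • v + b • u) - -b • ((a - 1) • u + (b * δ) • v)) =
        D⁻¹ • ((-(a - 1) - (a - 1) * (a - 1) + δ * (b * b)) • v + b • u) := by module
    rw [e3]
    congr 3
    linear_combination (-1 : F) * hab
  have hwz : f w z = 0 := by
    rw [hw, smul_left hf, sub_left hf, smul_left hf, smul_left hf, huz, hvz]; ring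
  clear_value w z D
  -- `g t g⁻¹ = t * rho z w (b / D)`
  have hrho : rho hf z w (D⁻¹ * b) = t⁻¹ * (g * t * g⁻¹) := by
    rw [eq_inv_mul_iff_mul_eq]
    apply gl_ext
    intro x
    have k1 : ∀ y, f (((g⁻¹ : GL ι F) : Matrix ι ι F) *ᵥ x) y = f x ((g : Matrix ι ι F) *ᵥ y) := by
      intro y
      have := mem_isoGL.1 hg (((g⁻¹ : GL ι F) : Matrix ι ι F) *ᵥ x) y
      rw [gl_mulVec_inv] at this
      exact this.symm
    rw [gl_mul_mulVec, gl_mul_mulVec, gl_mul_mulVec, rho_mulVec hf hwz, htm' (((g⁻¹ : GL ι F) : Matrix ι ι F) *ᵥ x),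
      Matrix.mulVec_add, Matrix.mulVec_add, Matrix.mulVec_add, Matrix.mulVec_smul, Matrix.mulVec_smul, Matrix.mulVec_smul,
      htz, htw, htm' x, Matrix.mulVec_add, gl_mulVec_inv, Matrix.mulVec_smul, Matrix.mulVec_sub, Matrix.mulVec_smul,
      Matrix.mulVec_smul, Matrix.mulVec_add, Matrix.mulVec_add, Matrix.mulVec_smul, Matrix.mulVec_smul,
      Matrix.mulVec_smul, Matrix.mulVec_smul, k1, k1, hgv, hgu, add_right hf]
    have e1 : f x w = D⁻¹ * (b * f x u - (a - 1) * f x v) := by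
      rw [hw, smul_right hf, sub_right hf, smul_right hf, smul_right hf]
    rw [e1]
    module
  have hm1 : rho hf z w (D⁻¹ * b) ∈ M := by
    rw [hrho]
    exact M.mul_mem (M.inv_mem htM) (M.mul_mem (M.mul_mem hgM htM) (M.inv_mem hgM))
  have hm2 := rho_conj_mem hf ht htM hm1
  rw [htz] at hm2
  have hwz' : f ((t : Matrix ι ι F) *ᵥ w) z = 0 := by
    rw [htw, smul_left hf, add_left hf, smul_left hf, smul_left hf, huz, hvz]; ring
  obtain ⟨d, hd, hdM⟩ := exists_tr_of_rho hf h2 hwz hwz' hm1 hm2 (by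
    rw [htw, hw, smul_left hf, smul_right hf, sub_left hf, smul_left hf, smul_left hf, add_right hf, add_right hf,
      smul_right hf, smul_right hf, smul_right hf, smul_right hf, self hf, self hf, huv, ← hDdef]
    have : D⁻¹ * (D⁻¹ * (b * ((a - 1) * -D + b * 0) - (a - 1) * ((a - 1) * 0 + b * D))) = -(2 * (b * (a - 1)) * D⁻¹) := by
      field_simp; ring
    rw [this]
    exact neg_ne_zero.2 (mul_ne_zero (mul_ne_zero h2 (mul_ne_zero hb ha)) (inv_ne_zero hD)))
  exact ⟨z, d, hz0, hd, hdM⟩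

/-- the vector needed in `exists_tr` -/
lemma exists_good_vec [Finite F] (hf : IsSymplecticForm f) (h2 : (2 : F) ≠ 0) (h : Cx f θ δ)
    {θ' : (ι → F) →ₗ[F] (ι → F)}
    (h' : Cx f θ' δ) (hι : 5 ≤ Fintype.card ι) (hN : ∃ v, ¬ NN θ θ' v) : ∃ v, f v (θ' v) ≠ 0 ∧ ¬ NN θ θ' v := by
  obtain ⟨v, hv⟩ := hN
  by_contra hcon
  push Not at hcon
  have hv0 : v ≠ 0 := by
    rintro rfl
    apply hv
    change θ' 0 ∈ line θ 0
    rw [map_zero]; exact Submodule.zero_mem _
  have hvq : f v (θ' v) = 0 := by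
    by_contra hne
    exact hv (hcon v hne)
  obtain ⟨x, hx, hxl⟩ := h'.exists_vec hf h2 [θ' v] (by simpa using hι) 0 1
  have e1 : f x (θ' v) = 0 := by rw [hxl _ (by simp), zero_left hf]
  have e2 : f v (θ' x) = 0 := by rw [h'.f_theta_symm hf]; exact e1
  have hN1 : NN θ θ' ((2 : F) • x) := hcon _ (by
    rw [map_smul, smul_left hf, smul_right hf, hx]; simpa using h2)
  have hN2 : NN θ θ' (v - x) := hcon _ (by
    rw [map_sub, sub_left hf, sub_right hf, sub_right hf, hvq, e1, e2, hx]; simp)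
  have hN3 : NN θ θ' ((v - x) + (2 : F) • x) := hcon _ (by
    have : (v - x) + (2 : F) • x = v + x := by module
    rw [this, map_add, add_left hf, add_right hf, add_right hf, hvq, e1, e2, hx]; simp)
  have hy0 : v - x ≠ 0 := by
    intro h0
    have := congrArg (fun y => f y (θ' y)) h0
    simp only [map_sub, sub_left hf, sub_right hf, hvq, e1, e2, hx, map_zero, zero_left hf] at this
    simp at this
  have hvx : v = (v - x) + (2 : F)⁻¹ • ((2 : F) • x) := by
    rw [smul_smul, inv_mul_cancel₀ h2, one_smul]; abel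
  by_cases hl : (2 : F) • x ∈ line θ (v - x)
  · apply hv
    refine NN.of_mem h h' hN2 ?_ hv0
    rw [hvx]
    nth_rewrite 1 [← hvx]
    exact Submodule.add_mem _ (self_mem _) (Submodule.smul_mem _ _ hl)
  · obtain ⟨s, t, hst⟩ := mem_line.1 hN2
    obtain ⟨s', t', hst'⟩ := mem_line.1 hN1
    obtain ⟨c, d, hcd⟩ := mem_line.1 hN3
    obtain ⟨k1, k2, k3, k4⟩ := NN.coeff h hy0 hl hst hst' hcd
    apply hv
    change θ' v ∈ line θ v
    rw [mem_line]
    refine ⟨c, d, ?_⟩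
    have e5 : θ' v = θ' (v - x) + (2 : F)⁻¹ • θ' ((2 : F) • x) := by rw [← map_smul, ← map_add, ← hvx]
    rw [e5, ← hst, ← hst', k1, k2, k3, k4, map_sub, map_smul, smul_add, smul_smul, smul_smul, smul_smul, smul_smul]
    have i1 : (2 : F)⁻¹ * c * 2 = c := by field_simp
    have i2 : (2 : F)⁻¹ * d * 2 = d := by field_simp
    rw [i1, i2]
    module

/-- **Main theorem** -/
theorem iso_le_of_two [Finite F] (hf : IsSymplecticForm f) (h2 : (2 : F) ≠ 0) (h : Cx f θ δ)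
    {θ' : (ι → F) →ₗ[F] (ι → F)}
    (h' : Cx f θ' δ) (hι : 9 ≤ Fintype.card ι) {M : Subgroup (GL ι F)} (hMI : M ≤ isoGL f)
    (hM : ∀ g ∈ isoGL f, (∀ x, (g : Matrix ι ι F) *ᵥ (θ x) = θ ((g : Matrix ι ι F) *ᵥ x)) → g ∈ M)
    (hM' : ∀ g ∈ isoGL f, (∀ x, (g : Matrix ι ι F) *ᵥ (θ' x) = θ' ((g : Matrix ι ι F) *ᵥ x)) → g ∈ M)
    (hN : ∃ v, ¬ NN θ θ' v) : isoGL f ≤ M := by
  obtain ⟨v, hv, hvN⟩ := exists_good_vec hf h2 h h' (by omega) hN
  obtain ⟨z, d, hz0, hd, hm⟩ := exists_tr hf h2 h h' hι hM hM' hv hvN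
  have h1 : ∀ x, x ≠ 0 → f x (θ x) = f z (θ z) → tr hf x d ∈ M := by
    intro x hx hq
    obtain ⟨g, hg, hgθ, hgz⟩ := h.exists_move' hf h2 (by omega) hq.symm hz0 hx
    have := M.mul_mem (M.mul_mem (hM g hg hgθ) hm) (M.inv_mem (hM g hg hgθ))
    rwa [tr_conj hf hg, hgz] at this
  have hall : ∀ y, y ≠ 0 → tr hf y d ∈ M := by
    intro y hy
    have hi1 : θ y ∉ Submodule.span F {y} := by
      intro h0
      obtain ⟨c, hc⟩ := Submodule.mem_span_singleton.1 h0
      have := (h.indep hy (s := c) (t := -1) (by rw [hc]; module)).2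
      exact (neg_ne_zero.2 one_ne_zero) this
    have hi2 : y ∉ Submodule.span F {θ y} := by
      intro h0
      obtain ⟨c, hc⟩ := Submodule.mem_span_singleton.1 h0
      have := (h.indep hy (s := -1) (t := c) (by rw [hc]; module)).1
      exact (neg_ne_zero.2 one_ne_zero) this
    obtain ⟨y₀, hy1, hy2⟩ := exists_two_values hf hi1 hi2 (-1)
      ((f y (θ y) + d * d * f z (θ z) - f z (θ z)) / (2 * d))
    obtain ⟨x', hx', hx'l⟩ := h.exists_vec hf h2 [y, θ y] (by simp; omega) y₀ (f z (θ z))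
    have e1 : f x' y = -1 := by rw [hx'l y (by simp), hy1]
    have e2 : f x' (θ y) = (f y (θ y) + d * d * f z (θ z) - f z (θ z)) / (2 * d) := by
      rw [hx'l _ (by simp), hy2]
    have e3 : f y x' = 1 := by rw [Symp.skew hf, e1, neg_neg]
    have e4 : f y (θ x') = (f y (θ y) + d * d * f z (θ z) - f z (θ z)) / (2 * d) := by
      rw [h.f_theta_symm hf, e2]
    have hx'0 : x' ≠ 0 := by
      rintro rfl
      rw [zero_left hf] at e1
      exact (neg_ne_zero.2 one_ne_zero) e1.symm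
    have hx0 : y - d • x' ≠ 0 := by
      intro h0
      have : f (y - d • x') x' = 0 := by rw [h0, zero_left hf]
      rw [sub_left hf, smul_left hf, self hf, e3] at this
      simp at this
    have hxq : f (y - d • x') (θ (y - d • x')) = f z (θ z) := by
      rw [map_sub, map_smul, sub_left hf, sub_right hf, sub_right hf, smul_left hf, smul_left hf, smul_right hf,
        smul_right hf, e4, e2, hx']
      field_simp
      ring
    have m1 := h1 _ hx0 hxq
    have m2 := h1 _ hx'0 hx'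
    have m3 := M.mul_mem (M.mul_mem m2 m1) (M.inv_mem m2)
    rw [tr_conj hf (tr_mem_iso hf _ _), tr_mulVec, sub_left hf, smul_left hf, self hf, e3, mul_zero, sub_zero, mul_one,
      sub_add_cancel] at m3
    exact m3
  refine iso_le_of_TS hf M fun x => ?_
  by_cases hx : x = 0
  · rw [hx]; exact TS.zero hf M
  refine TS_of_sq hf h2 hd fun e => ?_
  by_cases he : e = 0
  · rw [he, zero_mul, zero_mul]
    have : tr hf x 0 = 1 := gl_ext fun z => by rw [tr_mulVec]; simp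
    rw [this]; exact M.one_mem
  · rw [← tr_smul hf]
    exact hall _ (smul_ne_zero he hx)

end Cx

end Symp

end Cfsg.Agent.GeoMax
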