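import Cfsg.Agent.GeoMax.SubSpMain

/-!
The end of the proof for subfield subgroups: rational involutions.
-/

set_option autoImplicit false
set_option linter.unusedSectionVars false

namespace Cfsg.Agent.GeoMax

open Matrix
open scoped MatrixGroups
open Cfsg.Geo

namespace Symp

variable {ι : Type} [Fintype ι] [DecidableEq ι] {F : Type*} [Field F]
variable {f : (ι → F) → (ι → F) → F} {F₀ : Subfield F}

lemma mem_of_sq_mem [Finite F] {r : ℕ} (hr : r.Prime) (hr2 : 2 < r) (hfin : Module.finrank F₀ F = r) {l : F}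
    (hl : l * l ∈ F₀) : l ∈ F₀ := by
  have hint : IsIntegral F₀ l := Algebra.IsIntegral.isIntegral l
  have h1 := minpoly.degree_dvd (K := F₀) hint
  rw [hfin] at h1
  have h2 : (minpoly F₀ l).natDegree ≤ 2 := by
    have hp : (Polynomial.X ^ 2 - Polynomial.C (⟨l * l, hl⟩ : F₀)) ≠ 0 :=
      (Polynomial.monic_X_pow_sub_C _ (by norm_num)).ne_zero
    have h3 : Polynomial.aeval l (Polynomial.X ^ 2 - Polynomial.C (⟨l * l, hl⟩ : F₀)) = 0 := by
      rw [map_sub, Polynomial.aeval_C, map_pow, Polynomial.aeval_X]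
      change l ^ 2 - l * l = 0
      ring
    have h4 := Polynomial.natDegree_le_of_dvd (minpoly.dvd F₀ l h3) hp
    rwa [Polynomial.natDegree_X_pow_sub_C] at h4
  rcases (Nat.dvd_prime hr).1 h1 with h | h
  · rw [minpoly.natDegree_eq_one_iff] at h
    obtain ⟨a, rfl⟩ := h
    exact a.2
  · omega

/-! ### Involutions on hyperbolic planes -/

/-- the element of order 2 or 4 attached to a hyperbolic pair -/
def wEl (hf : IsSymplecticForm f) (e e' : ι → F) : GL ι F := tr hf e 1 * tr hf e' 1 * tr hf e 1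

lemma wEl_mulVec (hf : IsSymplecticForm f) {e e' : ι → F} (h : f e e' = 1) (x : ι → F) :
    (wEl hf e e' : Matrix ι ι F) *ᵥ x = x + (f x e - f x e') • e + (f x e + f x e') • e' := by
  have h' : f e' e = -1 := by rw [skew hf, h]
  rw [wEl, gl_mul_mulVec, gl_mul_mulVec, tr_mulVec, tr_mulVec, tr_mulVec]
  simp only [add_left hf, smul_left hf, self hf, h, h']
  module

lemma wEl_sq_mulVec (hf : IsSymplecticForm f) {e e' : ι → F} (h : f e e' = 1) (x : ι → F) :
    ((wEl hf e e' * wEl hf e e' : GL ι F) : Matrix ι ι F) *ᵥ x = x - (2 * f x e') • e + (2 * f x e) • e' := by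
  have h' : f e' e = -1 := by rw [skew hf, h]
  rw [gl_mul_mulVec, wEl_mulVec hf h, wEl_mulVec hf h]
  simp only [add_left hf, smul_left hf, self hf, h, h']
  module

lemma wEl_four (hf : IsSymplecticForm f) {e e' : ι → F} (h : f e e' = 1) :
    (wEl hf e e' * wEl hf e e') * (wEl hf e e' * wEl hf e e') = 1 := by
  have h' : f e' e = -1 := by rw [skew hf, h]
  apply gl_ext
  intro x
  rw [gl_mul_mulVec, wEl_sq_mulVec hf h, wEl_sq_mulVec hf h, Units.val_one, Matrix.one_mulVec]
  simp only [add_left hf, sub_left hf, smul_left hf, self hf, h, h']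
  module

lemma wEl_mem_iso (hf : IsSymplecticForm f) (e e' : ι → F) : wEl hf e e' ∈ isoGL f :=
  (isoGL f).mul_mem ((isoGL f).mul_mem (tr_mem_iso hf _ _) (tr_mem_iso hf _ _)) (tr_mem_iso hf _ _)

lemma ratM_tr (hf : IsSymplecticForm f) (hF : Rational F₀ f) (v : ι → F₀) (a : F₀) : RatM F₀ (tr hf (emb F₀ v) a) := by
  intro y
  refine ⟨y + (a * f0 hF y v) • v, ?_⟩
  rw [tr_mulVec, emb_add, emb_smul]
  rfl

lemma RatM.mul {g h : GL ι F} (hg : RatM F₀ g) (hh : RatM F₀ h) : RatM F₀ (g * h) := by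
  intro y
  obtain ⟨y₁, h1⟩ := hh y
  obtain ⟨y₂, h2⟩ := hg y₁
  exact ⟨y₂, by rw [gl_mul_mulVec, h1, h2]⟩

lemma exists_invol {hf : IsSymplecticForm f} (hF : Rational F₀ f) {M : Subgroup (GL ι F)} (hR : RatTr hf F₀ M)
    {e e' : ι → F₀} (h : f (emb F₀ e) (emb F₀ e') = 1) :
    ∃ x ∈ M, x ∈ isoGL f ∧ RatM F₀ x ∧ x * x = 1 ∧ x ≠ 1 ∧
      (∀ y : ι → F, ∃ a b : F, (x : Matrix ι ι F) *ᵥ y = y + a • emb F₀ e + b • emb F₀ e') ∧
      (∀ y : ι → F, f y (emb F₀ e) = 0 → f y (emb F₀ e') = 0 → (x : Matrix ι ι F) *ᵥ y = y) := by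
  have hwM : wEl hf (emb F₀ e) (emb F₀ e') ∈ M := by
    have h1 := hR e 1
    have h2 := hR e' 1
    push_cast at h1 h2
    exact M.mul_mem (M.mul_mem h1 h2) h1
  have hwR : RatM F₀ (wEl hf (emb F₀ e) (emb F₀ e')) := by
    have h1 := ratM_tr hf hF e 1
    have h2 := ratM_tr hf hF e' 1
    push_cast at h1 h2
    exact (h1.mul h2).mul h1
  have hwI := wEl_mem_iso hf (emb F₀ e) (emb F₀ e')
  by_cases hw : wEl hf (emb F₀ e) (emb F₀ e') * wEl hf (emb F₀ e) (emb F₀ e') = 1
  · refine ⟨_, hwM, hwI, hwR, hw, ?_, fun y => ⟨_, _, wEl_mulVec hf h y⟩, fun y h1 h2 => ?_⟩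
    · intro h1
      have h2 := congrArg (fun g : GL ι F => (g : Matrix ι ι F) *ᵥ emb F₀ e) h1
      simp only [wEl_mulVec hf h, Units.val_one, Matrix.one_mulVec, self hf, h] at h2
      have h3 : f (emb F₀ e + (0 - 1 : F) • emb F₀ e + (0 + 1 : F) • emb F₀ e') (emb F₀ e) = 0 := by
        rw [h2, self hf]
      rw [add_left hf, add_left hf, smul_left hf, smul_left hf, self hf, skew hf, h] at h3
      have : (1 : F) = 0 := by linear_combination -h3
      exact one_ne_zero this
    · rw [wEl_mulVec hf h, h1, h2]; simp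
  · refine ⟨_, M.mul_mem hwM hwM, (isoGL f).mul_mem hwI hwI, hwR.mul hwR, wEl_four hf h, hw,
      fun y => ⟨-(2 * f y (emb F₀ e')), 2 * f y (emb F₀ e), ?_⟩, fun y h1 h2 => ?_⟩
    · rw [wEl_sq_mulVec hf h, neg_smul, ← sub_eq_add_neg]
    · rw [wEl_sq_mulVec hf h, h1, h2]; simp

lemma normV_ratM {F₀ : Subfield F} [Nonempty ι] (hsq : ∀ l : F, l * l ∈ F₀ → l ∈ F₀) {z : GL ι F} (hz : NormV F₀ z)
    (hz2 : z * z = 1) : RatM F₀ z := by
  obtain ⟨l, hl, h⟩ := hz
  obtain ⟨i⟩ := ‹Nonempty ι›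
  have hl2 : l * l ∈ F₀ := by
    obtain ⟨y₁, h1⟩ := h (Pi.single i 1)
    obtain ⟨y₂, h2⟩ := h y₁
    have h3 : ((z * z : GL ι F) : Matrix ι ι F) *ᵥ emb F₀ (Pi.single i 1) = (l * l) • emb F₀ y₂ := by
      rw [gl_mul_mulVec, h1, Matrix.mulVec_smul, h2, smul_smul]
    rw [hz2, Units.val_one, Matrix.one_mulVec] at h3
    have h4 := congrFun h3 i
    simp only [emb_apply, Pi.single_eq_same, Pi.smul_apply, smul_eq_mul] at h4
    have h5 : (y₂ i : F) ≠ 0 := by
      intro h; rw [h, mul_zero] at h4; simp at h4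
    have h6 : l * l = ((y₂ i)⁻¹ : F₀) := by
      push_cast
      push_cast at h4
      exact eq_inv_of_mul_eq_one_left h4.symm
    rw [h6]
    exact SetLike.coe_mem _
  have hl' := hsq l hl2
  intro y
  obtain ⟨y₁, h1⟩ := h y
  exact ⟨(⟨l, hl'⟩ : F₀) • y₁, by rw [h1, emb_smul]⟩

/-- two products of an involution: odd order gives conjugacy -/
lemma conj_of_odd {G : Type*} [Group G] {x y : G} (hx : x * x = 1) (hy : y * y = 1) {k : ℕ}
    (hk : (x * y) ^ (2 * k + 1) = 1) : (x * y) ^ k * x * ((x * y) ^ k)⁻¹ = y := by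
  have hxi : x⁻¹ = x := inv_eq_of_mul_eq_one_left hx
  have hyi : y⁻¹ = y := inv_eq_of_mul_eq_one_left hy
  have h1 : ∀ n : ℕ, x * ((x * y) ^ n)⁻¹ = (x * y) ^ n * x := by
    intro n
    induction n with
    | zero => simp
    | succ n ih =>
      rw [pow_succ, _root_.mul_inv_rev, _root_.mul_inv_rev, hxi, hyi]
      have : x * (y * x * ((x * y) ^ n)⁻¹) = x * y * (x * ((x * y) ^ n)⁻¹) := by group
      rw [this, ih, ← mul_assoc, ← pow_succ', ← pow_succ]
  rw [mul_assoc, h1, ← mul_assoc, ← pow_add, ← two_mul]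
  have h2 : (x * y) ^ (2 * k) = (x * y)⁻¹ := by
    rw [eq_inv_iff_mul_eq_one, ← pow_succ, hk]
  rw [h2, _root_.mul_inv_rev, hxi, hyi, mul_assoc, hx, mul_one]

lemma comm_of_even {G : Type*} [Group G] {x y : G} (hx : x * x = 1) (hy : y * y = 1) {k : ℕ}
    (hk : (x * y) ^ (2 * k) = 1) : (x * y) ^ k * x = x * (x * y) ^ k ∧ (x * y) ^ k * y = y * (x * y) ^ k := by
  have hxi : x⁻¹ = x := inv_eq_of_mul_eq_one_left hx
  have hyi : y⁻¹ = y := inv_eq_of_mul_eq_one_left hy
  have h0 : ((x * y) ^ k)⁻¹ = (x * y) ^ k := by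
    rw [inv_eq_iff_mul_eq_one, ← pow_add, ← two_mul, hk]
  have h1 : ∀ n : ℕ, x * ((x * y) ^ n)⁻¹ = (x * y) ^ n * x := by
    intro n
    induction n with
    | zero => simp
    | succ n ih =>
      rw [pow_succ, _root_.mul_inv_rev, _root_.mul_inv_rev, hxi, hyi]
      have : x * (y * x * ((x * y) ^ n)⁻¹) = x * y * (x * ((x * y) ^ n)⁻¹) := by group
      rw [this, ih, ← mul_assoc, ← pow_succ', ← pow_succ]
  have h2 : (x * y) ^ k * x = x * (x * y) ^ k := by rw [← h1, h0]
  refine ⟨h2, ?_⟩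
  have h3 : Commute ((x * y) ^ k) (x * y) := (Commute.refl _).pow_left k
  have h4 : y = x * (x * y) := by rw [← mul_assoc, hx, one_mul]
  calc (x * y) ^ k * y = (x * y) ^ k * (x * (x * y)) := by rw [← h4]
    _ = x * (x * y) ^ k * (x * y) := by rw [← mul_assoc, h2]
    _ = x * ((x * y) ^ k * (x * y)) := by rw [mul_assoc]
    _ = x * ((x * y) * (x * y) ^ k) := by rw [h3.eq]
    _ = (x * (x * y)) * (x * y) ^ k := (mul_assoc _ _ _).symm
    _ = y * (x * y) ^ k := by rw [← h4]

lemma rangeSub (g : GL ι F) (x : ι → F) :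
    (Matrix.mulVecLin (g : Matrix ι ι F) - (LinearMap.id : (ι → F) →ₗ[F] (ι → F))) x =
      (g : Matrix ι ι F) *ᵥ x - x := rfl

/-- main theorem in the case of the small coefficient ring -/
theorem le_normV [Finite F] {hf : IsSymplecticForm f} (hF : Rational F₀ f) (hι : 10 < Fintype.card ι)
    {M : Subgroup (GL ι F)} (hM : M ≤ isoGL f) (hR : RatTr hf F₀ M) (hD : ∀ c ∈ Dset hf F₀ M, c ∈ F₀)
    {r : ℕ} (hr : r.Prime) (hfin : Module.finrank F₀ F = r) {g : GL ι F} (hg : g ∈ M) : NormV F₀ g := by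
  by_contra hgN
  have hne : Nonempty ι := Fintype.card_pos_iff.1 (by omega)
  have hrι := card_le_finrank hF hι hM hR hD hg hgN
  have hsq : ∀ l : F, l * l ∈ F₀ → l ∈ F₀ := fun l => mem_of_sq_mem hr (by omega) hfin
  obtain ⟨e1, e1', h11, -, -⟩ := exists_hyp_rat hf hF [] (by simp; omega)
  obtain ⟨e2, e2', h22, he2, he2'⟩ := exists_hyp_rat hf hF [e1, e1'] (by simp; omega)
  have p1 := he2 e1 (by simp)
  have p2 := he2 e1' (by simp)
  have p3 := he2' e1 (by simp)
  have p4 := he2' e1' (by simp)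
  obtain ⟨x1, hx1M, hx1I, hx1R, hx1s, hx1n, hx1d, hx1f⟩ := exists_invol hF hR h11
  obtain ⟨x2, hx2M, hx2I, hx2R, hx2s, hx2n, hx2d, hx2f⟩ := exists_invol hF hR h22
  -- the two involutions commute
  have hx12 : ∀ y : ι → F, (x1 : Matrix ι ι F) *ᵥ ((x2 : Matrix ι ι F) *ᵥ y) =
      (x1 : Matrix ι ι F) *ᵥ y + ((x2 : Matrix ι ι F) *ᵥ y - y) := by
    intro y
    obtain ⟨a, b, hab⟩ := hx2d y
    rw [hab, Matrix.mulVec_add, Matrix.mulVec_add, Matrix.mulVec_smul, Matrix.mulVec_smul,
      hx1f _ (f_symm_zero hf p1) (f_symm_zero hf p2), hx1f _ (f_symm_zero hf p3) (f_symm_zero hf p4)]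
    abel
  have hx21 : ∀ y : ι → F, (x2 : Matrix ι ι F) *ᵥ ((x1 : Matrix ι ι F) *ᵥ y) =
      (x1 : Matrix ι ι F) *ᵥ y + ((x2 : Matrix ι ι F) *ᵥ y - y) := by
    intro y
    obtain ⟨a, b, hab⟩ := hx1d y
    rw [hab, Matrix.mulVec_add, Matrix.mulVec_add, Matrix.mulVec_smul, Matrix.mulVec_smul, hx2f _ p1 p3,
      hx2f _ p2 p4]
    abel
  have hcomm : x1 * x2 = x2 * x1 := gl_ext fun y => by rw [gl_mul_mulVec, gl_mul_mulVec, hx12, hx21]
  set y0 := x1 * x2 with hy0
  have hy0s : y0 * y0 = 1 := by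
    calc y0 * y0 = x1 * x2 * (x2 * x1) := by rw [hy0, ← hcomm]
      _ = x1 * (x2 * x2) * x1 := by group
      _ = 1 := by rw [hx2s, mul_one, hx1s]
  have hy0M : y0 ∈ M := M.mul_mem hx1M hx2M
  have hy0R : RatM F₀ y0 := hx1R.mul hx2R
  -- not conjugate
  have hnc : ∀ b : GL ι F, y0 * b ≠ b * x1 := by
    intro b hb
    set R1 := LinearMap.range (Matrix.mulVecLin (x1 : Matrix ι ι F) - (LinearMap.id : (ι → F) →ₗ[F] (ι → F))) with hR1
    set R0 := LinearMap.range (Matrix.mulVecLin (y0 : Matrix ι ι F) - (LinearMap.id : (ι → F) →ₗ[F] (ι → F))) with hR0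
    have hbinj : Function.Injective (Matrix.mulVecLin (b : Matrix ι ι F)) := gl_mulVec_injective b
    have hle : Module.finrank F R0 ≤ Module.finrank F R1 := by
      rw [(Submodule.equivMapOfInjective _ hbinj R1).finrank_eq]
      apply Submodule.finrank_mono
      rintro _ ⟨y, rfl⟩
      rw [rangeSub]
      refine ⟨(x1 : Matrix ι ι F) *ᵥ (((b⁻¹ : GL ι F) : Matrix ι ι F) *ᵥ y) - ((b⁻¹ : GL ι F) : Matrix ι ι F) *ᵥ y,
        ⟨_, rfl⟩, ?_⟩
      change (b : Matrix ι ι F) *ᵥ _ = _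
      rw [Matrix.mulVec_sub, ← gl_mul_mulVec b x1, ← hb, gl_mul_mulVec, gl_mulVec_inv]
    have hlt : R1 < R0 := by
      rw [SetLike.lt_iff_le_and_exists]
      constructor
      · rintro _ ⟨y, rfl⟩
        rw [rangeSub]
        set y' := y - f y (emb F₀ e2') • emb F₀ e2 + f y (emb F₀ e2) • emb F₀ e2' with hy'
        have q1 : f y' (emb F₀ e2) = 0 := by
          rw [hy', add_left hf, sub_left hf, smul_left hf, smul_left hf, self hf, skew hf (emb F₀ e2'), h22]; ring
        have q2 : f y' (emb F₀ e2') = 0 := by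
          rw [hy', add_left hf, sub_left hf, smul_left hf, smul_left hf, self hf, h22]; ring
        have q3 : (x1 : Matrix ι ι F) *ᵥ y' - y' = (x1 : Matrix ι ι F) *ᵥ y - y := by
          rw [hy', Matrix.mulVec_add, Matrix.mulVec_sub, Matrix.mulVec_smul, Matrix.mulVec_smul,
            hx1f _ (f_symm_zero hf p1) (f_symm_zero hf p2), hx1f _ (f_symm_zero hf p3) (f_symm_zero hf p4)]
          abel
        refine ⟨y', ?_⟩
        rw [rangeSub, hy0, gl_mul_mulVec, hx2f _ q1 q2, q3]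
      · obtain ⟨y, hy⟩ : ∃ y : ι → F, (x2 : Matrix ι ι F) *ᵥ y ≠ y := by
          by_contra hcon
          push Not at hcon
          exact hx2n (gl_ext fun y => by rw [hcon, Units.val_one, Matrix.one_mulVec])
        set y' := y - f y (emb F₀ e1') • emb F₀ e1 + f y (emb F₀ e1) • emb F₀ e1' with hy'
        have q1 : f y' (emb F₀ e1) = 0 := by
          rw [hy', add_left hf, sub_left hf, smul_left hf, smul_left hf, self hf, skew hf (emb F₀ e1'), h11]; ring
        have q2 : f y' (emb F₀ e1') = 0 := by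
          rw [hy', add_left hf, sub_left hf, smul_left hf, smul_left hf, self hf, h11]; ring
        have q3 : (x2 : Matrix ι ι F) *ᵥ y' - y' = (x2 : Matrix ι ι F) *ᵥ y - y := by
          rw [hy', Matrix.mulVec_add, Matrix.mulVec_sub, Matrix.mulVec_smul, Matrix.mulVec_smul, hx2f _ p1 p3,
            hx2f _ p2 p4]
          abel
        have hmem : (x2 : Matrix ι ι F) *ᵥ y - y ∈ R0 := by
          refine ⟨y', ?_⟩
          rw [rangeSub, hcomm, gl_mul_mulVec, hx1f _ q1 q2, q3]
        refine ⟨_, hmem, ?_⟩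
        rintro ⟨t, ht⟩
        rw [rangeSub] at ht
        obtain ⟨a, b', hab⟩ := hx1d t
        obtain ⟨c, d, hcd⟩ := hx2d y
        rw [hab, hcd] at ht
        have ht' : a • emb F₀ e1 + b' • emb F₀ e1' = c • emb F₀ e2 + d • emb F₀ e2' := by
          have := ht
          rw [add_assoc, add_sub_cancel_left, add_assoc, add_sub_cancel_left] at this
          exact this
        have s1 := congrArg (fun v => f v (emb F₀ e1)) ht'
        have s2 := congrArg (fun v => f v (emb F₀ e1')) ht'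
        simp only [add_left hf, smul_left hf, self hf, h11, f_symm_zero hf p1, f_symm_zero hf p2, f_symm_zero hf p3,
          f_symm_zero hf p4, skew hf (emb F₀ e1') (emb F₀ e1)] at s1 s2
        have hb0 : b' = 0 := by linear_combination -s1
        have ha0 : a = 0 := by linear_combination s2
        apply hy
        rw [hcd, add_assoc, ← ht', ha0, hb0]
        simp
    have := Submodule.finrank_lt_finrank_of_lt hlt
    omega
  -- the dihedral group
  set y1 := g * y0 * g⁻¹ with hy1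
  have hy1s : y1 * y1 = 1 := by
    rw [hy1]
    have : g * y0 * g⁻¹ * (g * y0 * g⁻¹) = g * (y0 * y0) * g⁻¹ := by group
    rw [this, hy0s]; group
  have hy1M : y1 ∈ M := M.mul_mem (M.mul_mem hg hy0M) (M.inv_mem hg)
  set n := orderOf (x1 * y1) with hn
  haveI : Finite (GL ι F) := inferInstance
  have hn0 : 0 < n := orderOf_pos _
  have hpow : (x1 * y1) ^ n = 1 := pow_orderOf_eq_one _
  rcases Nat.even_or_odd' n with ⟨k, hk | hk⟩
  swap
  · rw [hk] at hpow
    have h1 := conj_of_odd hx1s hy1s hpow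
    set d := (x1 * y1) ^ k
    apply hnc (g⁻¹ * d)
    have h2 : y0 = g⁻¹ * (d * x1 * d⁻¹) * g := by rw [h1, hy1]; group
    rw [h2]; group
  · rw [hk] at hpow
    obtain ⟨hzx, hzy⟩ := comm_of_even hx1s hy1s hpow
    set z := (x1 * y1) ^ k with hz
    have hk0 : k ≠ 0 := by omega
    have hz1 : z ≠ 1 := by
      intro h
      have := orderOf_dvd_of_pow_eq_one h
      rw [← hn] at this
      have := Nat.le_of_dvd (by omega) this
      omega
    have hzs : z * z = 1 := by rw [hz, ← pow_add, ← two_mul]; exact hpow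
    have hzM : z ∈ M := M.pow_mem (M.mul_mem hx1M hy1M) k
    -- `z` normalises the rational structure
    have hzN : NormV F₀ z := by
      by_contra hcon
      apply hx1n
      refine eq_one_of_fix hF hι hM hR hD hzM hcon hx1I (v₀ := e2) ?_
        (hx1f _ (f_symm_zero hf p1) (f_symm_zero hf p2)) ?_
      · rintro rfl; rw [emb_zero, zero_left hf] at h22; exact zero_ne_one h22
      · have : z⁻¹ * x1 * z = x1 := by rw [mul_assoc, ← hzx]; group
        rw [this]; exact hx1R
    have hz' : (g⁻¹ * z * g) * y0 = y0 * (g⁻¹ * z * g) := by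
      have h1 : y0 = g⁻¹ * y1 * g := by rw [hy1]; group
      rw [h1]
      have h2 : g⁻¹ * z * g * (g⁻¹ * y1 * g) = g⁻¹ * (z * y1) * g := by group
      have h3 : g⁻¹ * y1 * g * (g⁻¹ * z * g) = g⁻¹ * (y1 * z) * g := by group
      rw [h2, h3, hzy]
    have hz'M : g⁻¹ * z * g ∈ M := M.mul_mem (M.mul_mem (M.inv_mem hg) hzM) hg
    have hy0n : y0 ≠ 1 := by
      intro h
      have h1 : x2 = x1⁻¹ := (eq_inv_of_mul_eq_one_right h)
      have h2 : x2 = x1 := by rw [h1]; exact inv_eq_of_mul_eq_one_left hx1s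
      apply hx2n
      apply gl_ext
      intro y
      rw [Units.val_one, Matrix.one_mulVec]
      -- `x2 y - y` lies in both planes
      obtain ⟨c, d, hcd⟩ := hx2d y
      have h3 := hx2d y
      obtain ⟨a, b, hab⟩ := hx1d y
      rw [h2, hab] at hcd
      have ht' : a • emb F₀ e1 + b • emb F₀ e1' = c • emb F₀ e2 + d • emb F₀ e2' := by
        rw [add_assoc, add_assoc] at hcd
        exact add_left_cancel hcd
      have s1 := congrArg (fun v => f v (emb F₀ e1)) ht'
      have s2 := congrArg (fun v => f v (emb F₀ e1')) ht'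
      simp only [add_left hf, smul_left hf, self hf, h11, f_symm_zero hf p1, f_symm_zero hf p2, f_symm_zero hf p3,
        f_symm_zero hf p4, skew hf (emb F₀ e1') (emb F₀ e1)] at s1 s2
      have hb0 : b = 0 := by linear_combination -s1
      have ha0 : a = 0 := by linear_combination s2
      rw [h2, hab, ha0, hb0]; simp
    have hz'N : NormV F₀ (g⁻¹ * z * g) := by
      by_contra hcon
      obtain ⟨v, hv, hvp⟩ := exists_perp_rat hf hF [e1, e1', e2, e2'] [] (by simp; omega)
      have hv0 : v ≠ 0 := by rintro rfl; exact hv (Submodule.zero_mem _)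
      apply hy0n
      refine eq_one_of_fix hF hι hM hR hD hz'M hcon (hM hy0M) (v₀ := v) hv0 ?_ ?_
      · rw [hy0, gl_mul_mulVec, hx2f _ (hvp e2 (by simp)) (hvp e2' (by simp)),
          hx1f _ (hvp e1 (by simp)) (hvp e1' (by simp))]
      · have : (g⁻¹ * z * g)⁻¹ * y0 * (g⁻¹ * z * g) = y0 := by
          rw [mul_assoc, ← hz', ← mul_assoc, inv_mul_cancel, one_mul]
        rw [this]; exact hy0R
    have hzR := normV_ratM hsq hzN hzs
    have hz's : (g⁻¹ * z * g) * (g⁻¹ * z * g) = 1 := by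
      have : (g⁻¹ * z * g) * (g⁻¹ * z * g) = g⁻¹ * (z * z) * g := by group
      rw [this, hzs]; group
    have hz'R := normV_ratM hsq hz'N hz's
    -- a common fixed vector of `x1`, `y1`
    obtain ⟨v, hv0, hv1, hv2⟩ : ∃ v : ι → F, v ≠ 0 ∧ (x1 : Matrix ι ι F) *ᵥ v = v ∧ (y1 : Matrix ι ι F) *ᵥ v = v := by
      set l : List (ι → F) := [emb F₀ e1, emb F₀ e1', (g : Matrix ι ι F) *ᵥ emb F₀ e1,
        (g : Matrix ι ι F) *ᵥ emb F₀ e1', (g : Matrix ι ι F) *ᵥ emb F₀ e2, (g : Matrix ι ι F) *ᵥ emb F₀ e2'] with hl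
      have h1 := finrank_span_list_le (K := F) l
      have h2 : perp hf (Submodule.span F {x | x ∈ l}) ≠ ⊥ := by
        intro h
        have h3 := finrank_perp hf (Submodule.span F {x | x ∈ l})
        rw [h, finrank_bot] at h3
        have : l.length = 6 := by rw [hl]; rfl
        omega
      obtain ⟨v, hvp, hv0⟩ := Submodule.exists_mem_ne_zero_of_ne_bot h2
      rw [mem_perp'] at hvp
      have hvl : ∀ w ∈ l, f v w = 0 := fun w hw => hvp w (Submodule.subset_span hw)
      refine ⟨v, hv0, hx1f v (hvl _ (by simp [hl])) (hvl _ (by simp [hl])), ?_⟩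
      have hgv : ∀ w : ι → F, f v ((g : Matrix ι ι F) *ᵥ w) = 0 → f (((g⁻¹ : GL ι F) : Matrix ι ι F) *ᵥ v) w = 0 := by
        intro w hw
        have := mem_isoGL.1 (hM hg) (((g⁻¹ : GL ι F) : Matrix ι ι F) *ᵥ v) w
        rw [gl_mulVec_inv, hw] at this
        exact this.symm
      rw [hy1, hy0, gl_mul_mulVec, gl_mul_mulVec, gl_mul_mulVec,
        hx2f _ (hgv _ (hvl _ (by simp [hl]))) (hgv _ (hvl _ (by simp [hl]))),
        hx1f _ (hgv _ (hvl _ (by simp [hl]))) (hgv _ (hvl _ (by simp [hl]))), gl_mulVec_inv]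
    have hzv : (z : Matrix ι ι F) *ᵥ v = v := by
      rw [hz]
      have hd : ((x1 * y1 : GL ι F) : Matrix ι ι F) *ᵥ v = v := by rw [gl_mul_mulVec, hv2, hv1]
      have : ∀ j : ℕ, (((x1 * y1) ^ j : GL ι F) : Matrix ι ι F) *ᵥ v = v := by
        intro j
        induction j with
        | zero => rw [pow_zero, Units.val_one, Matrix.one_mulVec]
        | succ j ih => rw [pow_succ, gl_mul_mulVec, hd, ih]
      exact this k
    -- a rational fixed vector of `z`
    obtain ⟨w, hw0, hzw⟩ : ∃ w : ι → F₀, w ≠ 0 ∧ (z : Matrix ι ι F) *ᵥ emb F₀ w = emb F₀ w := by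
      by_contra hcon
      push Not at hcon
      have hneg : ∀ y : ι → F₀, (z : Matrix ι ι F) *ᵥ emb F₀ y = - emb F₀ y := by
        intro y
        obtain ⟨y₁, hy₁⟩ := hzR y
        by_contra hne2
        have h1 : y₁ + y ≠ 0 := by
          intro h
          apply hne2
          rw [hy₁, eq_neg_of_add_eq_zero_left h, emb_neg]
        apply hcon _ h1
        rw [emb_add, Matrix.mulVec_add, ← hy₁, ← gl_mul_mulVec, hzs, Units.val_one, Matrix.one_mulVec, add_comm]
      have hneg' : ∀ y : ι → F, (z : Matrix ι ι F) *ᵥ y = - y := by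
        have : z = -1 := by
          apply Units.ext
          apply Matrix.ext_of_mulVec_single
          intro i
          have := hneg (Pi.single i 1)
          rw [emb_single] at this
          rw [this, Units.val_neg, Units.val_one, Matrix.neg_mulVec, Matrix.one_mulVec]
        intro y
        rw [this, Units.val_neg, Units.val_one, Matrix.neg_mulVec, Matrix.one_mulVec]
      have h2 := hneg' v
      rw [hzv] at h2
      -- characteristic two
      obtain ⟨i, hi⟩ := Function.ne_iff.1 hv0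
      have h3 := congrFun h2 i
      rw [Pi.neg_apply] at h3
      have h4 : (2 : F) * v i = 0 := by linear_combination h3
      have h5 : (2 : F) = 0 := (mul_eq_zero.1 h4).resolve_right hi
      apply hz1
      apply gl_ext
      intro y
      rw [hneg', Units.val_one, Matrix.one_mulVec]
      ext j
      rw [Pi.neg_apply]
      linear_combination -(y j) * h5
    exact hz1 (eq_one_of_fix hF hι hM hR hD hg hgN (hM hzM) hw0 hzw hz'R)

end Symp

end Cfsg.Agent.GeoMax
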