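import Cfsg.Agent.GeoMax.SubSpRing

/-!
The case where the coefficient ring is the subfield.
-/

set_option autoImplicit false
set_option linter.unusedSectionVars false

namespace Cfsg.Agent.GeoMax

open Matrix
open scoped MatrixGroups
open Cfsg.Geo

namespace Symp

variable {ι : Type} [Fintype ι] [DecidableEq ι] {F : Type*} [Field F]
variable {f : (ι → F) → (ι → F) → F} {F₀ : Subfield F}

lemma setOf_mem_pair {α : Type*} (a b : α) : {x | x ∈ [a, b]} = {a, b} := by ext; simp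

lemma rho_move_rat {hf : IsSymplecticForm f} (hF : Rational F₀ f)
    {M : Subgroup (GL ι F)} (hM : M ≤ isoGL f) (hR : RatTr hf F₀ M) {v w z : ι → F₀} {c e : F}
    (hwv : f (emb F₀ w) (emb F₀ v) = 0) (hzv : f (emb F₀ z) (emb F₀ v) = 0) (hwz : f (emb F₀ w) (emb F₀ z) = 0)
    (hw : w ∉ Submodule.span F₀ {v, z}) (h1 : rho hf (emb F₀ v) (c • emb F₀ w) e ∈ M) :
    rho hf (emb F₀ v) (c • emb F₀ z) 0 ∈ M := by
  obtain ⟨p', hp, hwp⟩ := exists_sep_rat hf hF hw
  have hvp := hp v (Submodule.subset_span (by simp))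
  have hzp := hp z (Submodule.subset_span (by simp))
  have h2 := hR.rho p' z 0
  have := rho_move hf hM hwv hzv (f_symm_zero hf hvp) hwz hwp h1 (d := 1) (by rw [one_smul]; exact h2)
    (f_symm_zero hf hzp)
  rwa [mul_one] at this

lemma mem_D_of_pair {hf : IsSymplecticForm f} (hF : Rational F₀ f) (hι : 10 < Fintype.card ι)
    {M : Subgroup (GL ι F)} (hM : M ≤ isoGL f) (hR : RatTr hf F₀ M) {v w : ι → F₀} {c e : F}
    (hv : v ≠ 0) (hwv : f (emb F₀ w) (emb F₀ v) = 0) (hw : w ∉ Submodule.span F₀ {v})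
    (h1 : rho hf (emb F₀ v) (c • emb F₀ w) e ∈ M) : c ∈ Dset hf F₀ M := by
  intro v' z' hzv'
  obtain ⟨w2, hw2, hw2p⟩ := exists_perp_rat hf hF [v, w, v', z'] [v, w, v', z'] (by simp; omega)
  obtain ⟨w3, hw3, hw3p⟩ := exists_perp_rat hf hF [v, w, v', z', w2] [v, w, v', z', w2] (by simp; omega)
  have memv : v ∈ Submodule.span F₀ {x | x ∈ [v, w, v', z']} := Submodule.subset_span (by simp)
  have memw : w ∈ Submodule.span F₀ {x | x ∈ [v, w, v', z']} := Submodule.subset_span (by simp)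
  have memv' : v' ∈ Submodule.span F₀ {x | x ∈ [v, w, v', z']} := Submodule.subset_span (by simp)
  have memz' : z' ∈ Submodule.span F₀ {x | x ∈ [v, w, v', z']} := Submodule.subset_span (by simp)
  have memv3 : v ∈ Submodule.span F₀ {x | x ∈ [v, w, v', z', w2]} := Submodule.subset_span (by simp)
  have memv'3 : v' ∈ Submodule.span F₀ {x | x ∈ [v, w, v', z', w2]} := Submodule.subset_span (by simp)
  have memw23 : w2 ∈ Submodule.span F₀ {x | x ∈ [v, w, v', z', w2]} := Submodule.subset_span (by simp)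
  -- (v; w) → (v; w2)
  have a1 : rho hf (emb F₀ v) (c • emb F₀ w2) 0 ∈ M := by
    refine rho_move_rat hF hM hR hwv (hw2p v (by simp)) (f_symm_zero hf (hw2p w (by simp))) ?_ h1
    intro h
    obtain ⟨a, b, hab⟩ := Submodule.mem_span_pair.1 h
    by_cases hb : b = 0
    · apply hw
      rw [Submodule.mem_span_singleton]
      exact ⟨a, by rw [← hab, hb, zero_smul, add_zero]⟩
    · apply hw2
      have : w2 = b⁻¹ • (w - a • v) := by
        rw [← hab, add_sub_cancel_left, smul_smul, inv_mul_cancel₀ hb, one_smul]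
      rw [this]
      exact Submodule.smul_mem _ _ (Submodule.sub_mem _ memw (Submodule.smul_mem _ _ memv))
  rw [rho_symm hf (hw2p v (by simp))] at a1
  -- (w2; v) → (w2; w3)
  have a2 : rho hf (emb F₀ w2) (c • emb F₀ w3) 0 ∈ M := by
    refine rho_move_rat hF hM hR (f_symm_zero hf (hw2p v (by simp))) (hw3p w2 (by simp))
      (f_symm_zero hf (hw3p v (by simp))) ?_ a1
    intro h
    obtain ⟨a, b, hab⟩ := Submodule.mem_span_pair.1 h
    by_cases hb : b = 0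
    · by_cases ha : a = 0
      · apply hv; rw [← hab, ha, hb]; simp
      · apply hw2
        have : w2 = a⁻¹ • v := by rw [← hab, hb, zero_smul, add_zero, smul_smul, inv_mul_cancel₀ ha, one_smul]
        rw [this]
        exact Submodule.smul_mem _ _ memv
    · apply hw3
      have : w3 = b⁻¹ • (v - a • w2) := by
        rw [← hab, add_sub_cancel_left, smul_smul, inv_mul_cancel₀ hb, one_smul]
      rw [this]
      exact Submodule.smul_mem _ _ (Submodule.sub_mem _ memv3 (Submodule.smul_mem _ _ memw23))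
  -- (w2; w3) → (w2; v')
  have a3 : rho hf (emb F₀ w2) (c • emb F₀ v') 0 ∈ M := by
    refine rho_move_rat hF hM hR (hw3p w2 (by simp)) (f_symm_zero hf (hw2p v' (by simp)))
      (hw3p v' (by simp)) ?_ a2
    intro h
    apply hw3
    refine Submodule.span_mono ?_ h
    intro x hx
    rcases hx with rfl | rfl
    · simp
    · simp
  rw [rho_symm hf (f_symm_zero hf (hw2p v' (by simp)))] at a3
  -- (v'; w2) → (v'; z')
  refine rho_move_rat hF hM hR (hw2p v' (by simp)) hzv' (hw2p z' (by simp)) ?_ a3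
  intro h
  apply hw2
  refine Submodule.span_mono ?_ h
  intro x hx
  rcases hx with rfl | rfl
  · simp
  · simp

section small
variable {hf : IsSymplecticForm f} (hF : Rational F₀ f) (hι : 10 < Fintype.card ι)
    {M : Subgroup (GL ι F)} (hM : M ≤ isoGL f) (hR : RatTr hf F₀ M) (hD : ∀ c ∈ Dset hf F₀ M, c ∈ F₀)

include hF hι hM hR hD

lemma prod_mem {u : ι → F} (hu : tr hf u 1 ∈ M) {v : ι → F₀} (hv : v ≠ 0) (huv : f u (emb F₀ v) = 0)
    {w w' : ι → F₀} (hw : f (emb F₀ w) (emb F₀ v) = 0) (hw' : f (emb F₀ w') (emb F₀ v) = 0) :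
    f u (emb F₀ w) * f u (emb F₀ w') ∈ F₀ := by
  by_cases h0 : f u (emb F₀ w') = 0
  · rw [h0, mul_zero]; exact F₀.zero_mem
  apply hD
  have hs := hR.rho v w 0
  have h1 := M.mul_mem (M.mul_mem hs hu) (M.inv_mem hs)
  rw [tr_conj hf (hM hs), rho_mulVec hf hw, huv] at h1
  have h2 : rho hf (f u (emb F₀ w) • emb F₀ v) u 1 ∈ M := by
    unfold rho
    have e1 : tr hf u (-1) = (tr hf u 1)⁻¹ := (tr_inv hf u 1).symm
    rw [e1, sub_self, tr_zero, mul_one]
    have e2 : f u (emb F₀ w) • emb F₀ v + u = u + (0 : F) • emb F₀ w + f u (emb F₀ w) • emb F₀ v +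
      (((0 : F₀) : F) * 0) • emb F₀ v := by push_cast; module
    rw [e2]
    exact M.mul_mem (M.inv_mem hu) h1
  rw [rho_smul_left hf huv] at h2
  have ht := hR w' 1
  have h3 := M.mul_mem (M.mul_mem ht h2) (M.inv_mem ht)
  rw [rho_conj hf (hM ht), tr_mulVec, f_symm_zero hf hw', tr_mulVec, smul_left hf] at h3
  have e3 : emb F₀ v + (((1 : F₀) : F) * 0) • emb F₀ w' = emb F₀ v := by module
  rw [e3] at h3
  set μ := f u (emb F₀ w)
  set μ' := f u (emb F₀ w')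
  have h4 := M.mul_mem h3 (M.inv_mem h2)
  rw [rho_inv hf (by rw [smul_left hf, huv, mul_zero]), rho_mul hf
    (by rw [add_left hf, smul_left hf, smul_left hf, huv, hw']; ring)
    (by rw [neg_left hf, smul_left hf, huv]; ring)] at h4
  have e4 : μ • u + (((1 : F₀) : F) * (μ * μ')) • emb F₀ w' + -(μ • u) = (μ * μ') • emb F₀ w' := by
    push_cast; module
  rw [e4] at h4
  refine mem_D_of_pair hF hι hM hR hv hw' ?_ h4
  intro h
  obtain ⟨a, rfl⟩ := Submodule.mem_span_singleton.1 h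
  apply h0
  rw [show μ' = f u (emb F₀ (a • v)) from rfl, emb_smul, smul_right hf, huv, mul_zero]

lemma prod_mem' {u : ι → F} (hu : tr hf u 1 ∈ M) {v : ι → F₀} (hv : v ≠ 0) (huv : f u (emb F₀ v) = 0)
    (w w' : ι → F₀) : f u (emb F₀ w) * f u (emb F₀ w') ∈ F₀ := by
  obtain ⟨a, ha, hap⟩ := exists_perp_rat hf hF [v, w, w'] [] (by simp; omega)
  obtain ⟨b, hb, hbp⟩ := exists_perp_rat hf hF [v, w, w'] [a] (by simp; omega)
  have ha0 : a ≠ 0 := by
    rintro rfl; exact ha (Submodule.zero_mem _)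
  -- a rational vector orthogonal to `u`, `w`, `w'`
  obtain ⟨v', hv'0, huv', hwv', hw'v'⟩ : ∃ v' : ι → F₀, v' ≠ 0 ∧ f u (emb F₀ v') = 0 ∧
      f (emb F₀ w) (emb F₀ v') = 0 ∧ f (emb F₀ w') (emb F₀ v') = 0 := by
    by_cases h0 : f u (emb F₀ a) = 0
    · exact ⟨a, ha0, h0, f_symm_zero hf (hap w (by simp)), f_symm_zero hf (hap w' (by simp))⟩
    have h1 := prod_mem hF hι hM hR hD hu hv huv (hap v (by simp)) (hap v (by simp))
    have h2 := prod_mem hF hι hM hR hD hu hv huv (hbp v (by simp)) (hap v (by simp))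
    set t : F₀ := ⟨_, h2⟩ / ⟨_, h1⟩ with ht
    have ht' : (t : F) = f u (emb F₀ b) / f u (emb F₀ a) := by
      rw [ht]; push_cast
      field_simp
    refine ⟨b - t • a, ?_, ?_, ?_, ?_⟩
    · intro h
      apply hb
      rw [sub_eq_zero.1 h]
      exact Submodule.smul_mem _ _ (Submodule.subset_span (by simp))
    · rw [emb_sub, emb_smul, sub_right hf, smul_right hf, ht']
      field_simp
      ring
    · rw [emb_sub, emb_smul, sub_right hf, smul_right hf, f_symm_zero hf (hap w (by simp)),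
        f_symm_zero hf (hbp w (by simp))]; ring
    · rw [emb_sub, emb_smul, sub_right hf, smul_right hf, f_symm_zero hf (hap w' (by simp)),
        f_symm_zero hf (hbp w' (by simp))]; ring
  exact prod_mem hF hι hM hR hD hu hv'0 huv' hwv' hw'v'

lemma exists_smul_emb {u : ι → F} (hu : tr hf u 1 ∈ M) {v : ι → F₀} (hv : v ≠ 0)
    (huv : f u (emb F₀ v) = 0) : ∃ l : F, l ≠ 0 ∧ ∃ u₀ : ι → F₀, u = l • emb F₀ u₀ := by
  by_cases h0 : ∀ w : ι → F₀, f u (emb F₀ w) = 0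
  · exact ⟨1, one_ne_zero, 0, by rw [eq_zero_of_emb hf h0, emb_zero, smul_zero]⟩
  push Not at h0
  obtain ⟨w₁, hw₁⟩ := h0
  refine ⟨f u (emb F₀ w₁), hw₁, ?_⟩
  obtain ⟨u₀, hu₀⟩ := exists_emb hf hF (u := (f u (emb F₀ w₁))⁻¹ • u) (fun w => by
    have h1 := prod_mem' hF hι hM hR hD hu hv huv w w₁
    have h2 := prod_mem' hF hι hM hR hD hu hv huv w₁ w₁
    have h3 := F₀.div_mem h1 h2
    rw [smul_left hf]
    convert h3 using 1
    field_simp)
  refine ⟨u₀, ?_⟩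
  rw [← hu₀, smul_smul, mul_inv_cancel₀ hw₁, one_smul]

end small

/-- `g` maps the rational structure to a multiple of itself -/
def NormV (F₀ : Subfield F) (g : GL ι F) : Prop :=
  ∃ l : F, l ≠ 0 ∧ ∀ y : ι → F₀, ∃ y₁ : ι → F₀, (g : Matrix ι ι F) *ᵥ emb F₀ y = l • emb F₀ y₁

/-- `g` preserves the rational structure -/
def RatM (F₀ : Subfield F) (g : GL ι F) : Prop :=
  ∀ y : ι → F₀, ∃ y₁ : ι → F₀, (g : Matrix ι ι F) *ᵥ emb F₀ y = emb F₀ y₁

lemma f_emb_mem (hF : Rational F₀ f) (x y : ι → F₀) : f (emb F₀ x) (emb F₀ y) ∈ F₀ :=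
  hF _ _ (fun i => (x i).2) (fun i => (y i).2)

lemma normV_of_forall (hf : IsSymplecticForm f) (hF : Rational F₀ f) [Nonempty ι] {g : GL ι F} (hg : g ∈ isoGL f)
    (h : ∀ y : ι → F₀, ∃ l : F, l ≠ 0 ∧ ∃ u₀ : ι → F₀, (g : Matrix ι ι F) *ᵥ emb F₀ y = l • emb F₀ u₀) :
    NormV F₀ g := by
  obtain ⟨i⟩ := ‹Nonempty ι›
  set y₀ : ι → F₀ := Pi.single i 1 with hy₀
  have hy₀0 : y₀ ≠ 0 := by
    intro h
    have := congrFun h i
    simp [hy₀] at this
  obtain ⟨l₀, hl₀, y₀', hy₀'⟩ := h y₀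
  refine ⟨l₀, hl₀, fun y => ?_⟩
  by_cases hy : y = 0
  · exact ⟨0, by rw [hy, emb_zero, Matrix.mulVec_zero, smul_zero]⟩
  obtain ⟨l, hl, y', hy'⟩ := h y
  obtain ⟨z, hz1, hz2⟩ := exists_common (f0_symp hf hF) hy hy₀0
  obtain ⟨μ, hμ, z', hz'⟩ := h z
  have key : ∀ (a a' : ι → F₀) (k : F), (g : Matrix ι ι F) *ᵥ emb F₀ a = k • emb F₀ a' → f0 hF a z ≠ 0 →
      k * μ ∈ F₀ ∧ k * μ ≠ 0 := by
    intro a a' k hk hne
    have h1 := mem_isoGL.1 hg (emb F₀ a) (emb F₀ z)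
    rw [hk, hz', smul_left hf, smul_right hf] at h1
    have h2 : f (emb F₀ a) (emb F₀ z) ≠ 0 := fun h => hne (f0_eq_zero.2 h)
    have h3 : f (emb F₀ a') (emb F₀ z') ≠ 0 := by
      intro h; rw [h] at h1; apply h2; rw [← h1]; ring
    have h4 : k * μ = f (emb F₀ a) (emb F₀ z) / f (emb F₀ a') (emb F₀ z') := by
      rw [eq_div_iff h3, ← h1]; ring
    refine ⟨?_, ?_⟩
    · rw [h4]; exact F₀.div_mem (f_emb_mem hF _ _) (f_emb_mem hF _ _)
    · rw [h4]; exact div_ne_zero h2 h3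
  obtain ⟨k1, k1'⟩ := key y y' l hy' hz1
  obtain ⟨k2, k2'⟩ := key y₀ y₀' l₀ hy₀' hz2
  have h3 : l / l₀ ∈ F₀ := by
    have := F₀.div_mem k1 k2
    rwa [mul_div_mul_right _ _ hμ] at this
  refine ⟨(⟨l / l₀, h3⟩ : F₀) • y', ?_⟩
  rw [hy', emb_smul, smul_smul]
  congr 1
  field_simp

section small2
variable {hf : IsSymplecticForm f} (hF : Rational F₀ f) (hι : 10 < Fintype.card ι)
    {M : Subgroup (GL ι F)} (hM : M ≤ isoGL f) (hR : RatTr hf F₀ M) (hD : ∀ c ∈ Dset hf F₀ M, c ∈ F₀)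

include hF hι hM hR hD

lemma generic {g : GL ι F} (hg : g ∈ M) (hgN : ¬ NormV F₀ g) (x v : ι → F₀) (hx : x ≠ 0) (hv : v ≠ 0) :
    f ((g : Matrix ι ι F) *ᵥ emb F₀ x) (emb F₀ v) ≠ 0 := by
  intro hxv
  haveI : Nonempty ι := Fintype.card_pos_iff.1 (by omega)
  apply hgN
  apply normV_of_forall hf hF (hM hg)
  have htr : ∀ y : ι → F₀, tr hf ((g : Matrix ι ι F) *ᵥ emb F₀ y) 1 ∈ M := by
    intro y
    rw [← tr_conj hf (hM hg)]
    have := hR y 1
    push_cast at this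
    exact M.mul_mem (M.mul_mem hg this) (M.inv_mem hg)
  have hA : ∀ y v' : ι → F₀, v' ≠ 0 → f ((g : Matrix ι ι F) *ᵥ emb F₀ y) (emb F₀ v') = 0 →
      ∃ l : F, l ≠ 0 ∧ ∃ u₀ : ι → F₀, (g : Matrix ι ι F) *ᵥ emb F₀ y = l • emb F₀ u₀ :=
    fun y v' hv' h => exists_smul_emb hF hι hM hR hD (htr y) hv' h
  have hB : ∀ z : ι → F₀, z ≠ 0 → (∃ l : F, l ≠ 0 ∧ ∃ u₀ : ι → F₀, (g : Matrix ι ι F) *ᵥ emb F₀ z = l • emb F₀ u₀) →
      ∀ y : ι → F₀, f (emb F₀ y) (emb F₀ z) = 0 →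
      ∃ l : F, l ≠ 0 ∧ ∃ u₀ : ι → F₀, (g : Matrix ι ι F) *ᵥ emb F₀ y = l • emb F₀ u₀ := by
    rintro z hz ⟨l, hl, z₁, hz₁⟩ y hyz
    have hz₁0 : z₁ ≠ 0 := by
      rintro rfl
      rw [emb_zero, smul_zero] at hz₁
      apply hz
      rw [← emb_eq_zero]
      exact gl_mulVec_injective g (by simpa using hz₁)
    refine hA y z₁ hz₁0 ?_
    have h1 := mem_isoGL.1 (hM hg) (emb F₀ y) (emb F₀ z)
    rw [hyz, hz₁, smul_right hf] at h1
    exact (mul_eq_zero.1 h1).resolve_left hl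
  have hx' := hA x v hv hxv
  intro y
  obtain ⟨z, hz, hzp⟩ := exists_perp_rat hf hF [x, y] [] (by simp; omega)
  have hz0 : z ≠ 0 := by rintro rfl; exact hz (Submodule.zero_mem _)
  exact hB z hz0 (hB x hx hx' z (hzp x (by simp))) y (f_symm_zero hf (hzp y (by simp)))

lemma eq_one_of_fix {g : GL ι F} (hg : g ∈ M) (hgN : ¬ NormV F₀ g) {x : GL ι F} (hx : x ∈ isoGL f)
    {v₀ : ι → F₀} (hv₀ : v₀ ≠ 0) (hxv : (x : Matrix ι ι F) *ᵥ emb F₀ v₀ = emb F₀ v₀) (hr : RatM F₀ (g⁻¹ * x * g)) :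
    x = 1 := by
  have h1 : ∀ y : ι → F₀, (x : Matrix ι ι F) *ᵥ ((g : Matrix ι ι F) *ᵥ emb F₀ y) = (g : Matrix ι ι F) *ᵥ emb F₀ y := by
    intro y
    obtain ⟨y₁, hy₁⟩ := hr y
    rw [gl_mul_mulVec, gl_mul_mulVec] at hy₁
    have h2 : (x : Matrix ι ι F) *ᵥ ((g : Matrix ι ι F) *ᵥ emb F₀ y) = (g : Matrix ι ι F) *ᵥ emb F₀ y₁ := by
      rw [← hy₁, gl_mulVec_inv]
    rw [h2]
    have h3 : f ((g : Matrix ι ι F) *ᵥ emb F₀ (y₁ - y)) (emb F₀ v₀) = 0 := by
      rw [emb_sub, Matrix.mulVec_sub, sub_left hf, ← h2]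
      nth_rw 1 [← hxv]
      rw [mem_isoGL.1 hx, sub_self]
    have h4 : y₁ - y = 0 := by
      by_contra hne
      exact generic hF hι hM hR hD hg hgN _ _ hne hv₀ h3
    rw [sub_eq_zero.1 h4]
  have h5 : x * g = g := by
    apply Units.ext
    apply Matrix.ext_of_mulVec_single
    intro i
    rw [gl_mul_mulVec, ← emb_single (F₀ := F₀)]
    exact h1 _
  exact mul_eq_right.1 h5

lemma card_le_finrank [Finite F] {g : GL ι F} (hg : g ∈ M) (hgN : ¬ NormV F₀ g) :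
    Fintype.card ι ≤ Module.finrank F₀ F := by
  haveI : Nonempty ι := Fintype.card_pos_iff.1 (by omega)
  obtain ⟨i⟩ := ‹Nonempty ι›
  set y₀ : ι → F₀ := Pi.single i 1 with hy₀
  have hy₀0 : y₀ ≠ 0 := by
    intro h
    have := congrFun h i
    simp [hy₀] at this
  let φ : (ι → F₀) →ₗ[F₀] F :=
    { toFun := fun w => f ((g : Matrix ι ι F) *ᵥ emb F₀ y₀) (emb F₀ w)
      map_add' := fun a b => by rw [emb_add, add_right hf]
      map_smul' := fun c a => by rw [emb_smul, smul_right hf]; rfl }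
  have hinj : Function.Injective φ := by
    rw [injective_iff_map_eq_zero]
    intro a ha
    by_contra hne
    exact generic hF hι hM hR hD hg hgN _ _ hy₀0 hne ha
  have := LinearMap.finrank_le_finrank_of_injective hinj
  rwa [Module.finrank_fintype_fun_eq_card] at this

end small2

end Symp

end Cfsg.Agent.GeoMax
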