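import Cfsg.Agent.GeoMax.SubSp

/-!
The coefficient ring of the short root elements of a subgroup containing the rational transvections.
-/

set_option autoImplicit false
set_option linter.unusedSectionVars false

namespace Cfsg.Agent.GeoMax

open Matrix
open scoped MatrixGroups
open Cfsg.Geo

namespace Symp

variable {ι : Type} [Fintype ι] [DecidableEq ι] {F : Type*} [Field F]
variable {f : (ι → F) → (ι → F) → F} {F₀ : Subfield F}

/-- All transvections over the subfield lie in `M`. -/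
def RatTr (hf : IsSymplecticForm f) (F₀ : Subfield F) (M : Subgroup (GL ι F)) : Prop :=
  ∀ (v : ι → F₀) (a : F₀), tr hf (emb F₀ v) a ∈ M

lemma RatTr.rho {hf : IsSymplecticForm f} {M : Subgroup (GL ι F)} (h : RatTr hf F₀ M) (u y : ι → F₀) (c : F₀) :
    Symp.rho hf (emb F₀ u) (emb F₀ y) c ∈ M := by
  unfold Symp.rho
  have h1 := h y (-1)
  have h2 := h (u + y) 1
  have h3 := h u (c - 1)
  rw [emb_add] at h2
  push_cast at h1 h2 h3
  exact M.mul_mem (M.mul_mem h1 h2) h3

/-- separation over the subfield -/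
lemma exists_sep_rat (hf : IsSymplecticForm f) (hF : Rational F₀ f) {W : Submodule F₀ (ι → F₀)} {x : ι → F₀}
    (hx : x ∉ W) : ∃ z : ι → F₀, (∀ w ∈ W, f (emb F₀ w) (emb F₀ z) = 0) ∧ f (emb F₀ x) (emb F₀ z) = 1 := by
  obtain ⟨z, hz, hxz⟩ := exists_perp_ne (f0_symp hf hF) hx
  refine ⟨(f0 hF x z)⁻¹ • z, fun w hw => ?_, ?_⟩
  · rw [emb_smul, smul_right hf, f0_eq_zero.1 (hz w hw), mul_zero]
  · rw [emb_smul, smul_right hf, ← f0_coe hF, ← MulMemClass.coe_mul, inv_mul_cancel₀ hxz]; rfl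

lemma exists_perp_rat (hf : IsSymplecticForm f) (hF : Rational F₀ f) (l l' : List (ι → F₀))
    (hl : l.length + l'.length < Fintype.card ι) :
    ∃ w : ι → F₀, w ∉ Submodule.span F₀ {x | x ∈ l'} ∧ ∀ v ∈ l, f (emb F₀ w) (emb F₀ v) = 0 := by
  by_contra hcon
  push Not at hcon
  have h1 : perp (f0_symp hf hF) (Submodule.span F₀ {x | x ∈ l}) ≤ Submodule.span F₀ {x | x ∈ l'} := by
    intro w hw
    by_contra hw'
    obtain ⟨v, hv, hne⟩ := hcon w hw'
    rw [mem_perp'] at hw
    exact hne (f0_eq_zero.1 (hw v (Submodule.subset_span hv)))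
  have h2 := Submodule.finrank_mono h1
  rw [finrank_perp] at h2
  have h3 := finrank_span_list_le (K := F₀) l
  have h4 := finrank_span_list_le (K := F₀) l'
  omega

lemma exists_hyp_rat (hf : IsSymplecticForm f) (hF : Rational F₀ f) (l : List (ι → F₀))
    (hl : 2 * l.length < Fintype.card ι) :
    ∃ p p' : ι → F₀, f (emb F₀ p) (emb F₀ p') = 1 ∧ (∀ v ∈ l, f (emb F₀ v) (emb F₀ p) = 0) ∧
      (∀ v ∈ l, f (emb F₀ v) (emb F₀ p') = 0) := by
  have h3 := finrank_span_list_le (K := F₀) l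
  obtain ⟨p, hp, p', hp', hpp⟩ := exists_hyp_perp (f0_symp hf hF) (Submodule.span F₀ {x | x ∈ l}) (by omega)
  refine ⟨p, p', ?_, fun v hv => ?_, fun v hv => ?_⟩
  · rw [← f0_coe hF, hpp]; rfl
  · exact f0_eq_zero.1 (mem_perp.1 hp v (Submodule.subset_span hv))
  · exact f0_eq_zero.1 (mem_perp.1 hp' v (Submodule.subset_span hv))

/-- coefficients of short root elements -/
def Dset (hf : IsSymplecticForm f) (F₀ : Subfield F) (M : Subgroup (GL ι F)) : Set F :=
  {c | ∀ v w : ι → F₀, f (emb F₀ w) (emb F₀ v) = 0 → rho hf (emb F₀ v) (c • emb F₀ w) 0 ∈ M}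

lemma f_symm_zero (hf : IsSymplecticForm f) {u v : ι → F} (h : f u v = 0) : f v u = 0 := by
  rw [skew hf, h, neg_zero]

lemma D_add {hf : IsSymplecticForm f} {M : Subgroup (GL ι F)} {c d : F} (hc : c ∈ Dset hf F₀ M)
    (hd : d ∈ Dset hf F₀ M) : c + d ∈ Dset hf F₀ M := by
  intro v w h
  have h1 := M.mul_mem (hc v w h) (hd v w h)
  rw [rho_mul hf (by rw [smul_left hf, h, mul_zero]) (by rw [smul_left hf, h, mul_zero])] at h1
  rw [smul_left hf, smul_right hf, self hf, mul_zero, mul_zero, add_zero, add_zero, ← add_smul] at h1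
  exact h1

/-- moving the second vector of a short root element -/
lemma rho_move (hf : IsSymplecticForm f) {M : Subgroup (GL ι F)} (hM : M ≤ isoGL f) {v w z p' : ι → F} {c e : F}
    (hwv : f w v = 0) (hzv : f z v = 0) (hpv : f p' v = 0) (hwz : f w z = 0) (hwp : f w p' = 1)
    (h1 : rho hf v (c • w) e ∈ M) {d : F} (h2 : rho hf p' (d • z) 0 ∈ M) (hpz : f p' z = 0) :
    rho hf v ((c * d) • z) 0 ∈ M := by
  have hzp : f z p' = 0 := f_symm_zero hf hpz
  have hB := M.mul_mem (M.mul_mem h2 h1) (M.inv_mem h2)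
  rw [rho_conj hf (hM h2)] at hB
  have hBv : ((rho hf p' (d • z) 0 : GL ι F) : Matrix ι ι F) *ᵥ v = v := by
    rw [rho_mulVec hf (by rw [smul_left hf, hzp, mul_zero]), smul_right hf, f_symm_zero hf hpv, f_symm_zero hf hzv]
    simp
  have hBw : ((rho hf p' (d • z) 0 : GL ι F) : Matrix ι ι F) *ᵥ (c • w) = c • w + (c * d) • z := by
    rw [rho_mulVec hf (by rw [smul_left hf, hzp, mul_zero]), smul_right hf, smul_left hf, smul_left hf, hwp, hwz]
    module
  rw [hBv, hBw] at hB
  have h3 := M.mul_mem hB (M.inv_mem h1)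
  rw [rho_inv hf (by rw [smul_left hf, hwv, mul_zero]), rho_mul hf
    (by rw [add_left hf, smul_left hf, smul_left hf, hwv, hzv]; ring)
    (by rw [neg_left hf, smul_left hf, hwv]; ring)] at h3
  have e1 : c • w + (c * d) • z + -(c • w) = (c * d) • z := by module
  have e2 : e + -e + f (-(c • w)) (c • w + (c * d) • z) = 0 := by
    rw [neg_left hf, smul_left hf, add_right hf, smul_right hf, smul_right hf, self hf, hwz]; ring
  rwa [e1, e2] at h3

lemma D_mul {hf : IsSymplecticForm f} (hF : Rational F₀ f) (hι : 4 < Fintype.card ι)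
    {M : Subgroup (GL ι F)} (hM : M ≤ isoGL f) {c d : F} (hc : c ∈ Dset hf F₀ M)
    (hd : d ∈ Dset hf F₀ M) : c * d ∈ Dset hf F₀ M := by
  intro v w h
  obtain ⟨p, p', hpp, hp, hp'⟩ := exists_hyp_rat hf hF [v, w] (by simpa using hι)
  have hvp := hp v (by simp)
  have hwp := hp w (by simp)
  have hvp' := hp' v (by simp)
  have hwp' := hp' w (by simp)
  exact rho_move hf hM (f_symm_zero hf hvp) h (f_symm_zero hf hvp') (f_symm_zero hf hwp) hpp
    (hc v p (f_symm_zero hf hvp)) (hd p' w hwp') (f_symm_zero hf hwp')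

lemma D_rat {hf : IsSymplecticForm f} {M : Subgroup (GL ι F)} (hR : RatTr hf F₀ M) (c : F₀) :
    (c : F) ∈ Dset hf F₀ M := by
  intro v w _
  have := hR.rho v (c • w) 0
  rwa [emb_smul] at this

/-- the coefficient algebra -/
def Dalg (hf : IsSymplecticForm f) (hF : Rational F₀ f) (hι : 4 < Fintype.card ι)
    (M : Subgroup (GL ι F)) (hM : M ≤ isoGL f) (hR : RatTr hf F₀ M) : Subalgebra F₀ F where
  carrier := Dset hf F₀ M
  mul_mem' := D_mul hF hι hM
  add_mem' := D_add
  algebraMap_mem' := fun c => D_rat hR c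

lemma mem_Dalg {hf : IsSymplecticForm f} {hF : Rational F₀ f} {hι : 4 < Fintype.card ι}
    {M : Subgroup (GL ι F)} {hM : M ≤ isoGL f} {hR : RatTr hf F₀ M} {c : F} :
    c ∈ Dalg hf hF hι M hM hR ↔ c ∈ Dset hf F₀ M := Iff.rfl

lemma finrank_eq_of_card [Fintype F] {r : ℕ} (hcard : Fintype.card F = Nat.card F₀ ^ r) :
    Module.finrank F₀ F = r := by
  haveI : Fintype F₀ := Fintype.ofFinite _
  have h1 := Module.card_eq_pow_finrank (K := F₀) (V := F)
  rw [hcard, Nat.card_eq_fintype_card] at h1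
  have h2 : 1 < Fintype.card F₀ := Fintype.one_lt_card
  exact (Nat.pow_right_injective h2 h1).symm

lemma D_cases [Fintype F] {hf : IsSymplecticForm f} (hF : Rational F₀ f) (hι : 4 < Fintype.card ι)
    {M : Subgroup (GL ι F)} (hM : M ≤ isoGL f) (hR : RatTr hf F₀ M) {r : ℕ} (hr : r.Prime)
    (hcard : Fintype.card F = Nat.card F₀ ^ r) :
    (∀ c, c ∈ Dset hf F₀ M) ∨ (∀ c ∈ Dset hf F₀ M, c ∈ F₀) := by
  have hfin := finrank_eq_of_card hcard
  have hs := Subalgebra.isSimpleOrder_of_finrank_prime F₀ F (by rw [hfin]; exact hr)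
  rcases eq_bot_or_eq_top (Dalg hf hF hι M hM hR) with h | h
  · right
    intro c hc
    have : c ∈ Dalg hf hF hι M hM hR := hc
    rw [h, Algebra.mem_bot] at this
    obtain ⟨a, rfl⟩ := this
    exact a.2
  · left
    intro c
    have : c ∈ Dalg hf hF hι M hM hR := by rw [h]; trivial
    exact this

/-! ### The case where all coefficients occur -/

lemma TS_of_D_all [Finite F] {hf : IsSymplecticForm f} (hF : Rational F₀ f) (hι : 4 < Fintype.card ι)
    {M : Subgroup (GL ι F)} (hM : M ≤ isoGL f) (hR : RatTr hf F₀ M)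
    (hD : ∀ c, c ∈ Dset hf F₀ M) (v : ι → F₀) : TS hf M (emb F₀ v) := by
  by_cases hv : v = 0
  · rw [hv, emb_zero]; exact TS.zero hf M
  -- squares
  have hsq : ∀ d : F, tr hf (emb F₀ v) (d * d) ∈ M := by
    intro d
    obtain ⟨w, w', hww, hw, hw'⟩ := exists_hyp_rat hf hF [v] (by simp; omega)
    have hvw := hw v (by simp)
    have hvw' := hw' v (by simp)
    have hB : rho hf (emb F₀ v) (d • emb F₀ w') 0 ∈ M := hD d v w' (f_symm_zero hf hvw')
    have h1 := M.mul_mem (M.mul_mem hB (hR w 1)) (M.inv_mem hB)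
    rw [tr_conj hf (hM hB), rho_mulVec hf (by rw [smul_left hf, f_symm_zero hf hvw', mul_zero]), smul_right hf,
      f_symm_zero hf hvw, hww] at h1
    have h2 := hD d w v hvw
    have h3 := hR w (0 - 1)
    have h4 := M.mul_mem (M.mul_mem h2 (M.inv_mem h3)) (M.inv_mem h1)
    have e : rho hf (emb F₀ w) (d • emb F₀ v) 0 * (tr hf (emb F₀ w) ((0 - 1 : F₀) : F))⁻¹ *
        (tr hf (emb F₀ w + (0 : F) • d • emb F₀ w' + (d * 1) • emb F₀ v + (0 * 0 : F) • emb F₀ v) ((1 : F₀) : F))⁻¹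
        = tr hf (d • emb F₀ v) (-1) := by
      unfold rho
      have e1 : emb F₀ w + (0 : F) • d • emb F₀ w' + (d * 1) • emb F₀ v + (0 * 0 : F) • emb F₀ v =
        emb F₀ w + d • emb F₀ v := by module
      rw [e1]
      push_cast
      group
    rw [e] at h4
    have h5 := M.inv_mem h4
    rw [tr_inv, tr_smul, neg_neg, mul_one] at h5
    exact h5
  intro c
  by_cases h2 : (2 : F) = 0
  · -- characteristic two: every element is a square
    have hc2 : CharP F 2 := CharTwo.of_one_ne_zero_of_two_eq_zero one_ne_zero h2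
    haveI : Fintype F := Fintype.ofFinite F
    obtain ⟨d, hd⟩ := FiniteField.isSquare_of_char_two (ringChar.eq F 2 ▸ rfl : ringChar F = 2) c
    rw [hd]; exact hsq d
  · have e : c = ((c + 1) / 2) * ((c + 1) / 2) + -(((c - 1) / 2) * ((c - 1) / 2)) := by
      field_simp; ring
    rw [e, ← tr_add, ← tr_inv]
    exact M.mul_mem (hsq _) (M.inv_mem (hsq _))

lemma TS_add_rat {hf : IsSymplecticForm f} {M : Subgroup (GL ι F)}
    (hT : ∀ v : ι → F₀, TS hf M (emb F₀ v)) {x : ι → F} (hx : TS hf M x) (l : F) (v : ι → F₀) :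
    TS hf M (x + l • emb F₀ v) := by
  by_cases h0 : f x (emb F₀ v) = 0
  swap
  · exact hx.add (hT v) h0 l
  by_cases hx0 : x = 0
  · rw [hx0, zero_add]; exact (hT v).smul l
  by_cases hx1 : x + l • emb F₀ v = 0
  · rw [hx1]; exact TS.zero hf M
  obtain ⟨y, hy1, hy2⟩ : ∃ y : ι → F₀, f x (emb F₀ y) ≠ 0 ∧ f (x + l • emb F₀ v) (emb F₀ y) ≠ 0 := by
    obtain ⟨y1, h1⟩ : ∃ y : ι → F₀, f x (emb F₀ y) ≠ 0 := by
      by_contra hcon; push Not at hcon; exact hx0 (eq_zero_of_emb hf hcon)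
    obtain ⟨y2, h2⟩ : ∃ y : ι → F₀, f (x + l • emb F₀ v) (emb F₀ y) ≠ 0 := by
      by_contra hcon; push Not at hcon; exact hx1 (eq_zero_of_emb hf hcon)
    by_cases h3 : f (x + l • emb F₀ v) (emb F₀ y1) = 0
    · by_cases h4 : f x (emb F₀ y2) = 0
      · refine ⟨y1 + y2, ?_, ?_⟩
        · rw [emb_add, add_right hf, h4, add_zero]; exact h1
        · rw [emb_add, add_right hf, h3, zero_add]; exact h2
      · exact ⟨y2, h4, h2⟩
    · exact ⟨y1, h1, h3⟩
  have h1 : TS hf M (x + l • emb F₀ (v + y)) := hx.add (hT _) (by rw [emb_add, add_right hf, h0, zero_add]; exact hy1) l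
  have h2 := h1.add (hT y) (by
    rw [emb_add, smul_add, ← add_assoc, add_left hf, smul_left hf, self hf, mul_zero, add_zero]; exact hy2) (-l)
  have e : x + l • emb F₀ (v + y) + -l • emb F₀ y = x + l • emb F₀ v := by rw [emb_add]; module
  rwa [e] at h2

theorem iso_le_of_D_all [Finite F] {hf : IsSymplecticForm f} (hF : Rational F₀ f) (hι : 4 < Fintype.card ι)
    {M : Subgroup (GL ι F)} (hM : M ≤ isoGL f) (hR : RatTr hf F₀ M)
    (hD : ∀ c, c ∈ Dset hf F₀ M) : isoGL f ≤ M := by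
  have hT := TS_of_D_all hF hι hM hR hD
  refine iso_le_of_TS hf M fun v => ?_
  have : ∀ s : Finset ι, TS hf M (∑ i ∈ s, v i • Pi.single i (1 : F)) := by
    intro s
    induction s using Finset.induction_on with
    | empty => simpa using TS.zero hf M
    | insert i s hi ih =>
      rw [Finset.sum_insert hi, add_comm, ← emb_single (F₀ := F₀) i]
      exact TS_add_rat hT ih _ _
  have h := this Finset.univ
  have e : ∑ i, v i • Pi.single i (1 : F) = v := by
    ext j
    simp [Finset.sum_apply, Pi.single_apply]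
  rwa [e] at h

end Symp

end Cfsg.Agent.GeoMax
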