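import Cfsg.Agent.GeoMax.Decomp

/-! Isometries swapping two orthogonal non-degenerate subspaces of the same dimension (symplectic). -/

set_option autoImplicit false
set_option linter.unusedSectionVars false

namespace Cfsg.Agent.GeoMax

open Matrix
open scoped MatrixGroups
open Cfsg.Geo Symp

namespace Symp

variable {ι : Type} [Fintype ι] [DecidableEq ι] {F : Type*} [Field F]
variable {f : (ι → F) → (ι → F) → F}

lemma swap_fun_invol (hf : IsSymplecticForm f) {e e' : ι → F} (h : f e e' = 2) (x : ι → F) :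
    (x - f x e' • e + f x e • e') - f (x - f x e' • e + f x e • e') e' • e + f (x - f x e' • e + f x e • e') e • e' = x := by
  have h' : f e' e = -2 := by rw [skew hf, h]
  simp only [add_left hf, sub_left hf, smul_left hf, self hf, h, h', mul_zero, add_zero, sub_zero]
  module

/-- `x ↦ x - f(x,e') e + f(x,e) e'` with `f(e,e') = 2`. -/
def swapEl (hf : IsSymplecticForm f) (e e' : ι → F) (h : f e e' = 2) : GL ι F where
  val := 1 - vecMulVec e (formVec f e') + vecMulVec e' (formVec f e)
  inv := 1 - vecMulVec e (formVec f e') + vecMulVec e' (formVec f e)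
  val_inv := by
    apply Matrix.ext_of_mulVec_single
    intro i
    have key : ∀ x : ι → F, (1 - vecMulVec e (formVec f e') + vecMulVec e' (formVec f e) : Matrix ι ι F) *ᵥ x =
        x - f x e' • e + f x e • e' := by
      intro x
      rw [Matrix.add_mulVec, Matrix.sub_mulVec, Matrix.one_mulVec, Matrix.vecMulVec_mulVec, Matrix.vecMulVec_mulVec,
        formVec_dotProduct (linLeft hf), formVec_dotProduct (linLeft hf)]
      simp
    rw [← Matrix.mulVec_mulVec, key, key, swap_fun_invol hf h, Matrix.one_mulVec]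
  inv_val := by
    apply Matrix.ext_of_mulVec_single
    intro i
    have key : ∀ x : ι → F, (1 - vecMulVec e (formVec f e') + vecMulVec e' (formVec f e) : Matrix ι ι F) *ᵥ x =
        x - f x e' • e + f x e • e' := by
      intro x
      rw [Matrix.add_mulVec, Matrix.sub_mulVec, Matrix.one_mulVec, Matrix.vecMulVec_mulVec, Matrix.vecMulVec_mulVec,
        formVec_dotProduct (linLeft hf), formVec_dotProduct (linLeft hf)]
      simp
    rw [← Matrix.mulVec_mulVec, key, key, swap_fun_invol hf h, Matrix.one_mulVec]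

lemma swapEl_mulVec (hf : IsSymplecticForm f) (e e' : ι → F) (h : f e e' = 2) (x : ι → F) :
    (swapEl hf e e' h : Matrix ι ι F) *ᵥ x = x - f x e' • e + f x e • e' := by
  change (1 - vecMulVec e (formVec f e') + vecMulVec e' (formVec f e) : Matrix ι ι F) *ᵥ x = _
  rw [Matrix.add_mulVec, Matrix.sub_mulVec, Matrix.one_mulVec, Matrix.vecMulVec_mulVec, Matrix.vecMulVec_mulVec,
    formVec_dotProduct (linLeft hf), formVec_dotProduct (linLeft hf)]
  simp

lemma swapEl_mem_iso (hf : IsSymplecticForm f) (e e' : ι → F) (h : f e e' = 2) : swapEl hf e e' h ∈ isoGL f := by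
  rw [mem_isoGL]
  intro x y
  have h' : f e' e = -2 := by rw [skew hf, h]
  rw [swapEl_mulVec, swapEl_mulVec]
  simp only [add_left hf, sub_left hf, smul_left hf, add_right hf, sub_right hf, smul_right hf, self hf, h, h']
  rw [skew hf e y, skew hf e' y]
  ring

/-- the part of `A` orthogonal to a hyperbolic pair of `A` -/
lemma peel (hf : IsSymplecticForm f) {A : Submodule F (ι → F)} (hA : IsNondegenerateOn f A) {a b : ι → F}
    (ha : a ∈ A) (hb : b ∈ A) (hab : f a b = 1) :
    ∃ A₁ : Submodule F (ι → F), A₁ ≤ A ∧ IsNondegenerateOn f A₁ ∧ Module.finrank F A₁ + 2 = Module.finrank F A ∧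
      (∀ x ∈ A₁, f x a = 0 ∧ f x b = 0) ∧ (∀ x ∈ A, x - f x b • a + f x a • b ∈ A₁) := by
  have hba : f b a = -1 := by rw [skew hf, hab]
  let P : Submodule F (ι → F) := Submodule.span F {a, b}
  have hA₁ : ∀ x, x ∈ A ⊓ perp hf P ↔ x ∈ A ∧ f x a = 0 ∧ f x b = 0 := by
    intro x
    rw [Submodule.mem_inf]
    refine and_congr_right fun _ => ?_
    rw [mem_perp']
    constructor
    · intro h; exact ⟨h a (Submodule.subset_span (by simp)), h b (Submodule.subset_span (by simp))⟩
    · rintro ⟨h1, h2⟩ w hw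
      obtain ⟨s, r, rfl⟩ := Submodule.mem_span_pair.1 hw
      rw [add_right hf, smul_right hf, smul_right hf, h1, h2]; ring
  have hproj : ∀ x ∈ A, x - f x b • a + f x a • b ∈ A ⊓ perp hf P := by
    intro x hx
    rw [hA₁]
    refine ⟨A.add_mem (A.sub_mem hx (A.smul_mem _ ha)) (A.smul_mem _ hb), ?_, ?_⟩
    · rw [add_left hf, sub_left hf, smul_left hf, smul_left hf, self hf, hba]; ring
    · rw [add_left hf, sub_left hf, smul_left hf, smul_left hf, self hf, hab]; ring
  refine ⟨A ⊓ perp hf P, inf_le_left, ?_, ?_, fun x hx => ((hA₁ x).1 hx).2, hproj⟩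
  · intro w hw hw0
    obtain ⟨hwA, hwa, hwb⟩ := (hA₁ w).1 hw
    obtain ⟨-, z, hz, hwz⟩ := hA w hwA hw0
    have hz' := hproj z hz
    have h1 : f w (z - f z b • a + f z a • b) = f w z := by
      rw [add_right hf, sub_right hf, smul_right hf, smul_right hf, hwa, hwb]; ring
    refine ⟨⟨_, hz', ?_⟩, ⟨_, hz', ?_⟩⟩
    · rw [skew hf, h1]; exact neg_ne_zero.2 hwz
    · rw [h1]; exact hwz
  · have hPA : P ≤ A := by
      rw [Submodule.span_le]
      rintro x (rfl | rfl)
      · exact ha
      · exact hb
    have hsup : (A ⊓ perp hf P) ⊔ P = A := by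
      apply le_antisymm (sup_le inf_le_left hPA)
      intro x hx
      have h1 : x = (x - f x b • a + f x a • b) + (f x b • a - f x a • b) := by abel
      rw [h1]
      exact Submodule.add_mem_sup (hproj x hx)
        (P.sub_mem (P.smul_mem _ (Submodule.subset_span (by simp))) (P.smul_mem _ (Submodule.subset_span (by simp))))
    have hinf : (A ⊓ perp hf P) ⊓ P = ⊥ := by
      rw [Submodule.eq_bot_iff]
      intro x hx
      obtain ⟨hx1, hx2⟩ := Submodule.mem_inf.1 hx
      obtain ⟨-, hxa, hxb⟩ := (hA₁ x).1 hx1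
      obtain ⟨s, r, rfl⟩ := Submodule.mem_span_pair.1 hx2
      rw [add_left hf, smul_left hf, smul_left hf, self hf, hba] at hxa
      rw [add_left hf, smul_left hf, smul_left hf, self hf, hab] at hxb
      have hr : r = 0 := by linear_combination -hxa
      have hs : s = 0 := by linear_combination hxb
      rw [hr, hs]; simp
    have hP2 : Module.finrank F P = 2 := by
      have hli : LinearIndependent F ![a, b] := by
        rw [LinearIndependent.pair_iff]
        intro s r hsr
        have h1 : f (s • a + r • b) a = 0 := by rw [hsr, zero_left hf]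
        have h2 : f (s • a + r • b) b = 0 := by rw [hsr, zero_left hf]
        rw [add_left hf, smul_left hf, smul_left hf, self hf, hba] at h1
        rw [add_left hf, smul_left hf, smul_left hf, self hf, hab] at h2
        exact ⟨by linear_combination h2, by linear_combination -h1⟩
      have h1 := finrank_span_eq_card hli
      rw [Matrix.range_cons_cons_empty] at h1
      exact h1
    have := Submodule.finrank_sup_add_finrank_inf_eq (A ⊓ perp hf P) P
    rw [hsup, hinf, finrank_bot, hP2] at this
    omega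

lemma exists_hyp (hf : IsSymplecticForm f) {A : Submodule F (ι → F)} (hA : IsNondegenerateOn f A) (hA0 : A ≠ ⊥) :
    ∃ a ∈ A, ∃ b ∈ A, f a b = 1 := by
  obtain ⟨a, ha, ha0⟩ := Submodule.exists_mem_ne_zero_of_ne_bot hA0
  obtain ⟨-, z, hz, haz⟩ := hA a ha ha0
  exact ⟨a, ha, (f a z)⁻¹ • z, A.smul_mem _ hz, by rw [smul_right hf, inv_mul_cancel₀ haz]⟩

theorem exists_swap (hf : IsSymplecticForm f) : ∀ (n : ℕ) (A B : Submodule F (ι → F)), Module.finrank F A = n →
    Module.finrank F B = n → IsNondegenerateOn f A → IsNondegenerateOn f B → (∀ a ∈ A, ∀ b ∈ B, f a b = 0) →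
    ∃ s ∈ isoGL f, (∀ a ∈ A, (s : Matrix ι ι F) *ᵥ a ∈ B) ∧ (∀ b ∈ B, (s : Matrix ι ι F) *ᵥ b ∈ A) ∧
      (∀ x, (∀ a ∈ A, f x a = 0) → (∀ b ∈ B, f x b = 0) → (s : Matrix ι ι F) *ᵥ x = x) := by
  intro n
  induction n using Nat.strong_induction_on with
  | _ n ih =>
    intro A B hAn hBn hA hB hAB
    by_cases hA0 : A = ⊥
    · have hn : n = 0 := by rw [← hAn, hA0, finrank_bot]
      have hB0 : B = ⊥ := by
        rw [← Submodule.finrank_eq_zero (R := F), hBn, hn]
      refine ⟨1, (isoGL f).one_mem, ?_, ?_, ?_⟩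
      · intro a ha
        rw [hA0, Submodule.mem_bot] at ha
        rw [ha]; simp
      · intro a ha
        rw [hB0, Submodule.mem_bot] at ha
        rw [ha]; simp
      · intro x _ _; simp
    · have hB0 : B ≠ ⊥ := by
        intro h
        apply hA0
        rw [← Submodule.finrank_eq_zero (R := F), hAn, ← hBn, h, finrank_bot]
      obtain ⟨a, ha, b, hb, hab⟩ := exists_hyp hf hA hA0
      obtain ⟨a', ha', b', hb', hab'⟩ := exists_hyp hf hB hB0
      obtain ⟨A₁, hA₁A, hA₁, hA₁n, hA₁p, hA₁pr⟩ := peel hf hA ha hb hab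
      obtain ⟨B₁, hB₁B, hB₁, hB₁n, hB₁p, hB₁pr⟩ := peel hf hB ha' hb' hab'
      obtain ⟨s₁, hs₁I, hs₁A, hs₁B, hs₁⟩ := ih (Module.finrank F A₁) (by omega) A₁ B₁ rfl (by omega) hA₁ hB₁
        (fun x hx y hy => hAB x (hA₁A hx) y (hB₁B hy))
      have hba : f b a = -1 := by rw [skew hf, hab]
      have hba' : f b' a' = -1 := by rw [skew hf, hab']
      have hBA : ∀ b ∈ B, ∀ a ∈ A, f b a = 0 := fun b hb a ha => by rw [skew hf, hAB a ha b hb, neg_zero]
      have h2 : f (a - a') (b - b') = 2 := by
        rw [sub_left hf, sub_right hf, sub_right hf, hab, hab', hAB a ha b' hb', hBA a' ha' b hb]; ring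
      refine ⟨s₁ * swapEl hf (a - a') (b - b') h2, (isoGL f).mul_mem hs₁I (swapEl_mem_iso hf _ _ h2), ?_, ?_, ?_⟩
      · intro x hx
        have hx1 := hA₁pr x hx
        have e1 : (swapEl hf (a - a') (b - b') h2 : Matrix ι ι F) *ᵥ x =
            (x - f x b • a + f x a • b) + (f x b • a' - f x a • b') := by
          rw [swapEl_mulVec, sub_right hf, sub_right hf, hAB x hx b' hb', hAB x hx a' ha']
          module
        have e2 : (s₁ : Matrix ι ι F) *ᵥ (f x b • a' - f x a • b') = f x b • a' - f x a • b' := by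
          apply hs₁
          · intro z hz
            rw [sub_left hf, smul_left hf, smul_left hf, hBA _ ha' _ (hA₁A hz), hBA _ hb' _ (hA₁A hz)]; ring
          · intro z hz
            rw [sub_left hf, smul_left hf, smul_left hf, skew hf a' z, skew hf b' z, (hB₁p z hz).1, (hB₁p z hz).2]; ring
        rw [gl_mul_mulVec, e1, Matrix.mulVec_add, e2]
        exact B.add_mem (hB₁B (hs₁A _ hx1)) (B.sub_mem (B.smul_mem _ ha') (B.smul_mem _ hb'))
      · intro x hx
        have hx1 := hB₁pr x hx
        have e1 : (swapEl hf (a - a') (b - b') h2 : Matrix ι ι F) *ᵥ x =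
            (x - f x b' • a' + f x a' • b') + (f x b' • a - f x a' • b) := by
          rw [swapEl_mulVec, sub_right hf, sub_right hf, hBA x hx b hb, hBA x hx a ha]
          module
        have e2 : (s₁ : Matrix ι ι F) *ᵥ (f x b' • a - f x a' • b) = f x b' • a - f x a' • b := by
          apply hs₁
          · intro z hz
            rw [sub_left hf, smul_left hf, smul_left hf, skew hf a z, skew hf b z, (hA₁p z hz).1, (hA₁p z hz).2]; ring
          · intro z hz
            rw [sub_left hf, smul_left hf, smul_left hf, hAB _ ha _ (hB₁B hz), hAB _ hb _ (hB₁B hz)]; ring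
        rw [gl_mul_mulVec, e1, Matrix.mulVec_add, e2]
        exact A.add_mem (hA₁A (hs₁B _ hx1)) (A.sub_mem (A.smul_mem _ ha) (A.smul_mem _ hb))
      · intro x hxA hxB
        have e1 : (swapEl hf (a - a') (b - b') h2 : Matrix ι ι F) *ᵥ x = x := by
          rw [swapEl_mulVec, sub_right hf, sub_right hf, hxA a ha, hxA b hb, hxB a' ha', hxB b' hb']
          simp
        rw [gl_mul_mulVec, e1]
        exact hs₁ x (fun z hz => hxA z (hA₁A hz)) (fun z hz => hxB z (hB₁B hz))

end Symp

end Cfsg.Agent.GeoMax
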