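import Cfsg.Agent.GeoMax.USubO

/-!
Maximality of the orthogonal subgroups of `SU_n(q)`, `q` odd.
-/

set_option autoImplicit false
set_option linter.unusedSectionVars false

namespace Cfsg.Agent.GeoMax.USO

open QuadraticMap Module Cfsg.Agent.Orth Cfsg.Agent.GeoMax.Ort Cfsg.Agent.GeoMax.Un
open Matrix
open scoped MatrixGroups
open Cfsg.Geo
open Cfsg.Agent.GeoMax.Symp (emb emb_apply emb_zero emb_eq_zero)

variable {F : Type*} [Field F] [Fintype F] {n q : ℕ} {F₀ : Subfield F} {P : GL (Fin n) F}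
variable {Q : QuadraticForm F₀ (Fin n → F₀)} {ω : F}

theorem exch {K V : Type*} [Field K] [AddCommGroup V] [Module K V] {c₁ c₂ c₃ : V} (h1 : c₁ ≠ 0)
    (h2 : c₂ ∉ Submodule.span K {x | x ∈ [c₁]}) (h3 : c₃ ∉ Submodule.span K {x | x ∈ [c₁, c₂]}) {α β γ : K}
    (h : α • c₁ + β • c₂ + γ • c₃ = 0) : α = 0 ∧ β = 0 ∧ γ = 0 := by
  have m1 : c₁ ∈ Submodule.span K {x | x ∈ [c₁, c₂]} := Submodule.subset_span (by simp)
  have m2 : c₂ ∈ Submodule.span K {x | x ∈ [c₁, c₂]} := Submodule.subset_span (by simp)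
  have m3 : c₁ ∈ Submodule.span K {x | x ∈ [c₁]} := Submodule.subset_span (by simp)
  have hγ : γ = 0 := by
    by_contra hγ
    apply h3
    have : c₃ = -(γ⁻¹ * α) • c₁ - (γ⁻¹ * β) • c₂ := by
      have h4 : γ⁻¹ • (α • c₁ + β • c₂ + γ • c₃) = 0 := by rw [h, smul_zero]
      rw [smul_add, smul_smul γ⁻¹ γ, inv_mul_cancel₀ hγ, one_smul] at h4
      rw [← sub_eq_zero, ← h4]; module
    rw [this]
    exact Submodule.sub_mem _ (Submodule.smul_mem _ _ m1) (Submodule.smul_mem _ _ m2)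
  rw [hγ, zero_smul, add_zero] at h
  have hβ : β = 0 := by
    by_contra hβ
    apply h2
    have : c₂ = -(β⁻¹ * α) • c₁ := by
      have h4 : β⁻¹ • (α • c₁ + β • c₂) = 0 := by rw [h, smul_zero]
      rw [smul_add, smul_smul β⁻¹ β, inv_mul_cancel₀ hβ, one_smul] at h4
      rw [← sub_eq_zero, ← h4]; module
    rw [this]
    exact Submodule.smul_mem _ _ m3
  rw [hβ, zero_smul, add_zero] at h
  exact ⟨(smul_eq_zero.1 h).resolve_right h1, hβ, hγ⟩

namespace Dat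

variable (D : Dat q P Q ω) {M : Subgroup (GL (Fin n) F)}
include D

/-- the commutator of two Siegel type elements with the same isotropic centre is a transvection -/
theorem hasT_comm {c β β' : Fin n → F} {t t' : F} (hcc : Cfsg.hermForm n F q c c = 0)
    (hβ : Cfsg.hermForm n F q β c = 0) (hβ' : Cfsg.hermForm n F q β' c = 0) {s s' : GL (Fin n) F} (hs : s ∈ M) (hs' : s' ∈ M)
    (hsx : ∀ x, (s : Matrix (Fin n) (Fin n) F) *ᵥ x = x + Cfsg.hermForm n F q x β • c - Cfsg.hermForm n F q x c • β -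
      (t * Cfsg.hermForm n F q x c) • c)
    (hsx' : ∀ x, (s' : Matrix (Fin n) (Fin n) F) *ᵥ x = x + Cfsg.hermForm n F q x β' • c - Cfsg.hermForm n F q x c • β' -
      (t' * Cfsg.hermForm n F q x c) • c) :
    HasT M c ((Cfsg.hermForm n F q β β' - Cfsg.hermForm n F q β' β) • cv q c) := by
  have hcβ : Cfsg.hermForm n F q c β = 0 := (Uni.hermForm_eq_zero_comm D.hF).1 hβ
  have hcβ' : Cfsg.hermForm n F q c β' = 0 := (Uni.hermForm_eq_zero_comm D.hF).1 hβ'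
  refine ⟨by rw [smul_dotProduct, cv_dotProduct, hcc, smul_zero], (s * s') * (s' * s)⁻¹,
    M.mul_mem (M.mul_mem hs hs') (M.inv_mem (M.mul_mem hs' hs)), ?_⟩
  have key : ∀ x, (((s * s') * (s' * s)⁻¹ : GL (Fin n) F) : Matrix (Fin n) (Fin n) F) *ᵥ x =
      x + ((Cfsg.hermForm n F q β β' - Cfsg.hermForm n F q β' β) * Cfsg.hermForm n F q x c) • c := by
    intro x
    obtain ⟨y, rfl⟩ : ∃ y, x = ((s' * s : GL (Fin n) F) : Matrix (Fin n) (Fin n) F) *ᵥ y := ⟨_, (gl_mulVec_inv _ x).symm⟩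
    rw [gl_mul_mulVec, gl_inv_mulVec, gl_mul_mulVec, gl_mul_mulVec]
    simp only [hsx, hsx', Uni.hermForm_add_left, Uni.hermForm_sub_left, Uni.hermForm_smul_left, hcc, hβ, hβ', hcβ, hcβ']
    module
  apply Matrix.ext_of_mulVec_single
  intro i
  rw [key, Matrix.add_mulVec, Matrix.one_mulVec, Matrix.vecMulVec_mulVec, smul_dotProduct, cv_dotProduct, smul_eq_mul,
    op_smul_eq_smul]

theorem UT_of (hM : M ≤ Cfsg.GU n F q ⊓ specialLinear (Fin n) F)
    (hE : ∀ a b, Q a = 0 → polar Q a b = 0 → HasE (M.comap (em P Q)) a b) {g : GL (Fin n) F} (hg : g ∈ M)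
    {c : Fin n → F₀} (hc : Q c = 0) (hgc : (g : Matrix (Fin n) (Fin n) F) *ᵥ e F₀ P c = e F₀ P c) {b b₂ : Fin n → F₀}
    (hb : polar Q b c = 0) (hb₂ : polar Q b₂ c = 0)
    (hne : (Cfsg.hermForm n F q (e F₀ P b) ((g : Matrix (Fin n) (Fin n) F) *ᵥ e F₀ P b₂)) ^ q ≠
      Cfsg.hermForm n F q (e F₀ P b) ((g : Matrix (Fin n) (Fin n) F) *ᵥ e F₀ P b₂)) : UT q M (e F₀ P c) := by
  have hgU := mem_GU.1 (hM hg).1
  set η := Cfsg.hermForm n F q (e F₀ P b) ((g : Matrix (Fin n) (Fin n) F) *ᵥ e F₀ P b₂) with hη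
  have hη' : Cfsg.hermForm n F q ((g : Matrix (Fin n) (Fin n) F) *ᵥ e F₀ P b₂) (e F₀ P b) = η ^ q :=
    (Uni.hermForm_symm D.hF _ _).symm
  have hηq : (η ^ q) ^ q = η := by rw [← hη']; exact Uni.hermForm_symm D.hF _ _
  have hκ : η - η ^ q ≠ 0 := sub_ne_zero.2 (Ne.symm hne)
  intro k hk
  have ht : k / (η - η ^ q) ∈ F₀ := by
    apply S5660.mem_of_pow_q D.hF D.hcard
    rw [div_pow, hk, Uni.sub_pow_q D.hF, hηq, ← neg_sub η (η ^ q), neg_div_neg_eq]
  set t : F₀ := ⟨k / (η - η ^ q), ht⟩ with htd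
  have hcc := D.e_iso hc
  have hgi : ∀ x y, Cfsg.hermForm n F q (((g⁻¹ : GL (Fin n) F) : Matrix (Fin n) (Fin n) F) *ᵥ x) y =
      Cfsg.hermForm n F q x ((g : Matrix (Fin n) (Fin n) F) *ᵥ y) := by
    intro x y
    rw [← hgU, gl_mulVec_inv]
  have hcb : polar Q c (t • b) = 0 := by rw [psr, pc, hb, mul_zero]
  have hcb₂ : polar Q c b₂ = 0 := by rw [pc]; exact hb₂
  obtain ⟨_, _, hs⟩ := hE c (t • b) hc hcb
  obtain ⟨_, _, hs'⟩ := hE c b₂ hc hcb₂
  have h1 := D.hasT_comm (M := M) (β := e F₀ P (t • b)) (β' := (g : Matrix (Fin n) (Fin n) F) *ᵥ e F₀ P b₂)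
    (t := ((Q (t • b) : F₀) : F)) (t' := ((Q b₂ : F₀) : F)) hcc
    (by rw [D.form, psl, hb, mul_zero]; rfl) (by rw [← hgc, hgU, D.form, hb₂]; rfl) hs
    (M.mul_mem (M.mul_mem hg hs') (M.inv_mem hg)) (fun x => D.em_eich hc hcb x) (fun x => by
      rw [gl_mul_mulVec, gl_mul_mulVec, D.em_eich hc hcb₂, Matrix.mulVec_sub, Matrix.mulVec_sub, Matrix.mulVec_add,
        Matrix.mulVec_smul, Matrix.mulVec_smul, Matrix.mulVec_smul, gl_mulVec_inv, hgi, hgi, hgc])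
  have h2 : Cfsg.hermForm n F q (e F₀ P (t • b)) ((g : Matrix (Fin n) (Fin n) F) *ᵥ e F₀ P b₂) -
      Cfsg.hermForm n F q ((g : Matrix (Fin n) (Fin n) F) *ᵥ e F₀ P b₂) (e F₀ P (t • b)) = k := by
    rw [e_smul, Uni.hermForm_smul_left, Uni.hermForm_smul_right, hη', D.pow_mem, ← hη, ← mul_sub, htd]
    exact div_mul_cancel₀ _ hκ
  rwa [h2] at h1

/-- an element with three rational fixed singular vectors is rational -/
theorem rational_of (hM : M ≤ Cfsg.GU n F q ⊓ specialLinear (Fin n) F)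
    (hE : ∀ a b, Q a = 0 → polar Q a b = 0 → HasE (M.comap (em P Q)) a b)
    (hno : ∀ c, Q c = 0 → c ≠ 0 → ¬ UT q M (e F₀ P c)) {g : GL (Fin n) F} (hg : g ∈ M)
    {c₁ c₂ c₃ : Fin n → F₀} (h1 : Q c₁ = 0) (h2 : Q c₂ = 0) (h3 : Q c₃ = 0)
    (hi : ∀ α β γ : F₀, α • c₁ + β • c₂ + γ • c₃ = 0 → α = 0 ∧ β = 0 ∧ γ = 0)
    (g1 : (g : Matrix (Fin n) (Fin n) F) *ᵥ e F₀ P c₁ = e F₀ P c₁)
    (g2 : (g : Matrix (Fin n) (Fin n) F) *ᵥ e F₀ P c₂ = e F₀ P c₂)
    (g3 : (g : Matrix (Fin n) (Fin n) F) *ᵥ e F₀ P c₃ = e F₀ P c₃) :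
    ∀ x, ∃ y, (g : Matrix (Fin n) (Fin n) F) *ᵥ e F₀ P x = e F₀ P y := by
  have n1 : c₁ ≠ 0 := by
    intro h0
    have := (hi 1 0 0 (by rw [h0]; simp)).1
    exact one_ne_zero this
  have n2 : c₂ ≠ 0 := by
    intro h0
    have := (hi 0 1 0 (by rw [h0]; simp)).2.1
    exact one_ne_zero this
  have n3 : c₃ ≠ 0 := by
    intro h0
    have := (hi 0 0 1 (by rw [h0]; simp)).2.2
    exact one_ne_zero this
  have hs1 : ∀ z : Fin n → F₀, ({x | x ∈ [z]} : Set (Fin n → F₀)) = {z} := by intro z; ext; simp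
  have hs2 : ∀ z w : Fin n → F₀, ({x | x ∈ [z, w]} : Set (Fin n → F₀)) = {z, w} := by intro z w; ext; simp
  -- the imaginary part
  have im : ∀ c, Q c = 0 → c ≠ 0 → (g : Matrix (Fin n) (Fin n) F) *ᵥ e F₀ P c = e F₀ P c → ∀ x x' x'', polar Q x c = 0 →
      (g : Matrix (Fin n) (Fin n) F) *ᵥ e F₀ P x = e F₀ P x' + ω • e F₀ P x'' → ∃ k : F₀, k • c = x'' := by
    intro c hc hc0 hgc x x' x'' hxc hgx
    by_contra hcon
    have hx'' : x'' ∉ Submodule.span F₀ {x | x ∈ [c]} := by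
      rw [hs1, Submodule.mem_span_singleton]; exact hcon
    obtain ⟨b, hb, hbx⟩ := exists_sep D.nd [c] hx''
    refine hno c hc hc0 (D.UT_of hM hE hg hc hgc (hb c (by simp)) hxc ?_)
    have h4 : Cfsg.hermForm n F q (e F₀ P b) ((g : Matrix (Fin n) (Fin n) F) *ᵥ e F₀ P x) =
        ((polar Q b x' : F₀) : F) - ω := by
      have : Cfsg.hermForm n F q (e F₀ P b) (e F₀ P x' + ω • e F₀ P x'') =
          Cfsg.hermForm n F q (e F₀ P b + ω • e F₀ P 0) (e F₀ P x' + ω • e F₀ P x'') := by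
        rw [e_zero, smul_zero, add_zero]
      rw [hgx, this, D.herm, polar_zero_left, polar_zero_left, hbx]
      push_cast; ring
    rw [h4, Uni.sub_pow_q D.hF, D.pow_mem, D.sk]
    intro h5
    have h6 : (2 : F) * ω = 0 := by linear_combination h5
    exact mul_ne_zero D.two' D.ne h6
  have two : ∀ c d, Q c = 0 → c ≠ 0 → (g : Matrix (Fin n) (Fin n) F) *ᵥ e F₀ P c = e F₀ P c →
      Q d = 0 → d ≠ 0 → (g : Matrix (Fin n) (Fin n) F) *ᵥ e F₀ P d = e F₀ P d →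
      (∀ α β : F₀, α • c = β • d → α = 0) → ∀ x, polar Q x c = 0 → polar Q x d = 0 →
      ∃ y, (g : Matrix (Fin n) (Fin n) F) *ᵥ e F₀ P x = e F₀ P y := by
    intro c d hc hc0 hgc hd hd0 hgd hcd x hxc hxd
    obtain ⟨x', x'', hx⟩ := D.exists_e ((g : Matrix (Fin n) (Fin n) F) *ᵥ e F₀ P x)
    obtain ⟨k, hk⟩ := im c hc hc0 hgc x x' x'' hxc hx
    obtain ⟨l, hl⟩ := im d hd hd0 hgd x x' x'' hxd hx
    have := hcd k l (hk.trans hl.symm)
    rw [this, zero_smul] at hk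
    refine ⟨x', ?_⟩
    rw [hx, ← hk, e_zero, smul_zero, add_zero]
  have r12 := two c₁ c₂ h1 n1 g1 h2 n2 g2 (fun α β h => (hi α (-β) 0 (by rw [h]; module)).1)
  have r23 := two c₂ c₃ h2 n2 g2 h3 n3 g3 (fun α β h => (hi 0 α (-β) (by rw [h]; module)).2.1)
  have r13 := two c₁ c₃ h1 n1 g1 h3 n3 g3 (fun α β h => (hi α 0 (-β) (by rw [h]; module)).1)
  have ne1 : c₁ ∉ Submodule.span F₀ {x | x ∈ [c₂, c₃]} := by
    rw [hs2, Submodule.mem_span_pair]
    rintro ⟨a, b, h⟩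
    exact neg_ne_zero.2 one_ne_zero (hi (-1) a b (by rw [add_assoc, h]; module)).1
  have ne2 : c₂ ∉ Submodule.span F₀ {x | x ∈ [c₁, c₃]} := by
    rw [hs2, Submodule.mem_span_pair]
    rintro ⟨a, b, h⟩
    refine neg_ne_zero.2 one_ne_zero (hi a (-1) b ?_).2.1
    rw [← h]; module
  have ne3 : c₃ ∉ Submodule.span F₀ {x | x ∈ [c₁, c₂]} := by
    rw [hs2, Submodule.mem_span_pair]
    rintro ⟨a, b, h⟩
    refine neg_ne_zero.2 one_ne_zero (hi a b (-1) ?_).2.2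
    rw [← h]; module
  obtain ⟨y₁, hy₁, hy₁'⟩ := exists_sep D.nd [c₂, c₃] ne1
  obtain ⟨y₂, hy₂, hy₂'⟩ := exists_sep D.nd [c₁, c₃] ne2
  obtain ⟨y₃, hy₃, hy₃'⟩ := exists_sep D.nd [c₁, c₂] ne3
  intro x
  obtain ⟨z₁, hz₁⟩ := r23 y₁ (hy₁ _ (by simp)) (hy₁ _ (by simp))
  obtain ⟨z₂, hz₂⟩ := r13 y₂ (hy₂ _ (by simp)) (hy₂ _ (by simp))
  obtain ⟨z₃, hz₃⟩ := r12 y₃ (hy₃ _ (by simp)) (hy₃ _ (by simp))
  obtain ⟨z₀, hz₀⟩ := r12 (x - polar Q x c₁ • y₁ - polar Q x c₂ • y₂)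
    (by rw [pdl, pdl, psl, psl, hy₁', hy₂ _ (by simp)]; ring)
    (by rw [pdl, pdl, psl, psl, hy₁ _ (by simp), hy₂']; ring)
  refine ⟨z₀ + polar Q x c₁ • z₁ + polar Q x c₂ • z₂, ?_⟩
  have hx : x = (x - polar Q x c₁ • y₁ - polar Q x c₂ • y₂) + polar Q x c₁ • y₁ + polar Q x c₂ • y₂ := by abel
  conv_lhs => rw [hx]
  rw [e_add, e_add, e_smul, e_smul, e_add, e_add, e_smul, e_smul, Matrix.mulVec_add, Matrix.mulVec_add, Matrix.mulVec_smul,
    Matrix.mulVec_smul, hz₀, hz₁, hz₂]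

/-- images of singular vectors are rational up to a scalar -/
theorem sing_rational (hM : M ≤ Cfsg.GU n F q ⊓ specialLinear (Fin n) F)
    (hE : ∀ a b, Q a = 0 → polar Q a b = 0 → HasE (M.comap (em P Q)) a b)
    (hno : ∀ c, Q c = 0 → c ≠ 0 → ¬ UT q M (e F₀ P c)) {g : GL (Fin n) F} (hg : g ∈ M) {a : Fin n → F₀}
    (ha : Q a = 0) : ∃ (l : F) (w : Fin n → F₀), (g : Matrix (Fin n) (Fin n) F) *ᵥ e F₀ P a = l • e F₀ P w := by
  have hfr := D.frk
  have hdim := D.dim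
  have hgU := mem_GU.1 (hM hg).1
  have hs1 : ∀ z : Fin n → F₀, ({x | x ∈ [z]} : Set (Fin n → F₀)) = {z} := by intro z; ext; simp
  obtain ⟨a', a'', haa⟩ := D.exists_e ((g : Matrix (Fin n) (Fin n) F) *ᵥ e F₀ P a)
  by_cases ha'0 : a' = 0
  · exact ⟨ω, a'', by rw [haa, ha'0, e_zero, zero_add]⟩
  by_cases hd : a'' ∈ Submodule.span F₀ {x | x ∈ [a']}
  · rw [hs1] at hd
    obtain ⟨c, rfl⟩ := Submodule.mem_span_singleton.1 hd
    exact ⟨1 + ω * c, a', by rw [haa, e_smul]; module⟩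
  exfalso
  have ha''0 : a'' ≠ 0 := by rintro rfl; exact hd (Submodule.zero_mem _)
  have hd' : a' ∉ Submodule.span F₀ {x | x ∈ [a'']} := by
    intro hm
    rw [hs1] at hm
    obtain ⟨c, hc⟩ := Submodule.mem_span_singleton.1 hm
    have hc0 : c ≠ 0 := by rintro rfl; rw [zero_smul] at hc; exact ha'0 hc.symm
    apply hd
    rw [hs1, Submodule.mem_span_singleton]
    exact ⟨c⁻¹, by rw [← hc, smul_smul, inv_mul_cancel₀ hc0, one_smul]⟩
  have ha0 : a ≠ 0 := by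
    rintro rfl
    have h1 := D.uniq (x := a') (y := a'') (z := 0) (w := 0) (by rw [← haa, e_zero, Matrix.mulVec_zero]; simp)
    exact ha'0 h1.1
  -- a partner
  have key : ∀ W : Submodule F₀ (Fin n → F₀), ∀ l : List (Fin n → F₀), l.length + 3 ≤ finrank F₀ W →
      ∃ c ∈ W, c ≠ 0 ∧ Q c = 0 ∧ c ∉ Submodule.span F₀ {x | x ∈ l} := by
    intro W l hl
    have hX := Symp.finrank_span_list_le (K := F₀) l
    obtain ⟨C, hC⟩ := Submodule.exists_isCompl (Submodule.span F₀ {x | x ∈ l})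
    have h5 := Submodule.finrank_add_eq_of_isCompl hC
    have h6 := Submodule.finrank_sup_add_finrank_inf_eq W C
    have h7 := Submodule.finrank_le (W ⊔ C)
    obtain ⟨d, ⟨hd1, hd2⟩, hd0, hd⟩ := exists_sing_mem Q (W ⊓ C) (by omega)
    refine ⟨d, hd1, hd0, hd, fun hm => ?_⟩
    have := hC.disjoint
    rw [Submodule.disjoint_def] at this
    exact hd0 (this d hm hd2)
  have hk1 := finrank_perp D.nd (Submodule.span F₀ {x | x ∈ [a]})
  have hk2 := Symp.finrank_span_list_le (K := F₀) [a]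
  simp only [List.length_cons, List.length_nil] at hk2
  obtain ⟨b, hbW, hb0, hb, hbn⟩ := key (perp Q (Submodule.span F₀ {x | x ∈ [a]})) [a] (by
    simp only [List.length_cons, List.length_nil]; omega)
  have hab : polar Q a b = 0 := hbW a (Submodule.subset_span (by simp))
  obtain ⟨b', b'', hbb⟩ := D.exists_e ((g : Matrix (Fin n) (Fin n) F) *ᵥ e F₀ P b)
  -- the conjugate root element
  obtain ⟨_, _, hm⟩ := hE a b ha hab
  set h := g * em P Q (eich Q a b ha hab) * g⁻¹ with hh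
  have hhM : h ∈ M := M.mul_mem (M.mul_mem hg hm) (M.inv_mem hg)
  have hgi : ∀ x y, Cfsg.hermForm n F q (((g⁻¹ : GL (Fin n) F) : Matrix (Fin n) (Fin n) F) *ᵥ x) y =
      Cfsg.hermForm n F q x ((g : Matrix (Fin n) (Fin n) F) *ᵥ y) := by
    intro x y
    rw [← hgU, gl_mulVec_inv]
  have hhx : ∀ x, (h : Matrix (Fin n) (Fin n) F) *ᵥ x = x +
      Cfsg.hermForm n F q x (e F₀ P b' + ω • e F₀ P b'') • (e F₀ P a' + ω • e F₀ P a'') -
      Cfsg.hermForm n F q x (e F₀ P a' + ω • e F₀ P a'') • (e F₀ P b' + ω • e F₀ P b'') := by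
    intro x
    have h0 : ((Q b : F₀) : F) = 0 := by rw [hb]; rfl
    rw [hh, gl_mul_mulVec, gl_mul_mulVec, D.em_eich ha hab, Matrix.mulVec_sub, Matrix.mulVec_sub, Matrix.mulVec_add,
      Matrix.mulVec_smul, Matrix.mulVec_smul, Matrix.mulVec_smul, gl_mulVec_inv, hgi, hgi, h0, zero_mul, zero_smul, sub_zero,
      haa, hbb]
  have hform : ∀ x y z : Fin n → F₀, Cfsg.hermForm n F q (e F₀ P x) (e F₀ P y + ω • e F₀ P z) =
      ((polar Q x y : F₀) : F) - ω * ((polar Q x z : F₀) : F) := by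
    intro x y z
    rw [Uni.hermForm_add_right D.hF, Uni.hermForm_smul_right, D.form, D.form, D.sk]; ring
  -- fixed vectors
  have hk3 := finrank_perp D.nd (Submodule.span F₀ {x | x ∈ [a', a'', b', b'']})
  have hk4 := Symp.finrank_span_list_le (K := F₀) [a', a'', b', b'']
  simp only [List.length_cons, List.length_nil] at hk4
  obtain ⟨c₁, hc₁W, hc₁0, hc₁, -⟩ := key (perp Q (Submodule.span F₀ {x | x ∈ [a', a'', b', b'']})) [] (by
    simp only [List.length_nil]; omega)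
  obtain ⟨c₂, hc₂W, hc₂0, hc₂, hc₂n⟩ := key (perp Q (Submodule.span F₀ {x | x ∈ [a', a'', b', b'']})) [c₁] (by
    simp only [List.length_cons, List.length_nil]; omega)
  obtain ⟨c₃, hc₃W, hc₃0, hc₃, hc₃n⟩ := key (perp Q (Submodule.span F₀ {x | x ∈ [a', a'', b', b'']})) [c₁, c₂] (by
    simp only [List.length_cons, List.length_nil]; omega)
  have hfix : ∀ c ∈ perp Q (Submodule.span F₀ {x | x ∈ [a', a'', b', b'']}),
      (h : Matrix (Fin n) (Fin n) F) *ᵥ e F₀ P c = e F₀ P c := by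
    intro c hc
    have hp : ∀ z ∈ [a', a'', b', b''], polar Q c z = 0 := by
      intro z hz
      rw [pc]; exact hc z (Submodule.subset_span hz)
    rw [hhx, hform, hform, hp a' (by simp), hp a'' (by simp), hp b' (by simp), hp b'' (by simp)]
    simp
  have hrat := D.rational_of hM hE hno hhM hc₁ hc₂ hc₃ (fun α β γ => exch hc₁0 hc₂n hc₃n) (hfix _ hc₁W) (hfix _ hc₂W)
    (hfix _ hc₃W)
  -- `ω²` is rational
  obtain ⟨δ, hδ⟩ : ∃ δ : F₀, (δ : F) = ω * ω := by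
    refine ⟨⟨ω * ω, S5660.mem_of_pow_q D.hF D.hcard ?_⟩, rfl⟩
    rw [mul_pow, D.sk]; ring
  have hid : ∀ x, polar Q x b' • a'' - polar Q x b'' • a' - polar Q x a' • b'' + polar Q x a'' • b' = 0 := by
    intro x
    obtain ⟨y, hy⟩ := hrat x
    rw [hhx, hform, hform] at hy
    have h1 : e F₀ P (x + polar Q x b' • a' - (δ * polar Q x b'') • a'' - polar Q x a' • b' + (δ * polar Q x a'') • b'') +
        ω • e F₀ P (polar Q x b' • a'' - polar Q x b'' • a' - polar Q x a' • b'' + polar Q x a'' • b') =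
        e F₀ P y + ω • e F₀ P 0 := by
      rw [e_zero, smul_zero, add_zero, ← hy]
      simp only [e_add, e_sub, e_smul]
      push_cast
      rw [hδ]
      module
    exact (D.uniq h1).2
  obtain ⟨x₁, hx₁, hx₁a⟩ := exists_sep D.nd [a''] hd'
  obtain ⟨x₂, hx₂, hx₂a⟩ := exists_sep D.nd [a'] hd
  replace hx₁ := hx₁ a'' (by simp)
  replace hx₂ := hx₂ a' (by simp)
  -- `b' = s a'`
  have i2 := hid x₂
  rw [hx₂, hx₂a, zero_smul, sub_zero, one_smul] at i2
  have j2 := congrArg (fun z => polar Q x₂ z) i2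
  simp only [par, pdr, psr, hx₂, hx₂a, polar_zero_right] at j2
  have k2 : polar Q x₂ b' = 0 := by
    have : (2 : F₀) * polar Q x₂ b' = 0 := by linear_combination j2
    exact (mul_eq_zero.1 this).resolve_left D.two
  rw [k2, zero_smul, zero_sub] at i2
  have hb' : b' = polar Q x₂ b'' • a' := by rw [← sub_eq_zero, ← i2]; module
  -- `b'' = s' a''`
  have i1 := hid x₁
  rw [hx₁, hx₁a, zero_smul, add_zero, one_smul] at i1
  have j1 := congrArg (fun z => polar Q x₁ z) i1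
  simp only [pdr, psr, hx₁, hx₁a, polar_zero_right] at j1
  have k1 : polar Q x₁ b'' = 0 := by
    have : (2 : F₀) * polar Q x₁ b'' = 0 := by linear_combination -j1
    exact (mul_eq_zero.1 this).resolve_left D.two
  rw [k1, zero_smul, sub_zero] at i1
  have hb'' : b'' = polar Q x₁ b' • a'' := (sub_eq_zero.1 i1).symm
  have hs : polar Q x₁ b' = polar Q x₂ b'' := by
    rw [hb', psr, hx₁a, mul_one]
  -- contradiction
  apply hbn
  rw [hs1, Submodule.mem_span_singleton]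
  refine ⟨polar Q x₂ b'', ?_⟩
  have h1 : (g : Matrix (Fin n) (Fin n) F) *ᵥ e F₀ P (b - polar Q x₂ b'' • a) = 0 := by
    rw [e_sub, e_smul, Matrix.mulVec_sub, Matrix.mulVec_smul, haa, hbb]
    have e1 : e F₀ P b' = ((polar Q x₂ b'' : F₀) : F) • e F₀ P a' := by rw [← e_smul, ← hb']
    have e2 : e F₀ P b'' = ((polar Q x₂ b'' : F₀) : F) • e F₀ P a'' := by rw [← e_smul, ← hs, ← hb'']
    rw [e1, e2]
    module
  have h2 : e F₀ P (b - polar Q x₂ b'' • a) = 0 := gl_mulVec_injective g (h1.trans (Matrix.mulVec_zero _).symm)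
  have h3 := (S5660.E_eq_zero (P := P)).1 h2
  exact (sub_eq_zero.1 h3).symm

/-- all of `M` is rational -/
theorem mem_sub (hM : M ≤ Cfsg.GU n F q ⊓ specialLinear (Fin n) F)
    (hE : ∀ a b, Q a = 0 → polar Q a b = 0 → HasE (M.comap (em P Q)) a b)
    (hno : ∀ c, Q c = 0 → c ≠ 0 → ¬ UT q M (e F₀ P c)) {g : GL (Fin n) F} (hg : g ∈ M) : g ∈ subfieldSubgroup F₀ P := by
  have hfr := D.frk
  have hdim := D.dim
  have hgU := mem_GU.1 (hM hg).1
  rw [S5660.mem_sub_iff]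
  have hsing := fun a (ha : Q a = 0) => D.sing_rational hM hE hno hg ha
  have hne : ∀ x : Fin n → F₀, x ≠ 0 → ∀ (l : F) (x₁ : Fin n → F₀),
      (g : Matrix (Fin n) (Fin n) F) *ᵥ e F₀ P x = l • e F₀ P x₁ → l ≠ 0 := by
    rintro x hx l x₁ h rfl
    rw [zero_smul] at h
    apply hx
    rw [← S5660.E_eq_zero (P := P)]
    exact gl_mulVec_injective g (by simpa using h)
  obtain ⟨a, ha0, ha⟩ := exists_sing Q (by omega)
  obtain ⟨l, a₁, hla⟩ := hsing a ha
  have hl := hne a ha0 l a₁ hla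
  have kk : ∀ (x x' z z' : Fin n → F₀) (k μ : F), (g : Matrix (Fin n) (Fin n) F) *ᵥ e F₀ P x = k • e F₀ P x' →
      (g : Matrix (Fin n) (Fin n) F) *ᵥ e F₀ P z = μ • e F₀ P z' → polar Q x z ≠ 0 → k * μ ^ q ∈ F₀ := by
    intro x x' z z' k μ hk hμ hxz
    have h1 := hgU (e F₀ P x) (e F₀ P z)
    rw [hk, hμ, Uni.hermForm_smul_left, Uni.hermForm_smul_right, D.form, D.form] at h1
    have h3 : ((polar Q x' z' : F₀) : F) ≠ 0 := by
      intro h0
      rw [h0, mul_zero, mul_zero] at h1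
      exact hxz (Subtype.ext h1.symm)
    have h4 : k * μ ^ q = ((polar Q x z / polar Q x' z' : F₀) : F) := by
      push_cast; rw [eq_div_iff h3, ← h1]; ring
    rw [h4]; exact SetLike.coe_mem _
  have hsing' : ∀ y, Q y = 0 → ∃ y₁, (g : Matrix (Fin n) (Fin n) F) *ᵥ e F₀ P y = l • e F₀ P y₁ := by
    intro y hy
    by_cases hy0 : y = 0
    · exact ⟨0, by rw [hy0, e_zero, Matrix.mulVec_zero, smul_zero]⟩
    obtain ⟨l', y', hy'⟩ := hsing y hy
    obtain ⟨w, -, hw1, hw2⟩ := exists_polar_ne_two (Q := Q) (P := ⊤) (a := a) (b := y)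
      (by obtain ⟨y, hy⟩ := exists_polar_ne D.nd ha0; exact ⟨y, trivial, by rw [pc]; exact hy⟩)
      (by obtain ⟨y, hy⟩ := exists_polar_ne D.nd hy0; exact ⟨y, trivial, by rw [pc]; exact hy⟩)
    obtain ⟨c, hc, hcl⟩ := repV D.nd [a, y] (by simp; omega) w 0
    have hac : polar Q a c ≠ 0 := by rw [pc, hcl a (by simp), pc]; exact hw1
    have hyc : polar Q y c ≠ 0 := by rw [pc, hcl y (by simp), pc]; exact hw2
    have hc0 : c ≠ 0 := by rintro rfl; exact hac (polar_zero_right Q a)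
    obtain ⟨μ, c', hc'⟩ := hsing c hc
    have hμ := hne c hc0 μ c' hc'
    have k1 := kk a a₁ c c' l μ hla hc' hac
    have k2 := kk y y' c c' l' μ hy' hc' hyc
    have h3 : l' / l ∈ F₀ := by
      have := F₀.div_mem k2 k1
      rwa [mul_div_mul_right _ _ (pow_ne_zero _ hμ)] at this
    refine ⟨(⟨l' / l, h3⟩ : F₀) • y', ?_⟩
    rw [hy', e_smul, smul_smul]
    congr 1
    field_simp
  refine ⟨l, hl, fun y => ?_⟩
  by_cases hy : Q y = 0
  · exact hsing' y hy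
  have hy0 : y ∉ Submodule.span F₀ {x | x ∈ ([] : List (Fin n → F₀))} := by
    intro hmem
    have e : ({x | x ∈ ([] : List (Fin n → F₀))} : Set (Fin n → F₀)) = ∅ := by ext z; simp
    rw [e, Submodule.span_empty, Submodule.mem_bot] at hmem
    exact hy (by rw [hmem, QuadraticMap.map_zero])
  obtain ⟨w, -, hw⟩ := exists_sep D.nd [] hy0
  obtain ⟨s, hs, hsl⟩ := repV D.nd [y] (by simp; omega) (Q y • w) 0
  have hsy : polar Q s y = Q y := by rw [hsl y (by simp), psl, hw, mul_one]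
  obtain ⟨s₁, hs₁⟩ := hsing' s hs
  obtain ⟨s₂, hs₂⟩ := hsing' (y - s) (by rw [qsub, hs, pc, hsy]; ring)
  refine ⟨s₁ + s₂, ?_⟩
  have : e F₀ P y = e F₀ P s + e F₀ P (y - s) := by rw [← e_add, add_sub_cancel]
  change (g : Matrix (Fin n) (Fin n) F) *ᵥ e F₀ P y = l • e F₀ P (s₁ + s₂)
  rw [this, Matrix.mulVec_add, hs₁, hs₂, e_add, smul_add]

theorem maximal : IsMaximalIn (Cfsg.GU n F q ⊓ specialLinear (Fin n) F)
    (subfieldSubgroup F₀ P ⊓ (Cfsg.GU n F q ⊓ specialLinear (Fin n) F)) := by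
  have hfr := D.frk
  have hdim := D.dim
  constructor
  · refine lt_of_le_of_ne inf_le_right ?_
    intro heq
    obtain ⟨c, hc0, hc⟩ := exists_sing Q (by omega)
    have hcc := D.e_iso hc
    have hu0 : (ω • cv q (e F₀ P c)) ⬝ᵥ (e F₀ P c) = 0 := by rw [smul_dotProduct, cv_dotProduct, hcc, smul_zero]
    have hmem := tvec_mem D.hF hu0 D.sk
    rw [← heq] at hmem
    obtain ⟨l, hl, h⟩ := S5660.mem_sub_iff.1 hmem.1
    obtain ⟨l₁, l₂, hl12⟩ := S5660.exists_coord D.hcard D.notMem l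
    have hform : ∀ y, (tvec (e F₀ P c) (ω • cv q (e F₀ P c)) hu0 : Matrix (Fin n) (Fin n) F) *ᵥ e F₀ P y =
        e F₀ P y + ω • e F₀ P (polar Q y c • c) := by
      intro y
      rw [tvec_mulVec, smul_dotProduct, cv_dotProduct, D.form, e_smul, smul_eq_mul, mul_smul]
    have hl' : ∀ y₁ : Fin n → F₀, l • e F₀ P y₁ = e F₀ P (l₁ • y₁) + ω • e F₀ P (l₂ • y₁) := by
      intro y₁
      rw [hl12, e_smul, e_smul]; module
    obtain ⟨c₁, hc₁⟩ := h c
    have h1 : e F₀ P c + ω • e F₀ P 0 = e F₀ P (l₁ • c₁) + ω • e F₀ P (l₂ • c₁) := by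
      rw [← hl', ← hc₁]
      change _ = (tvec (e F₀ P c) (ω • cv q (e F₀ P c)) hu0 : Matrix (Fin n) (Fin n) F) *ᵥ e F₀ P c
      rw [hform, pself, hc, mul_zero, zero_smul]
    obtain ⟨h2, h3⟩ := D.uniq h1
    have hc₁0 : c₁ ≠ 0 := by rintro rfl; rw [smul_zero] at h2; exact hc0 h2
    have hl₂ : l₂ = 0 := (smul_eq_zero.1 h3.symm).resolve_right hc₁0
    obtain ⟨y, hy⟩ := exists_polar_ne D.nd hc0
    obtain ⟨y₁, hy₁⟩ := h y
    have h4 : e F₀ P y + ω • e F₀ P (polar Q y c • c) = e F₀ P (l₁ • y₁) + ω • e F₀ P (l₂ • y₁) := by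
      rw [← hl', ← hy₁]
      change _ = (tvec (e F₀ P c) (ω • cv q (e F₀ P c)) hu0 : Matrix (Fin n) (Fin n) F) *ᵥ e F₀ P y
      rw [hform]
    have h5 := (D.uniq h4).2
    rw [hl₂, zero_smul] at h5
    rcases smul_eq_zero.1 h5 with h6 | h6
    · exact hy h6
    · exact hc0 h6
  · intro M hHM hMI
    have hE : ∀ a b, Q a = 0 → polar Q a b = 0 → HasE (M.comap (em P Q)) a b := by
      intro a b ha hab
      exact ⟨ha, hab, hHM (D.em_mem (eich_mem_commutator D.nd (by omega) ha hab))⟩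
    by_cases hno : ∀ c, Q c = 0 → c ≠ 0 → ¬ UT q M (e F₀ P c)
    · left
      exact le_antisymm (fun g hg => Subgroup.mem_inf.2 ⟨D.mem_sub hMI hE hno hg, hMI hg⟩) hHM
    · right
      push Not at hno
      obtain ⟨c, hc, hc0, hut⟩ := hno
      exact le_antisymm hMI (D.su_le_of_UT hMI hE hc hc0 hut)

end Dat

/-- the quadratic form of a rational structure -/
theorem exists_dat (hF : Fintype.card F = q ^ 2) (hn : 13 ≤ n) (hodd : Odd q)
    (hcard : Fintype.card F = Nat.card F₀ ^ 2) (hP : IsFormRationalStructure (Cfsg.hermForm n F q) F₀ 1 P) :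
    ∃ (Q : QuadraticForm F₀ (Fin n → F₀)) (ω : F), Dat q P Q ω := by
  have h2F : (2 : F) ≠ 0 := Orth.two_ne_zero_of_odd (by rw [hF]; exact hodd.pow)
  have h2 : (2 : F₀) ≠ 0 := by
    intro h; apply h2F
    have := congrArg (fun c : F₀ => (c : F)) h
    exact this
  have hB : ∀ x y : Fin n → F₀, Cfsg.hermForm n F q (e F₀ P x) (e F₀ P y) ∈ F₀ := by
    intro x y
    have := hP (emb F₀ x) (emb F₀ y) (fun i => (x i).2) (fun i => (y i).2)
    rwa [one_mul] at this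
  let B : (Fin n → F₀) → (Fin n → F₀) → F₀ := fun x y => ⟨_, hB x y⟩
  have hBc : ∀ x y, ((B x y : F₀) : F) = Cfsg.hermForm n F q (e F₀ P x) (e F₀ P y) := fun x y => rfl
  have hBs : ∀ x y, B x y = B y x := by
    intro x y
    apply Subtype.ext
    rw [hBc, hBc, ← Uni.hermForm_symm hF (e F₀ P y)]
    exact S5660.pow_q_of_mem hF hcard (hB y x)
  have hBal : ∀ x y z, B (x + y) z = B x z + B y z := by
    intro x y z
    apply Subtype.ext
    push_cast
    rw [hBc, hBc, hBc, Dat.e_add, Uni.hermForm_add_left]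
  have hBsl : ∀ (c : F₀) x z, B (c • x) z = c * B x z := by
    intro c x z
    apply Subtype.ext
    push_cast
    rw [hBc, hBc, Dat.e_smul, Uni.hermForm_smul_left]
  have hBar : ∀ x y z, B z (x + y) = B z x + B z y := by
    intro x y z; rw [hBs, hBal, hBs x, hBs y]
  have hBsr : ∀ (c : F₀) x z, B z (c • x) = c * B z x := by
    intro c x z; rw [hBs, hBsl, hBs x]
  have hpol : ∀ x y, QuadraticMap.polar (fun x => (2 : F₀)⁻¹ * B x x) x y = B x y := by
    intro x y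
    simp only [QuadraticMap.polar, hBal, hBar, hBs y x]
    field_simp
    ring
  let Q : QuadraticForm F₀ (Fin n → F₀) := QuadraticMap.ofPolar (fun x => (2 : F₀)⁻¹ * B x x)
    (fun a x => by simp only [hBsl, hBsr, smul_eq_mul]; ring)
    (fun x x' y => by rw [hpol, hpol, hpol, hBal])
    (fun a x y => by rw [hpol, hpol, hBsl, smul_eq_mul])
  have hQp : ∀ x y, polar Q x y = B x y := hpol
  obtain ⟨θ, hθ⟩ := Uni.exists_pow_q_ne hF
  refine ⟨Q, θ - θ ^ q, ?_⟩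
  have hω : θ - θ ^ q ≠ 0 := sub_ne_zero.2 (Ne.symm hθ)
  have hsk : (θ - θ ^ q) ^ q = -(θ - θ ^ q) := by
    rw [Uni.sub_pow_q hF, Uni.pow_q_pow_q hF]; ring
  have hω' : θ - θ ^ q ∉ F₀ := by
    intro h
    have h1 := S5660.pow_q_of_mem hF hcard h
    rw [hsk] at h1
    have h3 : (2 : F) * (θ - θ ^ q) = 0 := by linear_combination -h1
    exact (mul_ne_zero h2F hω) h3
  have hnd : ∀ x, (∀ y, polar Q x y = 0) → x = 0 := by
    intro x hx
    rw [← S5660.E_eq_zero (P := P)]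
    apply Uni.hermForm_nondeg hF
    intro y
    obtain ⟨a, b, rfl⟩ := S5660.exists_E (P := P) hcard hω' y
    rw [Uni.hermForm_add_right hF, Uni.hermForm_smul_right]
    have h0 : ∀ z, Cfsg.hermForm n F q (S5660.E F₀ P x) (S5660.E F₀ P z) = 0 := by
      intro z
      have := hx z
      rw [hQp] at this
      have h3 := congrArg (fun c : F₀ => (c : F)) this
      exact h3
    rw [h0, h0]; ring
  exact ⟨hF, hcard, fun x y => by rw [hQp], ⟨fun x hx => hnd x hx, fun x hx => hnd x fun y => by rw [pc]; exact hx y⟩,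
    h2, hsk, hω, hn⟩

end Cfsg.Agent.GeoMax.USO
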