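import Cfsg.Agent.GeoMax.UniStd
import Cfsg.Agent.GeoMax.OTransport
import Cfsg.Agent.Uni.Gen2

/-!
The stabiliser of a pair of complementary totally singular subspaces (type `GL_k(q²).2`) in `SU_2k(q)`.
-/

set_option autoImplicit false
set_option linter.unusedSectionVars false

namespace Cfsg.Agent.GeoMax.UGL

open Matrix Module
open scoped MatrixGroups
open Cfsg.Geo Cfsg.Agent.Uni

variable {F : Type*} [Field F] [Fintype F] {n q : ℕ}

/-- the root-type element attached to `u`, `w` is in `M` -/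
def HasR (M : Subgroup (SU n F q)) (u w : Fin n → F) : Prop := ∃ g ∈ M, IsEich g u w 0

/-- the transvection `x ↦ x + d h(x,u) u` is in `M` -/
def HasTr (M : Subgroup (SU n F q)) (u : Fin n → F) (d : F) : Prop := ∃ g ∈ M, IsEich g u 0 d

lemma HasR.conj {M : Subgroup (SU n F q)} {u w : Fin n → F} (h : HasR M u w) {k : SU n F q} (hk : k ∈ M) :
    HasR M (act k u) (act k w) := by
  obtain ⟨g, hg, he⟩ := h
  exact ⟨k * g * k⁻¹, M.mul_mem (M.mul_mem hk hg) (M.inv_mem hk), he.conj k⟩

lemma HasTr.conj {M : Subgroup (SU n F q)} {u : Fin n → F} {d : F} (h : HasTr M u d) {k : SU n F q} (hk : k ∈ M) :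
    HasTr M (act k u) d := by
  obtain ⟨g, hg, he⟩ := h
  have h1 := he.conj k
  rw [act_zero] at h1
  exact ⟨k * g * k⁻¹, M.mul_mem (M.mul_mem hk hg) (M.inv_mem hk), h1⟩

lemma HasR.symm (hF : Fintype.card F = q ^ 2) {M : Subgroup (SU n F q)} {u w : Fin n → F} (h : HasR M u w)
    (hu : hermForm n F q u u = 0) (hw : hermForm n F q w w = 0) (huw : hermForm n F q u w = 0) : HasR M w u := by
  obtain ⟨g, hg, he⟩ := h
  have h1 := he.inv hF hu huw (by rw [hw, zero_pow_q hF]; ring)
  refine ⟨g⁻¹, M.inv_mem hg, fun x => ?_⟩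
  rw [h1 x, zero_pow_q hF, hermForm_neg_right hF]
  module

/-- non-commuting elements give a transvection -/
lemma exists_tr (hF : Fintype.card F = q ^ 2) {M : Subgroup (SU n F q)} {u w w' : Fin n → F}
    (hu : hermForm n F q u u = 0) (hw : hermForm n F q w w = 0) (hw' : hermForm n F q w' w' = 0)
    (huw : hermForm n F q u w = 0) (huw' : hermForm n F q u w' = 0) (h1 : HasR M u w)
    (h2 : ∀ c : F, HasR M u (c • w')) (hne : hermForm n F q w w' ≠ 0) :
    ∃ d, d ≠ 0 ∧ d ^ q = -d ∧ HasTr M u d := by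
  set κ := hermForm n F q w w' with hκ
  obtain ⟨c, hc⟩ : ∃ c : F, c ^ q * κ - c * κ ^ q ≠ 0 := by
    by_cases h0 : κ ^ q = κ
    · obtain ⟨c, hc⟩ := exists_pow_q_ne hF
      refine ⟨c, ?_⟩
      rw [h0, ← sub_mul]
      exact mul_ne_zero (sub_ne_zero.2 hc) hne
    · refine ⟨1, ?_⟩
      rw [one_pow, one_mul, one_mul]
      exact sub_ne_zero.2 (Ne.symm h0)
  refine ⟨c ^ q * κ - c * κ ^ q, hc, ?_, ?_⟩
  · rw [sub_pow_q hF, mul_pow, mul_pow, pow_q_pow_q hF, pow_q_pow_q hF]; ring
  · obtain ⟨g, hg, he⟩ := h1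
    obtain ⟨g', hg', he'⟩ := h2 c
    have h3 := he.commutator hF hu huw (by rw [hermForm_smul_right, huw', mul_zero])
      (by rw [hw, zero_pow_q hF]; ring)
      (by rw [hermForm_smul_left, hermForm_smul_right, hw', zero_pow_q hF]; ring) he'
    rw [hermForm_smul_left, hermForm_smul_right, ← hκ, ← hermForm_symm hF w w', ← hκ] at h3
    exact ⟨_, M.mul_mem (M.mul_mem (M.mul_mem hg hg') (M.inv_mem hg)) (M.inv_mem hg'), h3⟩

/-- a pair of complementary totally singular subspaces whose root elements lie in `M` -/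
structure GoodPair (M : Subgroup (SU n F q)) (X X' : Submodule F (Fin n → F)) : Prop where
  ts : ∀ x ∈ X, ∀ y ∈ X, hermForm n F q x y = 0
  ts' : ∀ x ∈ X', ∀ y ∈ X', hermForm n F q x y = 0
  sup : X ⊔ X' = ⊤
  mem : ∀ x ∈ X, ∀ x' ∈ X', hermForm n F q x x' = 0 → HasR M x x'

/-- the action as a linear map -/
def actL (g : SU n F q) : (Fin n → F) →ₗ[F] (Fin n → F) where
  toFun := act g
  map_add' := act_add g
  map_smul' := act_smul g

@[simp] lemma actL_apply (g : SU n F q) (x : Fin n → F) : actL g x = act g x := rfl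

lemma actL_injective (g : SU n F q) : Function.Injective (actL g) := fun _ _ h => act_inj.1 h

lemma exists_perp_list (hF : Fintype.card F = q ^ 2) {Y : Submodule F (Fin n → F)}
    (l : List (Fin n → F)) (hY : l.length + 1 ≤ finrank F Y) :
    ∃ v ∈ Y, v ≠ 0 ∧ ∀ w ∈ l, hermForm n F q v w = 0 := by
  by_contra hcon
  push Not at hcon
  have h1 : Y ⊓ Uni.perp q (Submodule.span F {x | x ∈ l}) = ⊥ := by
    rw [eq_bot_iff]
    rintro v ⟨hv, hvp⟩
    rw [Submodule.mem_bot]
    by_contra hne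
    obtain ⟨w, hw, hvw⟩ := hcon v hv hne
    exact hvw (hvp w (Submodule.subset_span hw))
  have h2 := Submodule.finrank_sup_add_finrank_inf_eq Y (Uni.perp q (Submodule.span F {x | x ∈ l}))
  have h3 := Uni.finrank_perp hF (Submodule.span F {x | x ∈ l})
  rw [h1, finrank_bot] at h2
  have h4 := Submodule.finrank_le (Y ⊔ Uni.perp q (Submodule.span F {x | x ∈ l}))
  rw [Module.finrank_fin_fun] at h4
  have h5 := Symp.finrank_span_list_le (K := F) l
  omega

lemma finrank_inf_perp_one (hF : Fintype.card F = q ^ 2) (W : Submodule F (Fin n → F)) (z : Fin n → F) :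
    finrank F W ≤ finrank F (W ⊓ Uni.perp q (Submodule.span F {z}) : Submodule F (Fin n → F)) + 1 := by
  have h1 := Submodule.finrank_sup_add_finrank_inf_eq W (Uni.perp q (Submodule.span F {z}))
  have h3 := Uni.finrank_perp hF (Submodule.span F {z})
  have h4 := finrank_span_le_card (R := F) ({z} : Set (Fin n → F))
  have h5 := Submodule.finrank_le (W ⊔ Uni.perp q (Submodule.span F {z}))
  rw [Module.finrank_fin_fun] at h5
  simp only [Set.toFinset_singleton, Finset.card_singleton] at h4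
  omega

lemma mem_perp_one (hF : Fintype.card F = q ^ 2) {x z : Fin n → F} :
    x ∈ Uni.perp q (Submodule.span F {z}) ↔ hermForm n F q x z = 0 := by
  rw [mem_perp_span hF]; simp

namespace GoodPair
variable {M : Subgroup (SU n F q)} {X X' Y Y' A B : Submodule F (Fin n → F)}

lemma symm (hF : Fintype.card F = q ^ 2) (h : GoodPair M X X') : GoodPair M X' X :=
  ⟨h.ts', h.ts, by rw [sup_comm]; exact h.sup, fun x hx x' hx' h0 => by
    have h1 := (hermForm_eq_zero_comm hF).1 h0
    exact (h.mem x' hx' x hx h1).symm hF (h.ts x' hx' x' hx') (h.ts' x hx x hx) h1⟩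

lemma map (h : GoodPair M X X') {g : SU n F q} (hg : g ∈ M) :
    GoodPair M (X.map (actL g)) (X'.map (actL g)) := by
  refine ⟨?_, ?_, ?_, ?_⟩
  · rintro _ ⟨x, hx, rfl⟩ _ ⟨y, hy, rfl⟩
    rw [actL_apply, actL_apply, act_form]; exact h.ts x hx y hy
  · rintro _ ⟨x, hx, rfl⟩ _ ⟨y, hy, rfl⟩
    rw [actL_apply, actL_apply, act_form]; exact h.ts' x hx y hy
  · rw [← Submodule.map_sup, h.sup, Submodule.map_top, LinearMap.range_eq_top]
    intro y
    exact ⟨act g⁻¹ y, act_act_inv g y⟩
  · rintro _ ⟨x, hx, rfl⟩ _ ⟨x', hx', rfl⟩ h0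
    rw [actL_apply, actL_apply, act_form] at h0
    exact (h.mem x hx x' hx' h0).conj hg

lemma exists_add (h : GoodPair M X X') (v : Fin n → F) : ∃ a ∈ X, ∃ b ∈ X', v = a + b := by
  have hv : v ∈ X ⊔ X' := by rw [h.sup]; trivial
  obtain ⟨a, ha, b, hb, hab⟩ := Submodule.mem_sup.1 hv
  exact ⟨a, ha, b, hb, hab.symm⟩

lemma mem_of_perp (hF : Fintype.card F = q ^ 2) (h : GoodPair M X X') {v : Fin n → F}
    (hv : ∀ x ∈ X, hermForm n F q v x = 0) : v ∈ X := by
  obtain ⟨a, ha, b, hb, rfl⟩ := h.exists_add v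
  have hb0 : b = 0 := by
    apply hermForm_nondeg (q := q) hF
    intro z
    obtain ⟨x, hx, y, hy, rfl⟩ := h.exists_add z
    have := hv x hx
    rw [hermForm_add_left, h.ts a ha x hx, zero_add] at this
    rw [hermForm_add_right hF, this, h.ts' b hb y hy, add_zero]
  rw [hb0, add_zero]; exact ha

lemma smul_mem (h : GoodPair M X X') {x x' : Fin n → F} (hx : x ∈ X) (hx' : x' ∈ X')
    (h0 : hermForm n F q x x' = 0) (c : F) : HasR M x (c • x') :=
  h.mem x hx _ (X'.smul_mem c hx') (by rw [hermForm_smul_right, h0, mul_zero])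

lemma le_of_three (hF : Fintype.card F = q ^ 2) (hX : GoodPair M X X') (hY : GoodPair M Y Y')
    (hno : ∀ v ∈ X, v ≠ 0 → ∀ d, d ≠ 0 → d ^ q = -d → ¬ HasTr M v d)
    (h3 : 3 ≤ finrank F (X ⊓ Y : Submodule F (Fin n → F))) : Y' ≤ X' := by
  intro y' hy'
  apply (hX.symm hF).mem_of_perp hF
  intro x' hx'
  obtain ⟨v, ⟨hvX, hvY⟩, hv0, hv⟩ := exists_perp_list hF [y', x'] h3
  by_contra hne
  obtain ⟨d, hd, hdq, hdM⟩ := exists_tr hF (hX.ts v hvX v hvX) (hY.ts' y' hy' y' hy') (hX.ts' x' hx' x' hx')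
    (hv y' (by simp)) (hv x' (by simp)) (hY.mem v hvY y' hy' (hv y' (by simp)))
    (hX.smul_mem hvX hx' (hv x' (by simp))) hne
  exact hno v hvX hv0 d hd hdq hdM

lemma dich (hF : Fintype.card F = q ^ 2) (hA : GoodPair M A B) (hX : GoodPair M X X')
    (hno : ∀ v ∈ X, v ≠ 0 → ∀ d, d ≠ 0 → d ^ q = -d → ¬ HasTr M v d) {v : Fin n → F} (hvX : v ∈ X) (hv0 : v ≠ 0)
    {a b : Fin n → F} (ha : a ∈ A) (hb : b ∈ B) (hab : hermForm n F q a b = 0) (hav : hermForm n F q a v = 0)
    (hbv : hermForm n F q b v = 0) :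
    (∀ u ∈ X', hermForm n F q u v = 0 → hermForm n F q u a = 0) ∨
      (∀ u ∈ X', hermForm n F q u v = 0 → hermForm n F q u b = 0) := by
  by_contra hcon
  push Not at hcon
  obtain ⟨⟨u, hu, huv, hua⟩, u', hu', hu'v, hu'b⟩ := hcon
  have hva := (hermForm_eq_zero_comm hF).1 hav
  have hvb := (hermForm_eq_zero_comm hF).1 hbv
  have key : ∀ c : F, c ^ q * (hermForm n F q u a * hermForm n F q b u') = c * (hermForm n F q u b * hermForm n F q a u') := by
    intro c
    by_contra hne
    obtain ⟨r, hr, hre⟩ := hA.mem (c • a) (A.smul_mem c ha) b hb (by rw [hermForm_smul_left, hab, mul_zero])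
    have hrv : act r v = v := by
      rw [hre v, hermForm_smul_right, hva, hvb]; simp
    have hru : act r u = u + (c ^ q * hermForm n F q u a) • b - (c * hermForm n F q u b) • a := by
      rw [hre u, hermForm_smul_right, zero_mul, zero_smul, add_zero, smul_smul, mul_comm c]
    have h1 := (hX.mem v hvX u hu ((hermForm_eq_zero_comm hF).1 huv)).conj hr
    rw [hrv] at h1
    obtain ⟨d, hd, hdq, hdM⟩ := exists_tr hF (w := act r u) (w' := u') (hX.ts v hvX v hvX)
      (by rw [act_form]; exact hX.ts' u hu u hu) (hX.ts' u' hu' u' hu')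
      (by rw [← hrv, act_form]; exact (hermForm_eq_zero_comm hF).1 huv)
      ((hermForm_eq_zero_comm hF).1 hu'v) h1
      (hX.smul_mem hvX hu' ((hermForm_eq_zero_comm hF).1 hu'v)) (by
        rw [hru, hermForm_sub_left, hermForm_add_left, hermForm_smul_left, hermForm_smul_left, hX.ts' u hu u' hu',
          zero_add]
        intro h0
        apply hne
        linear_combination h0)
    exact hno v hvX hv0 d hd hdq hdM
  have h1 := key 1
  rw [one_pow, one_mul, one_mul] at h1
  obtain ⟨c, hc⟩ := exists_pow_q_ne hF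
  have h2 := key c
  rw [← h1, ← sub_eq_zero, ← sub_mul] at h2
  have hbu' : hermForm n F q b u' ≠ 0 := fun h0 => hu'b ((hermForm_eq_zero_comm hF).1 h0)
  exact mul_ne_zero (sub_ne_zero.2 hc) (mul_ne_zero hua hbu') h2

/-- In the absence of transvections, every good pair is the standard one. -/
lemma eq_of_no_tr (hF : Fintype.card F = q ^ 2) (hA : GoodPair M A B)
    (hdA : 6 ≤ finrank F A) (hdB : 6 ≤ finrank F B)
    (hX : GoodPair M X X')
    (hno : ∀ v ∈ X, v ≠ 0 → ∀ d, d ≠ 0 → d ^ q = -d → ¬ HasTr M v d)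
    (hnoA : ∀ v ∈ A, v ≠ 0 → ∀ d, d ≠ 0 → d ^ q = -d → ¬ HasTr M v d)
    (hnoB : ∀ v ∈ B, v ≠ 0 → ∀ d, d ≠ 0 → d ^ q = -d → ¬ HasTr M v d) : X ≤ A ∨ X ≤ B := by
  by_contra hcon
  push Not at hcon
  obtain ⟨v, hvX, hvA, hvB⟩ := Symp.exists_notMem_notMem hcon.1 hcon.2
  have hv0 : v ≠ 0 := by rintro rfl; exact hvA A.zero_mem
  have hmem : ∀ a : Fin n → F, hermForm n F q a v = 0 →
      (∀ u ∈ X', hermForm n F q u v = 0 → hermForm n F q u a = 0) → ∃ c : F, a - c • v ∈ X' := by
    intro a hav ha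
    obtain ⟨z, hz⟩ := Uni.exists_form_ne (q := q) hF hv0
    obtain ⟨x, hx, y, hy, rfl⟩ := hX.exists_add z
    rw [hermForm_add_right hF, hX.ts v hvX x hx, zero_add] at hz
    refine ⟨hermForm n F q a y / hermForm n F q v y, ?_⟩
    apply (hX.symm hF).mem_of_perp hF
    intro u hu
    -- the combination of `u` and `y` orthogonal to `v`
    have hz' : hermForm n F q y v ≠ 0 := fun h0 => hz ((hermForm_eq_zero_comm hF).1 h0)
    have h1 := ha (u - (hermForm n F q u v / hermForm n F q y v) • y) (X'.sub_mem hu (X'.smul_mem _ hy)) (by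
      rw [hermForm_sub_left, hermForm_smul_left, div_mul_cancel₀ _ hz', sub_self])
    have h2 := (hermForm_eq_zero_comm hF).1 h1
    rw [hermForm_sub_right hF, hermForm_smul_right, div_pow, hermForm_symm hF, hermForm_symm hF] at h2
    rw [hermForm_sub_left, hermForm_smul_left]
    field_simp at h2 ⊢
    linear_combination h2
  let Kv : Submodule F (Fin n → F) := Uni.perp q (Submodule.span F {v})
  have hKv : ∀ x, x ∈ Kv ↔ hermForm n F q x v = 0 := fun x => mem_perp_one hF
  let P : Submodule F (Fin n → F) := X' ⊔ Submodule.span F {v}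
  have hP : ∀ a : Fin n → F, hermForm n F q a v = 0 →
      (∀ u ∈ X', hermForm n F q u v = 0 → hermForm n F q u a = 0) → a ∈ P := by
    intro a hav ha
    obtain ⟨c, hc⟩ := hmem a hav ha
    have : a = (a - c • v) + c • v := by abel
    rw [this]
    exact Submodule.add_mem_sup hc (Submodule.smul_mem _ _ (Submodule.mem_span_singleton_self v))
  have hbig : ∀ W : Submodule F (Fin n → F), 4 ≤ finrank F W → W ≤ P →
      3 ≤ finrank F (W ⊓ X' : Submodule F (Fin n → F)) := by
    intro W hW hWP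
    have h1 := Submodule.finrank_sup_add_finrank_inf_eq W X'
    have h3 : finrank F (W ⊔ X' : Submodule F (Fin n → F)) ≤ finrank F P :=
      Submodule.finrank_mono (sup_le hWP le_sup_left)
    have h4 : finrank F P ≤ finrank F X' + 1 := by
      have := Submodule.finrank_add_le_finrank_add_finrank X' (Submodule.span F {v})
      rwa [finrank_span_singleton hv0] at this
    omega
  by_cases hAP : A ⊓ Kv ≤ P
  · have h3 := hbig (A ⊓ Kv) (by
      have := finrank_inf_perp_one hF A v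
      change _ ≤ finrank F (A ⊓ Kv : Submodule F (Fin n → F)) + 1 at this
      omega) hAP
    have h4 : 3 ≤ finrank F (A ⊓ X' : Submodule F (Fin n → F)) :=
      h3.trans (Submodule.finrank_mono (inf_le_inf_right _ inf_le_left))
    exact hvB (hA.le_of_three hF (hX.symm hF) hnoA h4 hvX)
  · obtain ⟨a, ⟨haA, hav⟩, haP⟩ := SetLike.not_le_iff_exists.1 hAP
    have hav' : hermForm n F q a v = 0 := (hKv a).1 hav
    have hle : (B ⊓ Kv) ⊓ Uni.perp q (Submodule.span F {a}) ≤ P := by
      rintro b ⟨⟨hbB, hbv⟩, hba⟩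
      have hbv' : hermForm n F q b v = 0 := (hKv b).1 hbv
      have hba' : hermForm n F q b a = 0 := (mem_perp_one hF).1 hba
      rcases hA.dich hF hX hno hvX hv0 haA hbB ((hermForm_eq_zero_comm hF).1 hba') hav' hbv' with h | h
      · exact absurd (hP a hav' h) haP
      · exact hP b hbv' h
    have h3 := hbig _ (by
      have e1 := finrank_inf_perp_one hF B v
      have e2 := finrank_inf_perp_one hF (B ⊓ Kv) a
      change _ ≤ finrank F (B ⊓ Kv : Submodule F (Fin n → F)) + 1 at e1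
      omega) hle
    have h4 : 3 ≤ finrank F (B ⊓ X' : Submodule F (Fin n → F)) :=
      h3.trans (Submodule.finrank_mono (inf_le_inf_right _ (inf_le_left.trans inf_le_left)))
    exact hvA ((hA.symm hF).le_of_three hF (hX.symm hF) hnoB h4 hvX)

/-- From one transvection with centre in `A` to all of them. -/
lemma all_of_tr (hF : Fintype.card F = q ^ 2) (hA : GoodPair M A B)
    (hdA : 2 ≤ finrank F A) {a : Fin n → F} (ha : a ∈ A) (ha0 : a ≠ 0) {d : F} (hd : d ≠ 0) (hdq : d ^ q = -d)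
    (h : HasTr M a d) : ∀ x ∈ A, x ≠ 0 → ∀ c, c ^ q = -c → HasTr M x c := by
  have hmove : ∀ x ∈ A, x ≠ 0 → ∀ x' ∈ A, x ∉ Submodule.span F {x' - x} → HasTr M x d → HasTr M x' d := by
    intro x hx hx0 x' hx' hind hm
    obtain ⟨z, hz, hxz⟩ : ∃ z, hermForm n F q (x' - x) z = 0 ∧ hermForm n F q x z ≠ 0 := by
      by_contra hcon
      push Not at hcon
      apply hind
      rw [← Uni.perp_perp (q := q) hF (Submodule.span F {x' - x}), Uni.mem_perp]
      intro w hw
      exact hcon w ((hermForm_eq_zero_comm hF).1 ((mem_perp_one hF).1 hw))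
    obtain ⟨y, hy, b, hb, rfl⟩ := hA.exists_add z
    rw [hermForm_add_right hF, hA.ts x hx y hy, zero_add] at hxz
    rw [hermForm_add_right hF, hA.ts _ (A.sub_mem hx' hx) y hy, zero_add] at hz
    -- choose the scalar
    obtain ⟨e, he⟩ : ∃ e : F, e ^ q * hermForm n F q x b = -1 := by
      refine ⟨(-(hermForm n F q x b)⁻¹) ^ q, ?_⟩
      rw [pow_q_pow_q hF]; field_simp
    obtain ⟨r, hr, hre⟩ := hA.mem (x' - x) (A.sub_mem hx' hx) (e • b) (B.smul_mem _ hb) (by
      rw [hermForm_smul_right, hz, mul_zero])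
    have h3 := hm.conj hr
    rwa [hre x, hermForm_smul_right, he, hA.ts x hx _ (A.sub_mem hx' hx), zero_smul, add_zero, neg_smul, one_smul,
      zero_mul, zero_smul, add_zero, sub_neg_eq_add, add_sub_cancel] at h3
  have hnot : ∀ x x' : Fin n → F, x ≠ 0 → x' ∉ Submodule.span F {x} → x ∉ Submodule.span F {x' - x} := by
    intro x x' hx0 hx' h
    obtain ⟨c, hc⟩ := Submodule.mem_span_singleton.1 h
    have hc0 : c ≠ 0 := by rintro rfl; rw [zero_smul] at hc; exact hx0 hc.symm
    apply hx'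
    rw [Submodule.mem_span_singleton]
    refine ⟨c⁻¹ + 1, ?_⟩
    rw [add_smul, one_smul]
    nth_rewrite 1 [← hc]
    rw [smul_smul, inv_mul_cancel₀ hc0, one_smul]; abel
  have hall : ∀ x ∈ A, x ≠ 0 → HasTr M x d := by
    have hstep : ∀ x ∈ A, x ≠ 0 → ∀ x' ∈ A, x' ≠ 0 → x' ∉ Submodule.span F {x} → HasTr M x d → HasTr M x' d :=
      fun x hx hx0 x' hx' _ hind hm => hmove x hx hx0 x' hx' (hnot x x' hx0 hind) hm
    intro x hx hx0
    by_cases hxa : x ∈ Submodule.span F {a}
    · obtain ⟨y, hyA, hy⟩ : ∃ y ∈ A, y ∉ Submodule.span F {a} := by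
        by_contra hcon
        push Not at hcon
        have : A ≤ Submodule.span F {a} := hcon
        have := Submodule.finrank_mono this
        rw [finrank_span_singleton ha0] at this
        omega
      have hy0 : y ≠ 0 := by rintro rfl; exact hy (Submodule.zero_mem _)
      have h1 := hstep a ha ha0 y hyA hy0 hy h
      refine hstep y hyA hy0 x hx hx0 ?_ h1
      intro hxy
      obtain ⟨c, rfl⟩ := Submodule.mem_span_singleton.1 hxa
      have hc0 : c ≠ 0 := by rintro rfl; rw [zero_smul] at hx0; exact hx0 rfl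
      have h3 := Submodule.smul_mem _ c⁻¹ hxy
      rw [smul_smul, inv_mul_cancel₀ hc0, one_smul] at h3
      obtain ⟨c', hc'⟩ := Submodule.mem_span_singleton.1 h3
      have hc'0 : c' ≠ 0 := by rintro rfl; rw [zero_smul] at hc'; exact ha0 hc'.symm
      apply hy
      rw [Submodule.mem_span_singleton]
      exact ⟨c'⁻¹, by rw [← hc', smul_smul, inv_mul_cancel₀ hc'0, one_smul]⟩
    · exact hstep a ha ha0 x hx hx0 hxa h
  intro x hx hx0 c hc
  -- `c = d e^{q+1}`
  by_cases hc0 : c = 0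
  · refine ⟨1, M.one_mem, ?_⟩
    rw [hc0]; exact isEich_one hF x
  obtain ⟨e, he⟩ := exists_norm_eq hF (c := c / d) (by rw [div_pow, hc, hdq, neg_div_neg_eq])
  have he0 : e ≠ 0 := by
    rintro rfl
    rw [zero_pow (Nat.succ_ne_zero q)] at he
    exact (div_ne_zero hc0 hd) he.symm
  obtain ⟨g, hg, hge⟩ := hall (e • x) (A.smul_mem _ hx) (smul_ne_zero he0 hx0)
  refine ⟨g, hg, ?_⟩
  rw [isEich_zero_iff hF] at hge ⊢
  intro y
  have h5 : c = d * e ^ (q + 1) := by rw [he]; field_simp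
  rw [hge y, hermForm_smul_right, smul_smul, h5]
  congr 2
  ring

/-- all transvections with centres in `A ∪ B` generate everything -/
lemma all_iso (hF : Fintype.card F = q ^ 2) (hA : GoodPair M A B)
    (hTA : ∀ x ∈ A, x ≠ 0 → ∀ c, c ^ q = -c → HasTr M x c) (hTB : ∀ x ∈ B, x ≠ 0 → ∀ c, c ^ q = -c → HasTr M x c) :
    ∀ v, v ≠ 0 → hermForm n F q v v = 0 → ∀ c, c ^ q = -c → HasTr M v c := by
  have hconj : ∀ (u b : Fin n → F), (∀ c, c ^ q = -c → HasTr M u c) → (∀ c, c ^ q = -c → HasTr M b c) →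
      hermForm n F q b b = 0 → hermForm n F q u b ≠ 0 → (hermForm n F q u b) ^ q = - hermForm n F q u b →
      ∀ c, c ^ q = -c → HasTr M (u + b) c := by
    intro u b hu hb hbb hub hubq c hc
    obtain ⟨r, hr, hre⟩ := hb (hermForm n F q u b)⁻¹ (by rw [inv_pow, hubq, inv_neg])
    have h3 := (hu c hc).conj hr
    rw [isEich_zero_iff hF] at hre
    rwa [hre u, inv_mul_cancel₀ hub, one_smul] at h3
  intro v hv0 hvv
  obtain ⟨a, ha, b, hb, rfl⟩ := hA.exists_add v
  by_cases ha0 : a = 0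
  · rw [ha0, zero_add] at hv0 ⊢
    exact hTB b hb hv0
  by_cases hb0 : b = 0
  · rw [hb0, add_zero] at hv0 ⊢
    exact hTA a ha hv0
  have hsk : (hermForm n F q a b) ^ q = - hermForm n F q a b := by
    rw [hermForm_add_left, hermForm_add_right hF, hermForm_add_right hF, hA.ts a ha a ha, hA.ts' b hb b hb, zero_add,
      add_zero] at hvv
    rw [hermForm_symm hF]
    linear_combination hvv
  by_cases hab : hermForm n F q a b = 0
  · obtain ⟨z, hz⟩ := Uni.exists_form_ne (q := q) hF ha0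
    obtain ⟨x, hx, b', hb', rfl⟩ := hA.exists_add z
    rw [hermForm_add_right hF, hA.ts a ha x hx, zero_add] at hz
    obtain ⟨κ, hκ, hκq⟩ := exists_skew hF
    -- rescale `b'` so that `h(a, b') = κ`
    set b'' := ((κ / hermForm n F q a b') ^ q) • b' with hb''
    have hb''B : b'' ∈ B := B.smul_mem _ hb'
    have h1 : hermForm n F q a b'' = κ := by
      rw [hb'', hermForm_smul_right, pow_q_pow_q hF, div_mul_cancel₀ _ hz]
    have hb''0 : b'' ≠ 0 := by
      intro h0; rw [h0, hermForm_zero_right hF] at h1; exact hκ h1.symm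
    have h2 := hconj a b'' (hTA a ha ha0) (hTB b'' hb''B hb''0) (hA.ts' b'' hb''B b'' hb''B) (by rw [h1]; exact hκ)
      (by rw [h1]; exact hκq)
    have hbb : b - b'' ≠ 0 := by
      intro h0
      have : b = b'' := sub_eq_zero.1 h0
      rw [← this, hab] at h1
      exact hκ h1.symm
    have h4 : hermForm n F q (a + b'') (b - b'') = -κ := by
      rw [hermForm_add_left, hermForm_sub_right hF, hab, h1, hA.ts' b'' hb''B _ (B.sub_mem hb hb''B)]; ring
    have h5 := hconj (a + b'') (b - b'') h2 (hTB _ (B.sub_mem hb hb''B) hbb)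
      (hA.ts' _ (B.sub_mem hb hb''B) _ (B.sub_mem hb hb''B)) (by rw [h4]; exact neg_ne_zero.2 hκ)
      (by rw [h4, neg_pow_q hF, hκq])
    have : a + b'' + (b - b'') = a + b := by abel
    rwa [this] at h5
  · exact hconj a b (hTA a ha ha0) (hTB b hb hb0) (hA.ts' b hb b hb) hab hsk

end GoodPair

/-- A subgroup of `SU` containing all transvections is everything. -/
lemma eq_top_of_tr (hF : Fintype.card F = q ^ 2) (hn : 4 ≤ n) {M : Subgroup (SU n F q)}
    (h : ∀ v, v ≠ 0 → hermForm n F q v v = 0 → ∀ c, c ^ q = -c → HasTr M v c) : M = ⊤ := by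
  have h1 := Un.su_le hF hn (M.map (Un.suGL n F q)) (fun v hv c hc => by
    by_cases hv0 : v = 0
    · rw [hv0]; exact HasT.zero_left _ _
    obtain ⟨g, hg, hge⟩ := h v hv0 hv c hc
    rw [isEich_zero_iff_matrix hF] at hge
    rw [HasT]
    refine ⟨?_, Un.suGL n F q g, ⟨g, hg, rfl⟩, ?_⟩
    · rw [smul_dotProduct, Un.cv_dotProduct, hv, smul_zero]
    · rw [Un.suGL_coe, hge, vecMulVec_smul]
      rfl)
  rw [eq_top_iff]
  intro g _
  have h2 : Un.suGL n F q g ∈ Cfsg.GU n F q ⊓ specialLinear (Fin n) F := by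
    refine ⟨SU_pres g, ?_⟩
    change GeneralLinearGroup.det _ = 1
    apply Units.ext
    rw [GeneralLinearGroup.val_det_apply, Un.suGL_coe]
    exact (g : Matrix.SpecialLinearGroup (Fin n) F).2
  obtain ⟨g', hg', hgg⟩ := h1 h2
  have h3 : g' = g := SU_ext (congrArg (fun x : GL (Fin n) F => (x : Matrix (Fin n) (Fin n) F)) hgg)
  rwa [← h3]

end Cfsg.Agent.GeoMax.UGL
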