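import Cfsg.Agent.GeoMax.UniGL

/-!
The swap in `SU` of two complementary totally singular subspaces, and maximality of their stabiliser.
-/

set_option autoImplicit false
set_option linter.unusedSectionVars false

namespace Cfsg.Agent.GeoMax.UGL

open Matrix Module
open scoped MatrixGroups
open Cfsg.Geo Cfsg.Agent.Uni

variable {F : Type*} [Field F] [Fintype F] {n q : ℕ}

/-- `det (1 + N) = 1` if `N² = 0` -/
lemma det_one_add_of_sq {ι : Type*} [Fintype ι] [DecidableEq ι] {N : Matrix ι ι F} (hN : N * N = 0) : (1 + N).det = 1 := by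
  obtain ⟨p, hp⟩ := CharP.exists F
  have hpp : p.Prime := CharP.char_is_prime F p
  haveI : Fact p.Prime := ⟨hpp⟩
  have h1 : ∀ m : ℕ, (1 + N) ^ m = 1 + (m : F) • N := by
    intro m
    induction m with
    | zero => simp
    | succ m ih =>
      rw [pow_succ, ih, add_mul, one_mul, mul_add, mul_one, Matrix.smul_mul, hN, smul_zero, add_zero]
      push_cast
      rw [add_smul, one_smul]; abel
  have h2 := h1 p
  rw [CharP.cast_eq_zero, zero_smul, add_zero] at h2
  have h3 : (1 + N).det ^ p = 1 := by rw [← Matrix.det_pow, h2, Matrix.det_one]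
  have h4 : frobenius F p (1 + N).det = frobenius F p 1 := by
    rw [frobenius_def, frobenius_def, h3, one_pow]
  exact frobenius_inj F p h4

lemma exists_SU_of_sq (N : (Fin n → F) →ₗ[F] (Fin n → F)) (hN : ∀ v, N (N v) = 0)
    (hp : ∀ v w, hermForm n F q (v + N v) (w + N w) = hermForm n F q v w) :
    ∃ g : SU n F q, ∀ v, act g v = v + N v := by
  have h1 : ∀ v, (1 + LinearMap.toMatrix' N) *ᵥ v = v + N v := by
    intro v
    rw [Matrix.add_mulVec, Matrix.one_mulVec, LinearMap.toMatrix'_mulVec]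
  have hP : Pres q (1 + LinearMap.toMatrix' N) := fun x y => by rw [h1, h1, hp]
  have hD : (1 + LinearMap.toMatrix' N).det = 1 := by
    apply det_one_add_of_sq
    rw [← LinearMap.toMatrix'_comp]
    have : N ∘ₗ N = 0 := LinearMap.ext hN
    rw [this, map_zero]
  exact ⟨mkSU (1 + LinearMap.toMatrix' N) hP hD, fun v => by rw [act_def, mkSU_coe, h1]⟩

lemma exists_dual (hF : Fintype.card F = q ^ 2) {A B : Submodule F (Fin n → F)}
    (hB : ∀ x ∈ B, ∀ y ∈ B, hermForm n F q x y = 0)
    (hc : A ⊔ B = ⊤) {k : ℕ} (hk : finrank F B = k) (e : Basis (Fin k) F A) :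
    ∃ f : Fin k → B, ∀ i j, hermForm n F q (e i) (f j) = if i = j then 1 else 0 := by
  classical
  let T : B → (Fin k → F) := fun b i => hermForm n F q (e i) b
  have hinj : Function.Injective T := by
    intro b b' hbb
    have h1 : ∀ a ∈ A, hermForm n F q a ((b : Fin n → F) - b') = 0 := by
      intro a ha
      have h2 : a = ∑ i, e.repr ⟨a, ha⟩ i • (e i : Fin n → F) := by
        have := congrArg Subtype.val (e.sum_repr ⟨a, ha⟩)
        rw [Submodule.coe_sum] at this
        exact this.symm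
      rw [h2, hermForm_sum_left]
      refine Finset.sum_eq_zero fun i _ => ?_
      rw [hermForm_smul_left, hermForm_sub_right hF]
      have := congrFun hbb i
      change hermForm n F q (e i) b = hermForm n F q (e i) b' at this
      rw [this, sub_self, mul_zero]
    have h3 : (b : Fin n → F) - b' = 0 := by
      apply hermForm_nondeg' (q := q) hF
      intro z
      have hz : z ∈ A ⊔ B := by rw [hc]; trivial
      obtain ⟨a, ha, y, hy, rfl⟩ := Submodule.mem_sup.1 hz
      rw [hermForm_add_left, h1 a ha, hB y hy _ (B.sub_mem b.2 b'.2), add_zero]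
    exact Subtype.ext (sub_eq_zero.1 h3)
  haveI : Fintype B := Fintype.ofFinite _
  have hcard : Fintype.card B = Fintype.card (Fin k → F) := by
    rw [Module.card_eq_pow_finrank (K := F) (V := B), hk, Fintype.card_fun, Fintype.card_fin]
  have hsurj := ((Fintype.bijective_iff_injective_and_card T).2 ⟨hinj, hcard⟩).2
  choose f hf using fun j : Fin k => hsurj (Pi.single j 1)
  refine ⟨f, fun i j => ?_⟩
  have := congrFun (hf j) i
  rw [Pi.single_apply] at this
  exact this

/-- The swap. -/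
theorem exists_swap (hF : Fintype.card F = q ^ 2) {A B : Submodule F (Fin n → F)}
    (hA : ∀ x ∈ A, ∀ y ∈ A, hermForm n F q x y = 0) (hB : ∀ x ∈ B, ∀ y ∈ B, hermForm n F q x y = 0)
    (hc : IsCompl A B) {k : ℕ} (hkA : finrank F A = k) (hkB : finrank F B = k) :
    ∃ s : SU n F q, (∀ a ∈ A, act s a ∈ B) ∧ (∀ b ∈ B, act s b ∈ A) := by
  let e : Basis (Fin k) F A := (Module.finBasis F A).reindex (finCongr hkA)
  obtain ⟨f, hf⟩ := exists_dual hF hB hc.sup_eq_top hkB e
  let φ : A →ₗ[F] B := e.constr F f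
  have hφ : ∀ i, φ (e i) = f i := fun i => e.constr_basis F f i
  -- the Hermitian pairing
  have hS : ∀ a a' : A, hermForm n F q a (φ a') = ∑ i, e.repr a i * (e.repr a' i) ^ q := by
    intro a a'
    have h1 : (a : Fin n → F) = ∑ i, e.repr a i • (e i : Fin n → F) := by
      have := congrArg Subtype.val (e.sum_repr a)
      rw [Submodule.coe_sum] at this
      exact this.symm
    have h2 : (φ a' : Fin n → F) = ∑ i, e.repr a' i • (f i : Fin n → F) := by
      have h3 : φ a' = ∑ i, e.repr a' i • f i := by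
        conv_lhs => rw [← e.sum_repr a']
        rw [map_sum]
        exact Finset.sum_congr rfl fun i _ => by rw [map_smul, hφ]
      rw [h3, Submodule.coe_sum]; rfl
    rw [h2, hermForm_sum_right hF]
    refine Finset.sum_congr rfl fun i _ => ?_
    rw [hermForm_smul_right]
    nth_rewrite 1 [h1]
    rw [hermForm_sum_left, Finset.sum_eq_single i]
    · rw [hermForm_smul_left, hf, if_pos rfl]; ring
    · intro j _ hj
      rw [hermForm_smul_left, hf, if_neg hj, mul_zero]
    · intro h; exact absurd (Finset.mem_univ i) h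
  have hSs : ∀ a a' : A, (hermForm n F q a (φ a')) ^ q = hermForm n F q a' (φ a) := by
    intro a a'
    rw [hS, hS, sum_pow_q hF]
    refine Finset.sum_congr rfl fun i _ => ?_
    rw [mul_pow, pow_q_pow_q hF]; ring
  have hφinj : Function.Injective φ := by
    rw [injective_iff_map_eq_zero]
    intro a ha
    have h1 : ∀ i, e.repr a i = 0 := by
      intro i
      have h2 := hS (e i) a
      rw [ha, Submodule.coe_zero, hermForm_zero_right hF, Finset.sum_eq_single i] at h2
      · rw [e.repr_self, Finsupp.single_eq_same, one_mul] at h2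
        exact (pow_q_eq_zero hF).1 h2.symm
      · intro j _ hj
        rw [e.repr_self, Finsupp.single_eq_of_ne hj, zero_mul]
      · intro h; exact absurd (Finset.mem_univ i) h
    apply e.repr.injective
    rw [map_zero]
    ext i
    exact h1 i
  let φe : A ≃ₗ[F] B := LinearMap.linearEquivOfInjective φ hφinj (by rw [hkA, hkB])
  have hφe : ∀ a, φe a = φ a := fun a => rfl
  have hφs : ∀ b, φ (φe.symm b) = b := fun b => by rw [← hφe]; exact φe.apply_symm_apply b
  obtain ⟨κ, hκ, hκq⟩ := exists_skew hF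
  let πA := Submodule.linearProjOfIsCompl A B hc
  let πB := Submodule.linearProjOfIsCompl B A hc.symm
  have hπ : ∀ v, v = (πA v : Fin n → F) + (πB v : Fin n → F) := by
    intro v
    have hv : v ∈ A ⊔ B := by rw [hc.sup_eq_top]; trivial
    obtain ⟨a, ha, b, hb, rfl⟩ := Submodule.mem_sup.1 hv
    have h1 : πA a = ⟨a, ha⟩ := Submodule.linearProjOfIsCompl_apply_left hc ⟨a, ha⟩
    have h2 : πA b = 0 := Submodule.linearProjOfIsCompl_apply_right hc ⟨b, hb⟩
    have h3 : πB b = ⟨b, hb⟩ := Submodule.linearProjOfIsCompl_apply_left hc.symm ⟨b, hb⟩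
    have h4 : πB a = 0 := Submodule.linearProjOfIsCompl_apply_right hc.symm ⟨a, ha⟩
    rw [map_add, map_add, h1, h2, h3, h4]; simp
  have hπA0 : ∀ b : B, πA b = 0 := fun b => Submodule.linearProjOfIsCompl_apply_right hc b
  have hπB0 : ∀ a : A, πB a = 0 := fun a => Submodule.linearProjOfIsCompl_apply_right hc.symm a
  have hπAA : ∀ a : A, πA a = a := fun a => Submodule.linearProjOfIsCompl_apply_left hc a
  have hπBB : ∀ b : B, πB b = b := fun b => Submodule.linearProjOfIsCompl_apply_left hc.symm b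
  -- the two unipotent elements
  obtain ⟨x, hx⟩ := exists_SU_of_sq (q := q) (κ • (B.subtype ∘ₗ φ ∘ₗ πA)) (by
    intro v
    change κ • ((φ (πA (κ • ((φ (πA v) : B) : Fin n → F))) : B) : Fin n → F) = 0
    rw [map_smul, hπA0, smul_zero, map_zero]; simp) (by
    intro v w
    change hermForm n F q (v + κ • ((φ (πA v) : B) : Fin n → F)) (w + κ • ((φ (πA w) : B) : Fin n → F)) = _
    rw [hermForm_add_left, hermForm_add_right hF, hermForm_add_right hF, hermForm_smul_left, hermForm_smul_left,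
      hermForm_smul_right, hermForm_smul_right, hB _ (φ (πA v)).2 _ (φ (πA w)).2, hκq]
    have e1 : hermForm n F q v (φ (πA w)) = hermForm n F q (πA v) (φ (πA w)) := by
      conv_lhs => rw [hπ v]
      rw [hermForm_add_left, hB _ (πB v).2 _ (φ (πA w)).2, add_zero]
    have e2 : hermForm n F q (φ (πA v)) w = hermForm n F q (πA v) (φ (πA w)) := by
      conv_lhs => rw [hπ w]
      rw [hermForm_add_right hF, hB _ (φ (πA v)).2 _ (πB w).2, add_zero, ← hSs, hermForm_symm hF]
    rw [e1, e2]; ring)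
  obtain ⟨y, hy⟩ := exists_SU_of_sq (q := q) ((-κ⁻¹) • (A.subtype ∘ₗ (φe.symm : B →ₗ[F] A) ∘ₗ πB)) (by
    intro v
    change (-κ⁻¹) • ((φe.symm (πB ((-κ⁻¹) • ((φe.symm (πB v) : A) : Fin n → F))) : A) : Fin n → F) = 0
    rw [map_smul, hπB0, smul_zero, map_zero]; simp) (by
    intro v w
    change hermForm n F q (v + (-κ⁻¹) • ((φe.symm (πB v) : A) : Fin n → F))
      (w + (-κ⁻¹) • ((φe.symm (πB w) : A) : Fin n → F)) = _
    have hκq' : (-κ⁻¹) ^ q = κ⁻¹ := by rw [neg_pow_q hF, inv_pow, hκq, inv_neg, neg_neg]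
    rw [hermForm_add_left, hermForm_add_right hF, hermForm_add_right hF, hermForm_smul_left, hermForm_smul_left,
      hermForm_smul_right, hermForm_smul_right, hA _ (φe.symm (πB v)).2 _ (φe.symm (πB w)).2, hκq']
    have e1 : hermForm n F q v (φe.symm (πB w)) = hermForm n F q (φe.symm (πB v)) (φ (φe.symm (πB w))) := by
      conv_lhs => rw [hπ v]
      rw [hermForm_add_left, hA _ (πA v).2 _ (φe.symm (πB w)).2, zero_add]
      conv_lhs => rw [← hφs (πB v)]
      rw [← hSs, hermForm_symm hF]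
    have e2 : hermForm n F q (φe.symm (πB v)) w = hermForm n F q (φe.symm (πB v)) (φ (φe.symm (πB w))) := by
      conv_lhs => rw [hπ w]
      rw [hermForm_add_right hF, hA _ (φe.symm (πB v)).2 _ (πA w).2, zero_add, hφs]
    rw [e1, e2]; ring)
  have hx' : ∀ v, act x v = v + κ • ((φ (πA v) : B) : Fin n → F) := hx
  have hy' : ∀ v, act y v = v + (-κ⁻¹) • ((φe.symm (πB v) : A) : Fin n → F) := hy
  refine ⟨x * y * x, fun a ha => ?_, fun b hb => ?_⟩
  · have h1 : act x a = a + κ • ((φ ⟨a, ha⟩ : B) : Fin n → F) := by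
      rw [hx']
      congr 3
      exact congrArg φ (hπAA ⟨a, ha⟩)
    have h2 : act y (a + κ • ((φ ⟨a, ha⟩ : B) : Fin n → F)) = κ • ((φ ⟨a, ha⟩ : B) : Fin n → F) := by
      have h3 : πB (a + κ • ((φ ⟨a, ha⟩ : B) : Fin n → F)) = κ • φ ⟨a, ha⟩ := by
        rw [map_add, map_smul, hπBB, hπB0 ⟨a, ha⟩, zero_add]
      have h4 : φe.symm (φ ⟨a, ha⟩) = ⟨a, ha⟩ := φe.symm_apply_apply ⟨a, ha⟩
      rw [hy', h3, map_smul, h4, Submodule.coe_smul, smul_smul, neg_mul, inv_mul_cancel₀ hκ]
      module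
    have h3 : act x (κ • ((φ ⟨a, ha⟩ : B) : Fin n → F)) = κ • ((φ ⟨a, ha⟩ : B) : Fin n → F) := by
      rw [hx', map_smul, hπA0, smul_zero, map_zero]; simp
    rw [act_mul, act_mul, h1, h2, h3]
    exact B.smul_mem _ (φ ⟨a, ha⟩).2
  · have h1 : act x b = b := by
      rw [hx']
      have : πA b = 0 := hπA0 ⟨b, hb⟩
      rw [this, map_zero]; simp
    have h2 : act y b = b + (-κ⁻¹) • ((φe.symm ⟨b, hb⟩ : A) : Fin n → F) := by
      rw [hy']
      congr 3
      exact congrArg _ (hπBB ⟨b, hb⟩)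
    have h3 : act x (b + (-κ⁻¹) • ((φe.symm ⟨b, hb⟩ : A) : Fin n → F)) = (-κ⁻¹) • ((φe.symm ⟨b, hb⟩ : A) : Fin n → F) := by
      have h4 : πA (b + (-κ⁻¹) • ((φe.symm ⟨b, hb⟩ : A) : Fin n → F)) = (-κ⁻¹) • φe.symm ⟨b, hb⟩ := by
        rw [map_add, map_smul, hπAA, hπA0 ⟨b, hb⟩, zero_add]
      rw [hx', h4, map_smul, hφs, Submodule.coe_smul, smul_smul, mul_neg, mul_inv_cancel₀ hκ]
      module
    rw [act_mul, act_mul, h1, h2, h3]
    exact A.smul_mem _ (φe.symm ⟨b, hb⟩).2

/-- transport of maximality from `SU` to `GL` -/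
lemma isMaximalIn_SU (H : Subgroup (GL (Fin n) F))
    (h : ∀ M : Subgroup (SU n F q), H.comap (Un.suGL n F q) ≤ M → M = H.comap (Un.suGL n F q) ∨ M = ⊤)
    (hne : H.comap (Un.suGL n F q) ≠ ⊤) :
    IsMaximalIn (Cfsg.GU n F q ⊓ specialLinear (Fin n) F) (H ⊓ (Cfsg.GU n F q ⊓ specialLinear (Fin n) F)) := by
  have hinj : Function.Injective (Un.suGL n F q) := fun g g' hgg =>
    SU_ext (congrArg (fun x : GL (Fin n) F => (x : Matrix (Fin n) (Fin n) F)) hgg)
  have hmem : ∀ g : SU n F q, Un.suGL n F q g ∈ Cfsg.GU n F q ⊓ specialLinear (Fin n) F := by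
    intro g
    refine ⟨SU_pres g, ?_⟩
    change GeneralLinearGroup.det _ = 1
    apply Units.ext
    rw [GeneralLinearGroup.val_det_apply, Un.suGL_coe]
    exact (g : Matrix.SpecialLinearGroup (Fin n) F).2
  have htop : (⊤ : Subgroup (SU n F q)).map (Un.suGL n F q) = Cfsg.GU n F q ⊓ specialLinear (Fin n) F := by
    ext g
    constructor
    · rintro ⟨g', -, rfl⟩
      exact hmem g'
    · intro hg
      obtain ⟨g', rfl⟩ := Un.exists_suGL hg
      exact ⟨g', trivial, rfl⟩
  have hH : (H.comap (Un.suGL n F q)).map (Un.suGL n F q) = H ⊓ (Cfsg.GU n F q ⊓ specialLinear (Fin n) F) := by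
    ext g
    constructor
    · rintro ⟨g', hg', rfl⟩
      exact ⟨hg', hmem g'⟩
    · rintro ⟨hg, hg2⟩
      obtain ⟨g', rfl⟩ := Un.exists_suGL hg2
      exact ⟨g', hg, rfl⟩
  rw [← hH, ← htop]
  refine Ort.isMaximalIn_map_inj _ hinj ⟨lt_of_le_of_ne le_top hne, fun M hM _ => h M hM⟩

/-- **Maximality of `GL_k(q²).2` in `SU_2k(q)`.** -/
theorem glPair_maximal (hF : Fintype.card F = q ^ 2) {k : ℕ} (hk : 6 ≤ k) (hn : 4 ≤ n)
    (D : Fin 2 → Submodule F (Fin n → F)) (hD : IsMDecomposition k D)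
    (hts : ∀ i, IsTotallySingularFor (hermForm n F q) (D i)) :
    IsMaximalIn (Cfsg.GU n F q ⊓ specialLinear (Fin n) F)
      (decompositionStabilizer D ⊓ (Cfsg.GU n F q ⊓ specialLinear (Fin n) F)) := by
  have hd0 := hD.finrank_eq 0
  have hd1 := hD.finrank_eq 1
  have hcompl : IsCompl (D 0) (D 1) := by
    constructor
    · exact hD.indep.pairwiseDisjoint (by decide)
    · rw [codisjoint_iff, ← hD.iSup_eq_top]
      apply le_antisymm
      · exact sup_le (le_iSup D 0) (le_iSup D 1)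
      · refine iSup_le fun i => ?_
        fin_cases i
        · exact le_sup_left
        · exact le_sup_right
  have hact : ∀ (g : SU n F q) (x : Fin n → F),
      Matrix.toLin' ((Un.suGL n F q g : GL (Fin n) F) : Matrix (Fin n) (Fin n) F) x = act g x := by
    intro g x
    rw [Matrix.toLin'_apply, Un.suGL_coe]; rfl
  have hmemH : ∀ g : SU n F q, ((∀ x ∈ D 0, act g x ∈ D 0) ∧ (∀ x ∈ D 1, act g x ∈ D 1)) ∨
      ((∀ x ∈ D 0, act g x ∈ D 1) ∧ (∀ x ∈ D 1, act g x ∈ D 0)) →
      g ∈ (decompositionStabilizer D).comap (Un.suGL n F q) := by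
    intro g hg
    have hfm : ∀ W : Submodule F (Fin n → F), finrank F (W.map (Matrix.toLin' ((Un.suGL n F q g : GL (Fin n) F) :
        Matrix (Fin n) (Fin n) F))) = finrank F W := by
      intro W
      refine (Submodule.equivMapOfInjective _ ?_ W).finrank_eq.symm
      intro x y hxy
      rw [hact, hact] at hxy
      exact act_inj.1 hxy
    have hmap : ∀ i j, (∀ x ∈ D i, act g x ∈ D j) → (D i).map (Matrix.toLin' ((Un.suGL n F q g : GL (Fin n) F) :
        Matrix (Fin n) (Fin n) F)) = D j := by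
      intro i j h
      refine Submodule.eq_of_le_of_finrank_eq ?_ ?_
      · rintro _ ⟨x, hx, rfl⟩
        rw [hact]; exact h x hx
      · rw [hfm, hD.finrank_eq, hD.finrank_eq]
    rcases hg with ⟨h1, h3⟩ | ⟨h1, h3⟩
    · refine ⟨1, fun i => ?_⟩
      rw [Equiv.Perm.one_apply]
      fin_cases i
      · exact hmap 0 0 h1
      · exact hmap 1 1 h3
    · refine ⟨Equiv.swap 0 1, fun i => ?_⟩
      fin_cases i
      · exact (hmap 0 1 h1).trans (by simp)
      · exact (hmap 1 0 h3).trans (by simp)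
  refine isMaximalIn_SU _ (fun M hHM => ?_) ?_
  · by_cases hMH : M = (decompositionStabilizer D).comap (Un.suGL n F q)
    · exact Or.inl hMH
    right
    have hgood : GoodPair M (D 0) (D 1) := by
      refine ⟨hts 0, hts 1, hcompl.sup_eq_top, fun x hx x' hx' h0 => ?_⟩
      obtain ⟨g, hg⟩ := exists_eich hF x x' 0 (hts 0 x hx x hx) h0 (by
        rw [hts 1 x' hx' x' hx', zero_pow_q hF]; ring)
      refine ⟨g, hHM (hmemH g (Or.inl ⟨?_, ?_⟩)), hg⟩
      · intro y hy
        rw [hg y, hts 0 y hy x hx, zero_smul, add_zero, mul_zero, zero_smul, add_zero]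
        exact (D 0).sub_mem hy ((D 0).smul_mem _ hx)
      · intro y hy
        rw [hg y, hts 1 y hy x' hx', zero_smul, sub_zero, zero_mul, zero_smul, add_zero]
        exact (D 1).add_mem hy ((D 1).smul_mem _ hx')
    obtain ⟨s, hs0, hs1⟩ := exists_swap hF (hts 0) (hts 1) hcompl hd0 hd1
    have hsM : s ∈ M := hHM (hmemH s (Or.inr ⟨hs0, hs1⟩))
    have hfin : (∃ a ∈ D 0, a ≠ 0 ∧ ∃ d, d ≠ 0 ∧ d ^ q = -d ∧ HasTr M a d) → M = ⊤ := by
      rintro ⟨a, ha, ha0, d, hd, hdq, hm⟩
      have h0 := hgood.all_of_tr hF (by omega) ha ha0 hd hdq hm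
      refine eq_top_of_tr hF hn (hgood.all_iso hF h0 fun x hx hx0 c hc => ?_)
      have h3 : act s (act s⁻¹ x) = x := act_act_inv s x
      rw [← h3]
      have hfm : (D 0).map (actL s) = D 1 := by
        refine Submodule.eq_of_le_of_finrank_eq ?_ ?_
        · rintro _ ⟨y, hy, rfl⟩; exact hs0 y hy
        · rw [(Submodule.equivMapOfInjective _ (actL_injective s) (D 0)).finrank_eq.symm, hd0, hd1]
      rw [← hfm] at hx
      obtain ⟨y, hy, rfl⟩ := hx
      rw [actL_apply, act_inv_act]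
      refine (h0 y hy ?_ c hc).conj hsM
      rintro rfl
      exact hx0 (act_zero s)
    by_contra hcon
    have hno0 : ∀ v ∈ D 0, v ≠ 0 → ∀ d, d ≠ 0 → d ^ q = -d → ¬ HasTr M v d := fun v hv hv0 d hd hdq hm =>
      hcon (hfin ⟨v, hv, hv0, d, hd, hdq, hm⟩)
    have hno1 : ∀ v ∈ D 1, v ≠ 0 → ∀ d, d ≠ 0 → d ^ q = -d → ¬ HasTr M v d := by
      intro v hv hv0 d hd hdq hm
      exact hno0 _ (hs1 v hv) (act_ne_zero hv0) d hd hdq (hm.conj hsM)
    have hnomap : ∀ g ∈ M, ∀ W : Submodule F (Fin n → F),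
        (∀ v ∈ W, v ≠ 0 → ∀ d, d ≠ 0 → d ^ q = -d → ¬ HasTr M v d) →
        ∀ v ∈ W.map (actL g), v ≠ 0 → ∀ d, d ≠ 0 → d ^ q = -d → ¬ HasTr M v d := by
      rintro g hg W hW _ ⟨x, hx, rfl⟩ hv0 d hd hdq hm
      refine hW x hx (by rintro rfl; exact hv0 (act_zero g)) d hd hdq ?_
      have h3 := hm.conj (M.inv_mem hg)
      rwa [actL_apply, act_inv_act] at h3
    apply hMH
    refine le_antisymm (fun g hg => hmemH g ?_) hHM
    have hX := hgood.map hg
    have e0 := hgood.eq_of_no_tr hF (by omega) (by omega) hX (hnomap g hg _ hno0) hno0 hno1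
    have e1 := hgood.eq_of_no_tr hF (by omega) (by omega) (hX.symm hF) (hnomap g hg _ hno1) hno0 hno1
    have hinj := actL_injective g
    have hdm : ∀ i, finrank F ((D i).map (actL g)) = k := fun i => by
      rw [(Submodule.equivMapOfInjective _ hinj (D i)).finrank_eq.symm, hD.finrank_eq]
    have hdisj : ∀ j, ¬ ((D 0).map (actL g) ≤ D j ∧ (D 1).map (actL g) ≤ D j) := by
      rintro j ⟨h3, h4⟩
      have h5 := Submodule.eq_of_le_of_finrank_eq h3 (by rw [hdm, hD.finrank_eq])
      have h6 := Submodule.eq_of_le_of_finrank_eq h4 (by rw [hdm, hD.finrank_eq])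
      have h7 : (D 0).map (actL g) = (D 1).map (actL g) := by rw [h5, h6]
      have h8 := Submodule.map_injective_of_injective hinj h7
      have h9 := hcompl.inf_eq_bot
      rw [h8, inf_idem] at h9
      rw [h9, finrank_bot] at hd1
      omega
    have hto : ∀ i j, (D i).map (actL g) ≤ D j → ∀ x ∈ D i, act g x ∈ D j :=
      fun i j h x hx => h ⟨x, hx, rfl⟩
    rcases e0 with e0 | e0 <;> rcases e1 with e1 | e1
    · exact absurd ⟨e0, e1⟩ (hdisj 0)
    · exact Or.inl ⟨hto 0 0 e0, hto 1 1 e1⟩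
    · exact Or.inr ⟨hto 0 1 e0, hto 1 0 e1⟩
    · exact absurd ⟨e0, e1⟩ (hdisj 1)
  · intro heq
    -- a transvection outside
    obtain ⟨b, hb, hb0⟩ := Submodule.exists_mem_ne_zero_of_ne_bot (p := D 1) (by
      intro h; rw [h, finrank_bot] at hd1; omega)
    obtain ⟨z, hz⟩ := Uni.exists_form_ne (q := q) hF hb0
    have hzt : z ∈ D 0 ⊔ D 1 := by rw [hcompl.sup_eq_top]; trivial
    obtain ⟨a₀, ha₀, b', hb', rfl⟩ := Submodule.mem_sup.1 hzt
    rw [hermForm_add_right hF, hts 1 b hb b' hb', add_zero] at hz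
    obtain ⟨κ, hκ, hκq⟩ := exists_skew hF
    -- rescale
    set a := ((κ / hermForm n F q b a₀) ^ q) • a₀ with ha_def
    have ha : a ∈ D 0 := (D 0).smul_mem _ ha₀
    have hba : hermForm n F q b a = κ := by
      rw [ha_def, hermForm_smul_right, pow_q_pow_q hF, div_mul_cancel₀ _ hz]
    have hab : hermForm n F q a b = -κ := by rw [← hermForm_symm hF, hba, hκq]
    have hiso : hermForm n F q (a + b) (a + b) = 0 := by
      rw [hermForm_add_left, hermForm_add_right hF, hermForm_add_right hF, hts 0 a ha a ha, hts 1 b hb b hb, hab, hba]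
      ring
    obtain ⟨g, hg⟩ := exists_eich hF (a + b) 0 κ hiso (hermForm_zero_right hF _) (by
      rw [hermForm_zero_right hF, hκq]; ring)
    rw [isEich_zero_iff hF] at hg
    have hmem : g ∈ (decompositionStabilizer D).comap (Un.suGL n F q) := by rw [heq]; trivial
    obtain ⟨σ, hσ⟩ := hmem
    have h1 := hσ 0
    obtain ⟨x, hx, hx0, hxb⟩ := exists_perp_list hF (Y := D 0) [b] (by simp; omega)
    have hxb' := hxb b (by simp)
    have hxm : act g x ∈ D (σ 0) := by
      rw [← h1]; exact ⟨x, hx, hact g x⟩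
    rw [hg x, hermForm_add_right hF, hts 0 x hx a ha, hxb', add_zero, mul_zero, zero_smul, add_zero] at hxm
    have ham : act g a ∈ D (σ 0) := by
      rw [← h1]; exact ⟨a, ha, hact g a⟩
    rw [hg a, hermForm_add_right hF, hts 0 a ha a ha, zero_add, hab] at ham
    rcases (show σ 0 = 0 ∨ σ 0 = 1 by omega) with h | h
    · rw [h] at ham
      have h3 := (D 0).sub_mem ((D 0).sub_mem ham ha) ((D 0).smul_mem (κ * -κ) ha)
      have e : a + (κ * -κ) • (a + b) - a - (κ * -κ) • a = (κ * -κ) • b := by module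
      rw [e] at h3
      have hkk : κ * -κ ≠ 0 := mul_ne_zero hκ (neg_ne_zero.2 hκ)
      have h4 := (D 0).smul_mem (κ * -κ)⁻¹ h3
      rw [smul_smul, inv_mul_cancel₀ hkk, one_smul] at h4
      exact hb0 ((Submodule.disjoint_def.1 hcompl.disjoint) b h4 hb)
    · rw [h] at hxm
      exact hx0 ((Submodule.disjoint_def.1 hcompl.disjoint) x hx hxm)

end Cfsg.Agent.GeoMax.UGL
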